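import Mathlib
import Cfsg.Prelude.Def_Classical
import Cfsg.Prelude.Def_GeometricClasses
import Cfsg.Agent.Lib.Helper37.HypStmt
import Cfsg.Agent.Lib.Helper94.OPStmt

/-!
# S5991 (call by helper45): statement pieces

`POmega^-_(2d)(q)`, `q` odd, elements of prime order `r` (modulo scalars) and nondegenerate
`m`-spaces of ODD dimension `m < d` isometric to a given `W₀`.  Minus-form port of helper94's S5989
call (`Cfsg.Agent.Lib.Helper94.OPStmt`).  Everything is about the standard minus form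
`Cfsg.quadFormMinus (d - 1) F a b` on `M d → F`, `M d = (Fin (d - 1) ⊕ Fin (d - 1)) ⊕ Fin 2`,
dimension `2 d` (for `1 ≤ d`), with `z₁² + a z₁ z₂ + b z₂²` anisotropic (`Aniso a b`).

Transfer remark (piece EMB = library `OMiEmb`): with `β = b - a² / 4 ≠ 0`, the map
`v ↦ (t = z₁ + (a/2) z₂ ; x_j, y_j (j < d - 1) as they are ; x_last = z₂ ; y_last = β z₂)` is an
isometric embedding of the minus form into `Cfsg.quadFormOdd d F` (`d = (d - 1) + 1`), with image
the orthogonal complement of `w0 = e_(x,last) - β e_(y,last)`, `Q(w0) = -β ≠ 0`.  An isometry `x`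
of the minus form extends to the isometry `hat x` of the odd form fixing `w0`, and the landed S5992
pieces (`Cfsg.Agent.Lib.Helper37.HypStmt`) transfer exactly as in `Cfsg.Agent.Lib.Helper94.OPEmb`.
-/

set_option autoImplicit false

universe u

open scoped Matrix

namespace Cfsg.Agent.Lib.Helper45.OMiStmt

open Cfsg.Agent.Lib.Helper37.HypStmt (cc)

/-- index type of the standard minus form of dimension `2 d` -/
abbrev M (d : ℕ) : Type := (Fin (d - 1) ⊕ Fin (d - 1)) ⊕ Fin 2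

/-- the binary form `z₁² + a z₁ z₂ + b z₂²` is anisotropic -/
def Aniso {F : Type u} [Field F] (a b : F) : Prop :=
  ∀ x y : F, x ^ 2 + a * x * y + b * y ^ 2 = 0 → x = 0 ∧ y = 0

/-- `N = x - 1` as a linear map -/
def NM {F : Type u} [Field F] {d : ℕ} (x : Matrix (M d) (M d) F) :
    (M d → F) →ₗ[F] (M d → F) :=
  Matrix.toLin' x - LinearMap.id

/-- fixed space of a matrix -/
def FxM {F : Type u} [Field F] {d : ℕ} (x : Matrix (M d) (M d) F) : Submodule F (M d → F) :=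
  LinearMap.ker (Matrix.toLin' x - LinearMap.id)

theorem mem_FxM {F : Type u} [Field F] {d : ℕ} (x : Matrix (M d) (M d) F) (v : M d → F) :
    v ∈ FxM x ↔ x *ᵥ v = v := by
  unfold FxM
  rw [LinearMap.mem_ker, LinearMap.sub_apply, Matrix.toLin'_apply, LinearMap.id_apply, sub_eq_zero]

/-- the polar form of the standard minus form is nondegenerate on `W` -/
def NDegM (d : ℕ) (F : Type u) [Field F] (a b : F) (W : Submodule F (M d → F)) : Prop :=
  Cfsg.Geo.IsNondegenerateOn (QuadraticMap.polar (Cfsg.quadFormMinus (d - 1) F a b)) W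

/-- `x W ≤ W` -/
def StabM {F : Type u} [Field F] {d : ℕ} (x : Matrix (M d) (M d) F)
    (W : Submodule F (M d → F)) : Prop :=
  W.map (Matrix.toLin' x) ≤ W

/-- `W` is a nondegenerate `m`-space isometric to `W₀` -/
def MemM (d : ℕ) (F : Type u) [Field F] (a b : F) (m : ℕ) (W₀ W : Submodule F (M d → F)) : Prop :=
  Module.finrank F ↥W = m ∧
    Cfsg.Geo.IsNondegenerateOn (QuadraticMap.polar (Cfsg.quadFormMinus (d - 1) F a b)) W ∧
    Cfsg.Geo.AreIsometricFor (Cfsg.quadFormMinus (d - 1) F a b) W W₀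

/-- a `c`-structure on `U`: `ũ ∈ U` with `Q ũ = c` and a totally singular `L ≤ U`, `L ⊥ ũ`,
`2 dim L + 1 = dim U` (so `U ≅ ⟨c⟩ ⊥ hyperbolic`). -/
def CStr (d : ℕ) (F : Type u) [Field F] (a b : F) (U : Submodule F (M d → F)) (c : F) : Prop :=
  ∃ ut : M d → F, ut ∈ U ∧ Cfsg.quadFormMinus (d - 1) F a b ut = c ∧
    ∃ L : Submodule F (M d → F), L ≤ U ∧ (∀ v ∈ L, Cfsg.quadFormMinus (d - 1) F a b v = 0) ∧
      (∀ v ∈ L, QuadraticMap.polar (Cfsg.quadFormMinus (d - 1) F a b) v ut = 0) ∧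
      2 * Module.finrank F ↥L + 1 = Module.finrank F ↥U

/-- a `c`-structure on the orthogonal complement of `W` (of dimension `2 d - dim W`). -/
def CStrPerp (d : ℕ) (F : Type u) [Field F] (a b : F) (W : Submodule F (M d → F)) (c : F) :
    Prop :=
  ∃ ut : M d → F,
    (∀ w ∈ W, QuadraticMap.polar (Cfsg.quadFormMinus (d - 1) F a b) ut w = 0) ∧
    Cfsg.quadFormMinus (d - 1) F a b ut = c ∧
    ∃ L : Submodule F (M d → F),
      (∀ v ∈ L, ∀ w ∈ W, QuadraticMap.polar (Cfsg.quadFormMinus (d - 1) F a b) v w = 0) ∧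
      (∀ v ∈ L, Cfsg.quadFormMinus (d - 1) F a b v = 0) ∧
      (∀ v ∈ L, QuadraticMap.polar (Cfsg.quadFormMinus (d - 1) F a b) v ut = 0) ∧
      2 * Module.finrank F ↥L + 1 = 2 * d - Module.finrank F ↥W

/-! ## Ports of the S5992 / S5989 pieces to the minus form -/

/-- TOPNDM: the minus form is nondegenerate. -/
def TopNDM : Prop :=
  ∀ (F : Type u) [Field F] [Fintype F], Odd (Fintype.card F) → ∀ (d : ℕ) (a b : F), Aniso a b →
    NDegM d F a b ⊤

/-- FIXNDM: the fixed space of an isometry of order prime to `p` is nondegenerate. -/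
def FixNDM : Prop :=
  ∀ (F : Type u) [Field F] [Fintype F] (p : ℕ) [Fact p.Prime] [CharP F p],
    Odd (Fintype.card F) → ∀ (d : ℕ), 1 ≤ d → ∀ (a b : F), Aniso a b →
    ∀ (r : ℕ) [Fact r.Prime], r ≠ p →
    ∀ x : Matrix.GeneralLinearGroup (M d) F,
    x ∈ Cfsg.isometryGroup F (Cfsg.quadFormMinus (d - 1) F a b) →
    x ^ r = 1 → NDegM d F a b (FxM (x : Matrix (M d) (M d) F))

/-- DIMOBSM: `c` divides `dim W - dim (W ∩ Fix x)` for `x`-invariant nondegenerate `W`. -/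
def DimObsM : Prop :=
  ∀ (F : Type u) [Field F] [Fintype F] (p : ℕ) [Fact p.Prime] [CharP F p],
    Odd (Fintype.card F) → ∀ (d : ℕ), 1 ≤ d → ∀ (a b : F), Aniso a b →
    ∀ (r : ℕ) [Fact r.Prime], r ≠ 2 → r ≠ p →
    ∀ x : Matrix.GeneralLinearGroup (M d) F,
    x ∈ Cfsg.isometryGroup F (Cfsg.quadFormMinus (d - 1) F a b) →
    x ^ r = 1 → ∀ W : Submodule F (M d → F), StabM (x : Matrix (M d) (M d) F) W →
    NDegM d F a b W →
    cc (orderOf ((Fintype.card F : ℕ) : ZMod r)) ∣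
      Module.finrank F ↥W - Module.finrank F ↥(W ⊓ FxM (x : Matrix (M d) (M d) F))

/-- BLOCKSM: invariant nondegenerate subspaces of dimension `j c` without fixed vectors,
orthogonal to the fixed space, for every `j` with `j c + dim Fix x ≤ 2 d`. -/
def BlocksM : Prop :=
  ∀ (F : Type u) [Field F] [Fintype F] (p : ℕ) [Fact p.Prime] [CharP F p],
    Odd (Fintype.card F) → ∀ (d : ℕ), 1 ≤ d → ∀ (a b : F), Aniso a b →
    ∀ (r : ℕ) [Fact r.Prime], r ≠ 2 → r ≠ p →
    ∀ x : Matrix.GeneralLinearGroup (M d) F,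
    x ∈ Cfsg.isometryGroup F (Cfsg.quadFormMinus (d - 1) F a b) →
    x ^ r = 1 → ∀ j : ℕ,
    j * cc (orderOf ((Fintype.card F : ℕ) : ZMod r)) +
      Module.finrank F ↥(FxM (x : Matrix (M d) (M d) F)) ≤ 2 * d →
    ∃ E : Submodule F (M d → F), StabM (x : Matrix (M d) (M d) F) E ∧ NDegM d F a b E ∧
      Module.finrank F ↥E = j * cc (orderOf ((Fintype.card F : ℕ) : ZMod r)) ∧
      E ⊓ FxM (x : Matrix (M d) (M d) F) = ⊥ ∧
      ∀ u ∈ E, ∀ v ∈ FxM (x : Matrix (M d) (M d) F),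
        QuadraticMap.polar (Cfsg.quadFormMinus (d - 1) F a b) u v = 0

/-- NOFREEM: an isometry of order `r` of the minus form without fixed vectors exists only if
`i` is even and `2 d / i` is odd (`emb V` is an elliptic `2d`-space of the odd form without fixed
vectors of `hat x`: landed `TypeOdd` / `TypeEven`). -/
def NoFreeM : Prop :=
  ∀ (F : Type u) [Field F] [Fintype F] (p : ℕ) [Fact p.Prime] [CharP F p],
    Odd (Fintype.card F) → ∀ (d : ℕ), 1 ≤ d → ∀ (a b : F), Aniso a b →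
    ∀ (r : ℕ) [Fact r.Prime], r ≠ 2 → r ≠ p →
    ∀ x : Matrix.GeneralLinearGroup (M d) F,
    x ∈ Cfsg.isometryGroup F (Cfsg.quadFormMinus (d - 1) F a b) →
    x ^ r = 1 → FxM (x : Matrix (M d) (M d) F) = ⊥ →
    Even (orderOf ((Fintype.card F : ℕ) : ZMod r)) ∧
      Odd (2 * d / orderOf ((Fintype.card F : ℕ) : ZMod r))

/-- DERELTM: an element of `Omega^-` of order `r` whose fixed space has dimension `(2d) % c`,
provided `c ≤ 2 d` and (`(2d) % c > 0` or (`i` even and `2 d / i` odd)). -/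
def DerEltM : Prop :=
  ∀ (F : Type u) [Field F] [Fintype F] (p : ℕ) [Fact p.Prime] [CharP F p],
    Odd (Fintype.card F) → ∀ (d : ℕ), 2 ≤ d → ∀ (a b : F), Aniso a b →
    ∀ (r : ℕ) [Fact r.Prime], r ≠ 2 → r ≠ p →
    cc (orderOf ((Fintype.card F : ℕ) : ZMod r)) ≤ 2 * d →
    (0 < (2 * d) % cc (orderOf ((Fintype.card F : ℕ) : ZMod r)) ∨
      (Even (orderOf ((Fintype.card F : ℕ) : ZMod r)) ∧
        Odd (2 * d / orderOf ((Fintype.card F : ℕ) : ZMod r)))) →
    ∃ x : Matrix.GeneralLinearGroup (M d) F,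
      x ∈ Cfsg.Geo.omegaGL (Cfsg.quadFormMinus (d - 1) F a b) ∧
      orderOf x = r ∧
      Module.finrank F ↥(FxM (x : Matrix (M d) (M d) F)) =
        (2 * d) % cc (orderOf ((Fintype.card F : ℕ) : ZMod r))

/-! ## Geometry -/

/-- ODDSUBM: completing a nondegenerate even-dimensional `E` to a nondegenerate `m`-space
(`m` odd) isometric to `W₀` inside `E ⊥ Y`. -/
def OddSubM : Prop :=
  ∀ (F : Type u) [Field F] [Fintype F], Odd (Fintype.card F) → ∀ (d m : ℕ) (a b : F),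
    Aniso a b → Odd m →
    ∀ W₀ : Submodule F (M d → F), Module.finrank F ↥W₀ = m → NDegM d F a b W₀ →
    ∀ E Y : Submodule F (M d → F), NDegM d F a b E → NDegM d F a b Y →
    (∀ u ∈ E, ∀ v ∈ Y, QuadraticMap.polar (Cfsg.quadFormMinus (d - 1) F a b) u v = 0) →
    Even (Module.finrank F ↥E) → Module.finrank F ↥E < m →
    m - Module.finrank F ↥E < Module.finrank F ↥Y →
    ∃ W₁ : Submodule F (M d → F), W₁ ≤ Y ∧ MemM d F a b m W₀ (E ⊔ W₁)

/-- INVOLM: an isometry with `x * x = 1` fixes a member. -/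
def InvolM : Prop :=
  ∀ (F : Type u) [Field F] [Fintype F], Odd (Fintype.card F) → ∀ (d m : ℕ), 1 ≤ d →
    ∀ (a b : F), Aniso a b → Odd m → m < d →
    ∀ W₀ : Submodule F (M d → F), Module.finrank F ↥W₀ = m → NDegM d F a b W₀ →
    ∀ x : Matrix.GeneralLinearGroup (M d) F,
    x ∈ Cfsg.isometryGroup F (Cfsg.quadFormMinus (d - 1) F a b) →
    (x : Matrix (M d) (M d) F) * (x : Matrix (M d) (M d) F) = 1 →
    ∃ W : Submodule F (M d → F), MemM d F a b m W₀ W ∧ StabM (x : Matrix (M d) (M d) F) W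

/-- SCALM: a scalar isometry is `± 1`. -/
def ScalM : Prop :=
  ∀ (F : Type u) [Field F] [Fintype F] (d : ℕ) (a b : F),
    ∀ y : Matrix.GeneralLinearGroup (M d) F,
    y ∈ Cfsg.isometryGroup F (Cfsg.quadFormMinus (d - 1) F a b) →
    ∀ z : F, (y : Matrix (M d) (M d) F) = z • (1 : Matrix (M d) (M d) F) → z = 1 ∨ z = -1

/-- NEGREDM: an isometry `x` with `x ^ r = -1`, `r` odd, has the same invariant subspaces as the
isometry `y = -x`, and `y ^ r = 1`. -/
def NegRedM : Prop :=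
  ∀ (F : Type u) [Field F] [Fintype F] (d : ℕ) (a b : F) (r : ℕ), Odd r →
    ∀ x : Matrix.GeneralLinearGroup (M d) F,
    x ∈ Cfsg.isometryGroup F (Cfsg.quadFormMinus (d - 1) F a b) →
    ((x ^ r : Matrix.GeneralLinearGroup (M d) F) : Matrix (M d) (M d) F) = -1 →
    ∃ y : Matrix.GeneralLinearGroup (M d) F,
      y ∈ Cfsg.isometryGroup F (Cfsg.quadFormMinus (d - 1) F a b) ∧
      y ^ r = 1 ∧ ∀ W : Submodule F (M d → F),
        StabM (y : Matrix (M d) (M d) F) W ↔ StabM (x : Matrix (M d) (M d) F) W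

/-! ## `r = 2`: elements with `x * x = -1` -/

/-- NEGSQNOFIXM: an isometry with `x * x = -1` stabilises no nondegenerate subspace of odd
dimension (determinant of `x` on `W`). -/
def NegSqNoFixM : Prop :=
  ∀ (F : Type u) [Field F] [Fintype F], Odd (Fintype.card F) → ∀ (d m : ℕ) (a b : F), Odd m →
    ∀ x : Matrix.GeneralLinearGroup (M d) F,
    x ∈ Cfsg.isometryGroup F (Cfsg.quadFormMinus (d - 1) F a b) →
    (x : Matrix (M d) (M d) F) * (x : Matrix (M d) (M d) F) = -1 →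
    ∀ W : Submodule F (M d → F), Module.finrank F ↥W = m → NDegM d F a b W →
    ¬ StabM (x : Matrix (M d) (M d) F) W

/-- NEGSQEXM: `d` odd and `q ≡ 7 (mod 8)`: `Omega^-` contains an element with `x * x = -1`.
(`q ≡ 3 (mod 4)`, `d` odd: the minus form is isometric to `2 d` copies of `⟨1⟩`; `x` = the
rotation `e ↦ f ↦ -e` on each of `d` orthonormal pairs `= ∏ r_e r_(e - f)`, product of the
`Q`-values `2 ^ d`, a square as `2` is a square: `Cfsg.Agent.Lib.Helper44.Spinor.mem_commutator_iff`.) -/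
def NegSqExM : Prop :=
  ∀ (F : Type u) [Field F] [Fintype F], Fintype.card F % 8 = 7 → ∀ (d : ℕ), Odd d →
    ∀ (a b : F), Aniso a b →
    ∃ x : Matrix.GeneralLinearGroup (M d) F,
      x ∈ Cfsg.Geo.omegaGL (Cfsg.quadFormMinus (d - 1) F a b) ∧
      (x : Matrix (M d) (M d) F) * (x : Matrix (M d) (M d) F) = -1

/-- NEGSQNONAM: `d` even or `q ≡ 1 (mod 4)`: no element of `Omega^-` has `x * x = -1`
(`-1 ∉ Omega^-` by the landed S0791, as `q ^ d ≡ 1 (mod 4)`). -/
def NegSqNonAM : Prop :=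
  ∀ (F : Type u) [Field F] [Fintype F], Odd (Fintype.card F) → ∀ (d : ℕ), 1 ≤ d →
    (Even d ∨ Fintype.card F % 4 = 1) → ∀ (a b : F), Aniso a b →
    ∀ x : Matrix.GeneralLinearGroup (M d) F,
    x ∈ Cfsg.Geo.omegaGL (Cfsg.quadFormMinus (d - 1) F a b) →
    (x : Matrix (M d) (M d) F) * (x : Matrix (M d) (M d) F) ≠ -1

/-- NEGSQNONBM: `d` odd, `q ≡ 3 (mod 8)`: no element of `Omega^-` has `x * x = -1`.
(`V` is an orthogonal sum of `d` planes `⟨v, x v⟩`, `Q (x v) = Q v ≠ 0`, `v ⊥ x v`; on each plane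
`x = r_v r_(v - x v)`, so `x` is a product of `2 d` reflections with product of `Q`-values
`2 ^ d * square`, a non-square: `Cfsg.Agent.Lib.Helper44.Spinor.mem_commutator_iff`.) -/
def NegSqNonBM : Prop :=
  ∀ (F : Type u) [Field F] [Fintype F], Fintype.card F % 8 = 3 → ∀ (d : ℕ), 1 ≤ d → Odd d →
    ∀ (a b : F), Aniso a b →
    ∀ x : Matrix.GeneralLinearGroup (M d) F,
    x ∈ Cfsg.Geo.omegaGL (Cfsg.quadFormMinus (d - 1) F a b) →
    (x : Matrix (M d) (M d) F) * (x : Matrix (M d) (M d) F) ≠ -1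

/-! ## `r = p`: unipotent elements -/

/-- PELTAM: a Siegel element: `x ∈ Omega^-` of order `p` with `(x - 1) V ≤ Fix x` and
`dim (x - 1) V = ρ`, for every even `ρ` with `2 ≤ ρ ≤ d - 1` (inside the hyperbolic part). -/
def PEltAM : Prop :=
  ∀ (F : Type u) [Field F] [Fintype F] (p : ℕ) [Fact p.Prime] [CharP F p],
    Odd (Fintype.card F) → ∀ (d ρ : ℕ) (a b : F), Aniso a b → Even ρ → 2 ≤ ρ → ρ ≤ d - 1 →
    ∃ x : Matrix.GeneralLinearGroup (M d) F,
      x ∈ Cfsg.Geo.omegaGL (Cfsg.quadFormMinus (d - 1) F a b) ∧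
      orderOf x = p ∧
      LinearMap.range (NM (x : Matrix (M d) (M d) F)) ≤ FxM (x : Matrix (M d) (M d) F) ∧
      Module.finrank F ↥(LinearMap.range (NM (x : Matrix (M d) (M d) F))) = ρ

/-- PELTBM: `d ≥ 3` odd: `x ∈ Omega^-` of order `p` with `Fix x ≤ (x - 1) V`, `(x - 1) ^ 3 = 0`
and `dim (x - 1) ^ 2 V ≤ 2` (Jordan type `J_3 ^ 2 + J_2 ^ (d - 3)`: two commuting Eichler
elements `E(e₁, z₁) E(e₂, z₂)`, `z₁ ⊥ z₂` a basis of the anisotropic plane, times a Siegel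
element of rank `d - 3` on the remaining hyperbolic part). -/
def PEltBM : Prop :=
  ∀ (F : Type u) [Field F] [Fintype F] (p : ℕ) [Fact p.Prime] [CharP F p],
    Odd (Fintype.card F) → ∀ (d : ℕ), 3 ≤ d → Odd d → ∀ (a b : F), Aniso a b →
    ∃ x : Matrix.GeneralLinearGroup (M d) F,
      x ∈ Cfsg.Geo.omegaGL (Cfsg.quadFormMinus (d - 1) F a b) ∧
      orderOf x = p ∧
      FxM (x : Matrix (M d) (M d) F) ≤ LinearMap.range (NM (x : Matrix (M d) (M d) F)) ∧
      (∀ v, NM (x : Matrix (M d) (M d) F) (NM (x : Matrix (M d) (M d) F)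
        (NM (x : Matrix (M d) (M d) F) v)) = 0) ∧
      Module.finrank F ↥(LinearMap.range
        (NM (x : Matrix (M d) (M d) F) ∘ₗ NM (x : Matrix (M d) (M d) F))) ≤ 2

/-- PELTCM: `d ≥ 2` even, `c ≠ 0`: `x ∈ Omega^-` of order `p` and a fixed vector `u₁` with
`Q u₁ = c`, `Fix x ≤ ⟨u₁⟩ + (x - 1) V` and `dim (x - 1) ^ 2 V ≤ 1` (Jordan type
`J_3 + J_1 + J_2 ^ (d - 2)`: an Eichler element `E(e, z)`, `z` in the anisotropic plane `A`,
`u₁ ∈ A`, `u₁ ⊥ z`, `Q u₁ = c`, times a Siegel element of rank `d - 2` on the remaining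
hyperbolic part). -/
def PEltCM : Prop :=
  ∀ (F : Type u) [Field F] [Fintype F] (p : ℕ) [Fact p.Prime] [CharP F p],
    Odd (Fintype.card F) → ∀ (d : ℕ), 2 ≤ d → Even d → ∀ (a b : F), Aniso a b →
    ∀ c : F, c ≠ 0 →
    ∃ x : Matrix.GeneralLinearGroup (M d) F,
      x ∈ Cfsg.Geo.omegaGL (Cfsg.quadFormMinus (d - 1) F a b) ∧
      orderOf x = p ∧
      ∃ u₁ : M d → F, u₁ ∈ FxM (x : Matrix (M d) (M d) F) ∧
        Cfsg.quadFormMinus (d - 1) F a b u₁ = c ∧
        FxM (x : Matrix (M d) (M d) F) ≤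
          Submodule.span F {u₁} ⊔ LinearMap.range (NM (x : Matrix (M d) (M d) F)) ∧
        Module.finrank F ↥(LinearMap.range
          (NM (x : Matrix (M d) (M d) F) ∘ₗ NM (x : Matrix (M d) (M d) F))) ≤ 1

/-- PFIXAM: an isometry `x` with `(x - 1) V ≤ Fix x` stabilising a nondegenerate subspace of odd
dimension `m` has `dim (x - 1) V ≤ d - 1`, and `m ≡ 1 (mod 4)` in case of equality. -/
def PFixAM : Prop :=
  ∀ (F : Type u) [Field F] [Fintype F], Odd (Fintype.card F) → ∀ (d m : ℕ), 1 ≤ d →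
    ∀ (a b : F), Aniso a b → Odd m →
    ∀ x : Matrix.GeneralLinearGroup (M d) F,
    x ∈ Cfsg.isometryGroup F (Cfsg.quadFormMinus (d - 1) F a b) →
    LinearMap.range (NM (x : Matrix (M d) (M d) F)) ≤ FxM (x : Matrix (M d) (M d) F) →
    ∀ W : Submodule F (M d → F), Module.finrank F ↥W = m → NDegM d F a b W →
    StabM (x : Matrix (M d) (M d) F) W →
    Module.finrank F ↥(LinearMap.range (NM (x : Matrix (M d) (M d) F))) ≤ d - 1 ∧
      (Module.finrank F ↥(LinearMap.range (NM (x : Matrix (M d) (M d) F))) = d - 1 → m % 4 = 1)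

/-- PFIXBM: an isometry `x` with `Fix x ≤ (x - 1) V`, `(x - 1) ^ 3 = 0` and
`dim (x - 1) ^ 2 V ≤ 2` stabilising a nondegenerate subspace of odd dimension `m` forces
`m ≡ 3 (mod 4)`. -/
def PFixBM : Prop :=
  ∀ (F : Type u) [Field F] [Fintype F], Odd (Fintype.card F) → ∀ (d m : ℕ), 1 ≤ d →
    ∀ (a b : F), Aniso a b → Odd m →
    ∀ x : Matrix.GeneralLinearGroup (M d) F,
    x ∈ Cfsg.isometryGroup F (Cfsg.quadFormMinus (d - 1) F a b) →
    FxM (x : Matrix (M d) (M d) F) ≤ LinearMap.range (NM (x : Matrix (M d) (M d) F)) →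
    (∀ v, NM (x : Matrix (M d) (M d) F) (NM (x : Matrix (M d) (M d) F)
      (NM (x : Matrix (M d) (M d) F) v)) = 0) →
    Module.finrank F ↥(LinearMap.range
      (NM (x : Matrix (M d) (M d) F) ∘ₗ NM (x : Matrix (M d) (M d) F))) ≤ 2 →
    ∀ W : Submodule F (M d → F), Module.finrank F ↥W = m → NDegM d F a b W →
    StabM (x : Matrix (M d) (M d) F) W → m % 4 = 3

/-- PFIXCM: an isometry `x` with a fixed vector `u₁`, `Q u₁ ≠ 0`, `Fix x ≤ ⟨u₁⟩ + (x - 1) V` and
`dim (x - 1) ^ 2 V ≤ 1`, stabilising a nondegenerate `W` of odd dimension `m`: either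
`m ≡ 1 (mod 4)` and `W` carries a `Q u₁`-structure, or `2 d - m ≡ 1 (mod 4)` and the orthogonal
complement of `W` carries one.  (Write `u₁ = w + w'` along `V = W ⊕ W^⊥`; `w, w'` are fixed,
`w = α u₁ + n`, `w' = α' u₁ + n'` with `n, n' ∈ Fix x ∩ (x - 1) V` (which is orthogonal to
`Fix x` and totally singular), `α α' = 0` as `w ⊥ w'`; say `ũ = w = u₁ + n ∈ W`, `Q ũ = Q u₁`.
For `Y = W ∩ ũ^⊥` and `Y = W^⊥`: `Fix x ∩ Y ≤ (x - 1) Y`.  `(x - 1)² V = (x - 1)² (W ∩ ũ^⊥) ⊕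
(x - 1)² W^⊥` has dimension `≤ 1`; `(x - 1)² W^⊥ = 0` would give `dim W^⊥ = 2 dim (x - 1) W^⊥`
even; so `(x - 1)² = 0` on `W₂ = W ∩ ũ^⊥`, `L = (x - 1) W₂ = Fix x ∩ W₂` is totally singular,
`dim W₂ = 2 dim L`, and `dim L` is even (`(u, v) ↦ polar u ((x - 1) v)` is alternating on `W₂`
with radical `L`).) -/
def PFixCM : Prop :=
  ∀ (F : Type u) [Field F] [Fintype F], Odd (Fintype.card F) → ∀ (d m : ℕ), 1 ≤ d →
    ∀ (a b : F), Aniso a b → Odd m →
    ∀ x : Matrix.GeneralLinearGroup (M d) F,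
    x ∈ Cfsg.isometryGroup F (Cfsg.quadFormMinus (d - 1) F a b) →
    ∀ u₁ : M d → F, u₁ ∈ FxM (x : Matrix (M d) (M d) F) →
    Cfsg.quadFormMinus (d - 1) F a b u₁ ≠ 0 →
    FxM (x : Matrix (M d) (M d) F) ≤
      Submodule.span F {u₁} ⊔ LinearMap.range (NM (x : Matrix (M d) (M d) F)) →
    Module.finrank F ↥(LinearMap.range
      (NM (x : Matrix (M d) (M d) F) ∘ₗ NM (x : Matrix (M d) (M d) F))) ≤ 1 →
    ∀ W : Submodule F (M d → F), Module.finrank F ↥W = m → NDegM d F a b W →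
    StabM (x : Matrix (M d) (M d) F) W →
    (m % 4 = 1 ∧ CStr d F a b W (Cfsg.quadFormMinus (d - 1) F a b u₁)) ∨
      ((2 * d - m) % 4 = 1 ∧ CStrPerp d F a b W (Cfsg.quadFormMinus (d - 1) F a b u₁))

/-- CLS1: two isometric nondegenerate spaces carrying a `c`- and a `c'`-structure: `c c'` is a
square (discriminant: the Gram determinant of `⟨c⟩ ⊥ hyperbolic` is `± 2 c * square`). -/
def Cls1 : Prop :=
  ∀ (F : Type u) [Field F] [Fintype F], Odd (Fintype.card F) → ∀ (d m : ℕ), 1 ≤ d →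
    ∀ (a b : F), Aniso a b →
    ∀ W₀ W W' : Submodule F (M d → F), MemM d F a b m W₀ W → MemM d F a b m W₀ W' →
    ∀ c c' : F, CStr d F a b W c → CStr d F a b W' c' → IsSquare (c * c')

/-- CLS2: the same for structures on the orthogonal complements (Witt: an isometry of `V`
carries `W` to `W'`, hence `W^⊥` to `W'^⊥`; then as CLS1 on `W'^⊥`, nondegenerate of dimension
`2 d - m`). -/
def Cls2 : Prop :=
  ∀ (F : Type u) [Field F] [Fintype F], Odd (Fintype.card F) → ∀ (d m : ℕ), 1 ≤ d → m < 2 * d →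
    ∀ (a b : F), Aniso a b →
    ∀ W₀ W W' : Submodule F (M d → F), MemM d F a b m W₀ W → MemM d F a b m W₀ W' →
    ∀ c c' : F, CStrPerp d F a b W c → CStrPerp d F a b W' c' → IsSquare (c * c')

/-! ## Counting pieces (for `NDivM`) -/

/-- FIXCONGM: fixed point congruence for `⟨x⟩`, `x ^ r = 1`, acting on the members. -/
def FixCongM : Prop :=
  ∀ (F : Type u) [Field F] [Fintype F] (d m : ℕ) (a b : F) (W₀ : Submodule F (M d → F))
    (r : ℕ) [Fact r.Prime]
    (x : Matrix.GeneralLinearGroup (M d) F),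
    x ∈ Cfsg.isometryGroup F (Cfsg.quadFormMinus (d - 1) F a b) →
    x ^ r = 1 →
    Nat.card {W : Submodule F (M d → F) // MemM d F a b m W₀ W} ≡
      Nat.card {W : Submodule F (M d → F) //
        MemM d F a b m W₀ W ∧ StabM (x : Matrix (M d) (M d) F) W} [MOD r]

/-- UCARDM: for a nondegenerate subspace `U` with `m < dim U < c`, `r` does not divide the
number of members contained in `U` (from the abstract landed
`Cfsg.Agent.Lib.Helper4.OPACARDI.main : Cfsg.Agent.Lib.Helper94.OPStmt.ACardI`). -/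
def UCardM : Prop :=
  ∀ (F : Type u) [Field F] [Fintype F] (p : ℕ) [Fact p.Prime] [CharP F p],
    Odd (Fintype.card F) → ∀ (d m : ℕ) (a b : F), Aniso a b → Odd m →
    ∀ W₀ : Submodule F (M d → F), Module.finrank F ↥W₀ = m → NDegM d F a b W₀ →
    ∀ (r : ℕ) [Fact r.Prime], r ≠ 2 → r ≠ p →
    ∀ U : Submodule F (M d → F), NDegM d F a b U → m < Module.finrank F ↥U →
    Module.finrank F ↥U < cc (orderOf ((Fintype.card F : ℕ) : ZMod r)) →
    ¬ r ∣ Nat.card {W : Submodule F (M d → F) // MemM d F a b m W₀ W ∧ W ≤ U}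

/-- NDIVM: `r ∣ #members` forces `c ≤ m` or `(2d) % c < m` (`r` odd, `r ≠ p`). -/
def NDivM : Prop :=
  ∀ (F : Type u) [Field F] [Fintype F] (p : ℕ) [Fact p.Prime] [CharP F p],
    Odd (Fintype.card F) → ∀ (d m : ℕ), 4 ≤ d → ∀ (a b : F), Aniso a b → Odd m → m < d →
    ∀ W₀ : Submodule F (M d → F), Module.finrank F ↥W₀ = m → NDegM d F a b W₀ →
    ∀ (r : ℕ) [Fact r.Prime], r ≠ 2 → r ≠ p →
    r ∣ Nat.card {W : Submodule F (M d → F) // MemM d F a b m W₀ W} →
    cc (orderOf ((Fintype.card F : ℕ) : ZMod r)) ≤ m ∨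
      (2 * d) % cc (orderOf ((Fintype.card F : ℕ) : ZMod r)) < m

/-! ## Assembly pieces -/

/-- the arithmetic condition of S5991 for odd `r ≠ p` -/
def CondM (d m i : ℕ) : Prop :=
  (Odd i ∧ ((2 * d) % cc i = 0 ∨ (cc i ≤ m ∧ 0 < m % cc i ∧ m % cc i < (2 * d) % cc i))) ∨
  (Even i ∧ (((2 * d) % cc i = 0 ∧ Even ((2 * d) / i)) ∨
    (0 < (2 * d) % cc i ∧ i ≤ m ∧ 0 < m % cc i ∧ m % cc i < (2 * d) % cc i)))

/-- B1M: under `CondM`, every isometry `y` with `y ^ r = 1` fixes a member.  (Port of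
`Cfsg.Agent.Lib.Helper66.OPB1P`; the key inequality `m % c < dim Fix y`: if `(2d) % c = 0` then
`Fix y ≠ 0` by NOFREEM (`i` odd, or `i` even and `2d / i` even), so `dim Fix y ≥ c`.) -/
def B1M : Prop :=
  ∀ (F : Type u) [Field F] [Fintype F] (p : ℕ) [Fact p.Prime] [CharP F p],
    Odd (Fintype.card F) → ∀ (d m : ℕ), 4 ≤ d → ∀ (a b : F), Aniso a b → Odd m → m < d →
    ∀ W₀ : Submodule F (M d → F), Module.finrank F ↥W₀ = m → NDegM d F a b W₀ →
    ∀ (r : ℕ) [Fact r.Prime], r ≠ 2 → r ≠ p →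
    CondM d m (orderOf ((Fintype.card F : ℕ) : ZMod r)) →
    ∀ y : Matrix.GeneralLinearGroup (M d) F,
    y ∈ Cfsg.isometryGroup F (Cfsg.quadFormMinus (d - 1) F a b) →
    y ^ r = 1 →
    ∃ W : Submodule F (M d → F), MemM d F a b m W₀ W ∧ StabM (y : Matrix (M d) (M d) F) W

/-- B2M: if `CondM` fails and (`c ≤ m` or `(2d) % c < m`), some element of order `r` of
`Omega^-` fixes no member.  (Port of `Cfsg.Agent.Lib.Helper60.OPB2P`; arithmetic: `c ≤ 2 d`,
`(2d) % c < m % c`, and `(2d) % c > 0` or (`i` even and `2d / i` odd), then DERELTM.) -/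
def B2M : Prop :=
  ∀ (F : Type u) [Field F] [Fintype F] (p : ℕ) [Fact p.Prime] [CharP F p],
    Odd (Fintype.card F) → ∀ (d m : ℕ), 4 ≤ d → ∀ (a b : F), Aniso a b → Odd m → m < d →
    ∀ W₀ : Submodule F (M d → F), Module.finrank F ↥W₀ = m → NDegM d F a b W₀ →
    ∀ (r : ℕ) [Fact r.Prime], r ≠ 2 → r ≠ p →
    (cc (orderOf ((Fintype.card F : ℕ) : ZMod r)) ≤ m ∨
      (2 * d) % cc (orderOf ((Fintype.card F : ℕ) : ZMod r)) < m) →
    ¬ CondM d m (orderOf ((Fintype.card F : ℕ) : ZMod r)) →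
    ∃ x : Matrix.GeneralLinearGroup (M d) F,
      x ∈ Cfsg.Geo.omegaGL (Cfsg.quadFormMinus (d - 1) F a b) ∧
      orderOf x = r ∧
      ∀ W : Submodule F (M d → F), MemM d F a b m W₀ W → ¬ StabM (x : Matrix (M d) (M d) F) W

end Cfsg.Agent.Lib.Helper45.OMiStmt
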