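import Mathlib
import Cfsg.Agent.Lib.Helper44.MFldStmt
import Cfsg.Agent.Lib.Helper43.MiSyl
import Cfsg.Agent.Lib.Helper43.SemiSim
import Cfsg.Agent.Lib.Helper45.OmegaCenter

set_option autoImplicit false

/-! Piece statements for S0818 (`|Aut(PΩ⁻_{2m}(q))|`), as `Prop`s.
Each piece is proved in its own file as `theorem main : MAutStmt.<Name>.{u} := ...`. -/

namespace Cfsg.Agent.Lib.Helper45.MAutStmt

open Matrix
open Cfsg.Agent.Lib.Helper45.OmegaAut
open Cfsg.Agent.Lib.Helper44.MFld0 Cfsg.Agent.Lib.Helper44.MFldStmt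

universe u

/-- [GS] every element of `PΓO(Q)` is the automorphism of one semisimilarity (generic form) -/
def GammaSemi : Prop := ∀ (F : Type u) [Field F] (ι : Type) [Fintype ι] [DecidableEq ι]
  (Q : (ι → F) → F) (β : MulAut (Cfsg.POmega F Q)), β ∈ Cfsg.gammaPOmega F Q →
  ∃ (g : GL ι F) (σ : F ≃+* F) (h : Cfsg.IsSemisimilarityPair Q g σ), β = semiP g σ h

/-- [SS] two semisimilarities with the same field automorphism differ by a similarity -/
def SemiSame : Prop := ∀ (F : Type u) [Field F] (ι : Type) [Fintype ι] [DecidableEq ι]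
  (Q : (ι → F) → F) (g g' : GL ι F) (σ : F ≃+* F) (h : Cfsg.IsSemisimilarityPair Q g σ)
  (h' : Cfsg.IsSemisimilarityPair Q g' σ),
  semiP g σ h * (semiP g' σ h')⁻¹ ∈ (Phi Q).range

/-- [SU] minus form: the field automorphism of a semisimilarity is determined modulo `PGO` -/
def SemiUniq : Prop := ∀ (F : Type u) [Field F] [Fintype F] (m : ℕ), 3 ≤ m → ∀ (a b : F),
  Aniso a b → ∀ (g g' : GL (MI m) F) (σ σ' : F ≃+* F)
  (h : Cfsg.IsSemisimilarityPair (Cfsg.quadFormMinus m F a b) g σ)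
  (h' : Cfsg.IsSemisimilarityPair (Cfsg.quadFormMinus m F a b) g' σ'),
  semiP g σ h * (semiP g' σ' h')⁻¹ ∈ (Phi (Cfsg.quadFormMinus m F a b)).range → σ = σ'

/-- [SE] minus form: every field automorphism belongs to a semisimilarity -/
def SemiExists : Prop := IsoMinus.{u} → ∀ (F : Type u) [Field F] [Fintype F] (m : ℕ) (a b : F),
  Aniso a b → ∀ σ : F ≃+* F, ∃ g : GL (MI m) F,
    Cfsg.IsSemisimilarityPair (Cfsg.quadFormMinus m F a b) g σ

/-- [IC] `|Inn| = |PΩ⁻|` -/
def InnCard : Prop := KerPhiMinus.{u} → ∀ (F : Type u) [Field F] [Fintype F] (m : ℕ), 3 ≤ m →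
  ∀ (a b : F), Aniso a b →
  Nat.card ↥(Cfsg.Inn (Cfsg.POmega F (Cfsg.quadFormMinus m F a b))) =
    Nat.card (Cfsg.POmega F (Cfsg.quadFormMinus m F a b))

/-- [IO] odd characteristic: the index of `Inn` in `PGO⁻` -/
def IndexOdd : Prop := ∀ (F : Type u) [Field F] [Fintype F] (m : ℕ), 3 ≤ m → ∀ (a b : F),
  Aniso a b → Odd (Fintype.card F) →
  (Cfsg.Inn (Cfsg.POmega F (Cfsg.quadFormMinus m F a b))).relIndex
      (Phi (Cfsg.quadFormMinus m F a b)).range =
    if Even m ∧ Fintype.card F % 4 = 3 then 8 else 4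

/-- [I2] characteristic two: the index of `Inn` in `PGO⁻` is 2 -/
def IndexTwo : Prop := KerPhiMinus.{u} → ∀ (F : Type u) [Field F] [Fintype F] (m : ℕ), 3 ≤ m →
  ∀ (a b : F), Aniso a b → (2 : F) = 0 →
  (Cfsg.Inn (Cfsg.POmega F (Cfsg.quadFormMinus m F a b))).relIndex
      (Phi (Cfsg.quadFormMinus m F a b)).range = 2

end Cfsg.Agent.Lib.Helper45.MAutStmt
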