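import Mathlib
import Cfsg.Prelude.Def_LieTypeDatum

set_option autoImplicit false

/-!
Transfer of `PGO` (and of any `projQuot`) along a linear equivalence of the underlying
function spaces: if `Q' (L v) = c * Q v` then `PGO F Q ≃* PGO F Q'`.
-/

namespace Cfsg.Agent.Lib.Helper45.PGOCongr

open Matrix

variable {F : Type*} [Field F]

/-- a quotient by a normal subgroup equal to the kernel of a surjective hom -/
theorem quot_equiv_of_surj {G H : Type*} [Group G] [Group H] (N : Subgroup G) [N.Normal]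
    (f : G →* H) (hf : Function.Surjective f) (hker : f.ker = N) : Nonempty (G ⧸ N ≃* H) :=
  ⟨(QuotientGroup.quotientMulEquivOfEq hker.symm).trans
    (QuotientGroup.quotientKerEquivOfSurjective f hf)⟩

section

variable {ι ι' : Type} [Fintype ι] [DecidableEq ι] [Fintype ι'] [DecidableEq ι']

/-- conjugation `g ↦ P g P'` from `GL ι F` to `GL ι' F` -/
def conj (P : Matrix ι' ι F) (P' : Matrix ι ι' F) (h1 : P * P' = 1) (h2 : P' * P = 1) :
    GL ι F →* GL ι' F where
  toFun g := ⟨P * (g : Matrix ι ι F) * P', P * ((g⁻¹ : GL ι F) : Matrix ι ι F) * P', by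
    calc P * (g : Matrix ι ι F) * P' * (P * ((g⁻¹ : GL ι F) : Matrix ι ι F) * P')
        = P * ((g : Matrix ι ι F) * (P' * P) * ((g⁻¹ : GL ι F) : Matrix ι ι F)) * P' := by
          simp only [Matrix.mul_assoc]
      _ = 1 := by
          rw [h2, Matrix.mul_one, ← Units.val_mul, mul_inv_cancel, Units.val_one, Matrix.mul_one,
            h1], by
    calc P * ((g⁻¹ : GL ι F) : Matrix ι ι F) * P' * (P * (g : Matrix ι ι F) * P')
        = P * (((g⁻¹ : GL ι F) : Matrix ι ι F) * (P' * P) * (g : Matrix ι ι F)) * P' := by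
          simp only [Matrix.mul_assoc]
      _ = 1 := by
          rw [h2, Matrix.mul_one, ← Units.val_mul, inv_mul_cancel, Units.val_one, Matrix.mul_one,
            h1]⟩
  map_one' := by
    apply Units.ext
    show P * ((1 : GL ι F) : Matrix ι ι F) * P' = 1
    rw [Units.val_one, Matrix.mul_one, h1]
  map_mul' g k := by
    apply Units.ext
    show P * ((g * k : GL ι F) : Matrix ι ι F) * P'
      = P * (g : Matrix ι ι F) * P' * (P * (k : Matrix ι ι F) * P')
    calc P * ((g * k : GL ι F) : Matrix ι ι F) * P'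
        = P * ((g : Matrix ι ι F) * 1 * (k : Matrix ι ι F)) * P' := by
          rw [Units.val_mul, Matrix.mul_one]
      _ = P * (g : Matrix ι ι F) * P' * (P * (k : Matrix ι ι F) * P') := by
          rw [← h2]; simp only [Matrix.mul_assoc]

theorem conj_coe (P : Matrix ι' ι F) (P' : Matrix ι ι' F) (h1 : P * P' = 1) (h2 : P' * P = 1)
    (g : GL ι F) : ((conj P P' h1 h2 g : GL ι' F) : Matrix ι' ι' F) = P * (g : Matrix ι ι F) * P' :=
  rfl

theorem conj_conj (P : Matrix ι' ι F) (P' : Matrix ι ι' F) (h1 : P * P' = 1) (h2 : P' * P = 1)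
    (g : GL ι' F) : conj P P' h1 h2 (conj P' P h2 h1 g) = g := by
  apply Units.ext
  rw [conj_coe, conj_coe]
  calc P * (P' * (g : Matrix ι' ι' F) * P) * P' = (P * P') * (g : Matrix ι' ι' F) * (P * P') := by
        simp only [Matrix.mul_assoc]
    _ = g := by rw [h1, Matrix.one_mul, Matrix.mul_one]

/-- Transfer of `PGO` along an injective linear map between function spaces of the same
dimension which multiplies the form by a nonzero scalar. -/
theorem pgo_congr (Q : (ι → F) → F) (Q' : (ι' → F) → F) (L : (ι → F) →ₗ[F] (ι' → F))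
    (hinj : Function.Injective L) (hcard : Fintype.card ι = Fintype.card ι') (c : Fˣ)
    (h : ∀ v, Q' (L v) = (c : F) * Q v) : Nonempty (Cfsg.PGO F Q ≃* Cfsg.PGO F Q') := by
  have hfr : Module.finrank F (ι → F) = Module.finrank F (ι' → F) := by
    rw [Module.finrank_fintype_fun_eq_card, Module.finrank_fintype_fun_eq_card, hcard]
  let Le : (ι → F) ≃ₗ[F] (ι' → F) := LinearMap.linearEquivOfInjective L hinj hfr
  have hLe : ∀ v, Le v = L v := fun v => LinearMap.linearEquivOfInjective_apply hinj hfr v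
  let P : Matrix ι' ι F := LinearMap.toMatrix' (Le : (ι → F) →ₗ[F] (ι' → F))
  let P' : Matrix ι ι' F := LinearMap.toMatrix' (Le.symm : (ι' → F) →ₗ[F] (ι → F))
  have h1 : P * P' = 1 := by
    show LinearMap.toMatrix' (Le : (ι → F) →ₗ[F] (ι' → F))
      * LinearMap.toMatrix' (Le.symm : (ι' → F) →ₗ[F] (ι → F)) = 1
    rw [← LinearMap.toMatrix'_comp, LinearEquiv.comp_coe, LinearEquiv.symm_trans_self,
      LinearEquiv.refl_toLinearMap, LinearMap.toMatrix'_id]
  have h2 : P' * P = 1 := by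
    show LinearMap.toMatrix' (Le.symm : (ι' → F) →ₗ[F] (ι → F))
      * LinearMap.toMatrix' (Le : (ι → F) →ₗ[F] (ι' → F)) = 1
    rw [← LinearMap.toMatrix'_comp, LinearEquiv.comp_coe, LinearEquiv.self_trans_symm,
      LinearEquiv.refl_toLinearMap, LinearMap.toMatrix'_id]
  have hP : ∀ v, P *ᵥ v = Le v := fun v => LinearMap.toMatrix'_mulVec _ v
  have hP' : ∀ w, P' *ᵥ w = Le.symm w := fun w => LinearMap.toMatrix'_mulVec _ w
  have hQ : ∀ w, Q (Le.symm w) = ((c⁻¹ : Fˣ) : F) * Q' w := by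
    intro w
    have := h (Le.symm w)
    rw [← hLe, LinearEquiv.apply_symm_apply] at this
    rw [this, ← mul_assoc, ← Units.val_mul, inv_mul_cancel, Units.val_one, one_mul]
  -- conj maps similarities to similarities
  have hmem : ∀ g : GL ι F, g ∈ Cfsg.Geo.quadSimilarityGroup (F := F) Q →
      conj P P' h1 h2 g ∈ Cfsg.Geo.quadSimilarityGroup (F := F) Q' := by
    rintro g ⟨d, hd⟩
    refine ⟨d, fun w => ?_⟩
    rw [conj_coe, ← Matrix.mulVec_mulVec, ← Matrix.mulVec_mulVec, hP', hP, hLe, h, hd, hQ]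
    rw [← mul_assoc, ← mul_assoc, mul_comm (c : F), mul_assoc (d : F), ← Units.val_mul,
      mul_inv_cancel, Units.val_one, mul_one]
  have hmem' : ∀ g : GL ι' F, g ∈ Cfsg.Geo.quadSimilarityGroup (F := F) Q' →
      conj P' P h2 h1 g ∈ Cfsg.Geo.quadSimilarityGroup (F := F) Q := by
    rintro g ⟨d, hd⟩
    refine ⟨d, fun v => ?_⟩
    rw [conj_coe, ← Matrix.mulVec_mulVec, ← Matrix.mulVec_mulVec, hP, hP', hQ, hd, hLe, h]
    rw [← mul_assoc, ← mul_assoc, mul_comm ((c⁻¹ : Fˣ) : F), mul_assoc (d : F), ← Units.val_mul,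
      inv_mul_cancel, Units.val_one, mul_one]
  let f₀ : ↥(Cfsg.Geo.quadSimilarityGroup (F := F) Q) →* ↥(Cfsg.Geo.quadSimilarityGroup (F := F) Q') :=
    { toFun := fun g => ⟨conj P P' h1 h2 g.1, hmem g.1 g.2⟩
      map_one' := Subtype.ext (map_one _)
      map_mul' := fun g k => Subtype.ext (map_mul _ _ _) }
  let f : ↥(Cfsg.Geo.quadSimilarityGroup (F := F) Q) →* Cfsg.PGO F Q' :=
    (QuotientGroup.mk' _).comp f₀
  apply quot_equiv_of_surj _ f
  · intro y
    obtain ⟨g', rfl⟩ := QuotientGroup.mk_surjective y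
    refine ⟨⟨conj P' P h2 h1 g'.1, hmem' g'.1 g'.2⟩, ?_⟩
    have e : f₀ ⟨conj P' P h2 h1 g'.1, hmem' g'.1 g'.2⟩ = g' :=
      Subtype.ext (conj_conj P P' h1 h2 g'.1)
    show QuotientGroup.mk' _ (f₀ _) = _
    rw [e]
    rfl
  · ext g
    rw [MonoidHom.mem_ker]
    show (QuotientGroup.mk' _ (f₀ g)) = 1 ↔ _
    rw [QuotientGroup.mk'_apply, QuotientGroup.eq_one_iff, Subgroup.mem_subgroupOf,
      Subgroup.mem_subgroupOf, Cfsg.Geo.mem_scalars_iff, Cfsg.Geo.mem_scalars_iff]
    constructor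
    · rintro ⟨t, ht⟩
      refine ⟨t, ?_⟩
      have ht' : P * (g.1 : Matrix ι ι F) * P' = (t : F) • (1 : Matrix ι' ι' F) := ht
      calc ((g.1 : GL ι F) : Matrix ι ι F) = (P' * P) * (g.1 : Matrix ι ι F) * (P' * P) := by
            rw [h2, Matrix.one_mul, Matrix.mul_one]
        _ = P' * (P * (g.1 : Matrix ι ι F) * P') * P := by simp only [Matrix.mul_assoc]
        _ = (t : F) • (1 : Matrix ι ι F) := by
            rw [ht', Matrix.mul_smul, Matrix.smul_mul, Matrix.mul_one, h2]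
    · rintro ⟨t, ht⟩
      refine ⟨t, ?_⟩
      show P * (g.1 : Matrix ι ι F) * P' = (t : F) • (1 : Matrix ι' ι' F)
      rw [ht, Matrix.mul_smul, Matrix.smul_mul, Matrix.mul_one, h1]

/-- Reindexing: for `e : ι ≃ ι'` and forms with `Q' (v ∘ e.symm) = Q v`. -/
theorem pgo_reindex (Q : (ι → F) → F) (Q' : (ι' → F) → F) (e : ι ≃ ι')
    (h : ∀ v : ι → F, Q' (fun j => v (e.symm j)) = Q v) :
    Nonempty (Cfsg.PGO F Q ≃* Cfsg.PGO F Q') := by
  refine pgo_congr Q Q' ((LinearEquiv.funCongrLeft F F e.symm : (ι → F) ≃ₗ[F] (ι' → F)) :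
    (ι → F) →ₗ[F] (ι' → F)) (LinearEquiv.injective _) (Fintype.card_congr e) 1 ?_
  intro v
  rw [Units.val_one, one_mul]
  exact h v

end

end Cfsg.Agent.Lib.Helper45.PGOCongr
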