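import Mathlib
import Cfsg.Prelude.Def_LieTypeDatum
import Cfsg.Agent.Lib.Helper45.PGOCongr

set_option autoImplicit false

/-!
The sum-of-squares form in even dimension over a field with `2 ≠ 0`:
`PGO` of it is `PGO` of the plus form (if there is an "anti-isometry" `R` of the sum of squares
in half the dimension) or of a minus form.
-/

namespace Cfsg.Agent.Lib.Helper45.DotForms

open Matrix Cfsg.Agent.Lib.Helper45.PGOCongr

variable {F : Type*} [Field F]

/-- the sum of squares form -/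
def dotQ (ι : Type) [Fintype ι] (v : ι → F) : F := ∑ i, v i ^ 2

/-- hyperbolic part on `Z ⊕ Z` plus sum of squares on `W` -/
def genQ (Z W : Type) [Fintype Z] [Fintype W] (v : (Z ⊕ Z) ⊕ W → F) : F :=
  (∑ z, v (Sum.inl (Sum.inl z)) * v (Sum.inl (Sum.inr z))) + ∑ w, v (Sum.inr w) ^ 2

theorem dot_nondeg (h2 : (2 : F) ≠ 0) {ι : Type} [Fintype ι] [DecidableEq ι] (v : ι → F)
    (h : ∀ w : ι → F, dotQ ι (v + w) = dotQ ι w) : v = 0 := by
  have h0 : dotQ ι v = 0 := by
    have := h 0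
    rw [add_zero] at this
    rw [this]
    simp [dotQ]
  funext i
  have h1 := h (Pi.single i 1)
  have e : dotQ ι (v + Pi.single i 1) = dotQ ι v + 2 * v i + dotQ ι (Pi.single i (1 : F)) := by
    unfold dotQ
    have : ∀ j, (v + (Pi.single i (1 : F) : ι → F)) j ^ 2
        = v j ^ 2 + 2 * (v j * (Pi.single i (1 : F) : ι → F) j) + (Pi.single i (1 : F) : ι → F) j ^ 2 := by
      intro j
      rw [Pi.add_apply]; ring
    rw [Finset.sum_congr rfl (fun j _ => this j), Finset.sum_add_distrib, Finset.sum_add_distrib,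
      ← Finset.mul_sum]
    congr 2
    rw [Finset.sum_eq_single i]
    · simp
    · intro j _ hj
      simp [Pi.single_apply, hj]
    · intro hi
      exact absurd (Finset.mem_univ i) hi
  rw [e, h0, zero_add] at h1
  have h3 : (2 : F) * v i = 0 := by linear_combination h1
  rcases mul_eq_zero.1 h3 with h4 | h4
  · exact absurd h4 h2
  · simpa using h4

/-- reindexing the sum of squares -/
theorem dot_reindex {ι ι' : Type} [Fintype ι] [DecidableEq ι] [Fintype ι'] [DecidableEq ι']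
    (e : ι ≃ ι') : Nonempty (Cfsg.PGO F (dotQ (F := F) ι) ≃* Cfsg.PGO F (dotQ (F := F) ι')) := by
  apply pgo_reindex _ _ e
  intro v
  unfold dotQ
  exact Equiv.sum_comp e.symm (fun i => v i ^ 2)

/-- The key step: sum of squares on `(Z ⊕ Z) ⊕ W` versus hyperbolic on `Z ⊕ Z` plus squares on `W`,
given `R` on `F^Z` which negates the sum of squares. -/
theorem dot_to_gen (h2 : (2 : F) ≠ 0) (Z W : Type) [Fintype Z] [DecidableEq Z] [Fintype W]
    [DecidableEq W] (R : (Z → F) →ₗ[F] (Z → F))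
    (hR : ∀ p : Z → F, ∑ z, R p z ^ 2 = - ∑ z, p z ^ 2) :
    Nonempty (Cfsg.PGO F (dotQ (F := F) ((Z ⊕ Z) ⊕ W)) ≃* Cfsg.PGO F (genQ (F := F) Z W)) := by
  let L : ((Z ⊕ Z) ⊕ W → F) →ₗ[F] ((Z ⊕ Z) ⊕ W → F) :=
    { toFun := fun v => Sum.elim
        (Sum.elim (fun z => v (Sum.inl (Sum.inl z)) - R (fun z' => v (Sum.inl (Sum.inr z'))) z)
          (fun z => v (Sum.inl (Sum.inl z)) + R (fun z' => v (Sum.inl (Sum.inr z'))) z))
        (fun w => v (Sum.inr w))
      map_add' := by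
        intro v w
        have e : R (fun z' => v (Sum.inl (Sum.inr z')) + w (Sum.inl (Sum.inr z')))
            = R (fun z' => v (Sum.inl (Sum.inr z'))) + R (fun z' => w (Sum.inl (Sum.inr z'))) :=
          map_add R _ _
        funext x
        rcases x with (z | z) | x
        · simp only [Sum.elim_inl, Pi.add_apply, e]; ring
        · simp only [Sum.elim_inl, Sum.elim_inr, Pi.add_apply, e]; ring
        · simp only [Sum.elim_inr, Pi.add_apply]
      map_smul' := by
        intro c v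
        have e : R (fun z' => c * v (Sum.inl (Sum.inr z')))
            = c • R (fun z' => v (Sum.inl (Sum.inr z'))) :=
          map_smul R c _
        funext x
        rcases x with (z | z) | x
        · simp only [Sum.elim_inl, Pi.smul_apply, e, smul_eq_mul, RingHom.id_apply]; ring
        · simp only [Sum.elim_inl, Sum.elim_inr, Pi.smul_apply, e, smul_eq_mul,
            RingHom.id_apply]; ring
        · simp only [Sum.elim_inr, Pi.smul_apply, smul_eq_mul, RingHom.id_apply] }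
  have hL : ∀ v, genQ (F := F) Z W (L v) = dotQ (F := F) ((Z ⊕ Z) ⊕ W) v := by
    intro v
    show (∑ z, (v (Sum.inl (Sum.inl z)) - R (fun z' => v (Sum.inl (Sum.inr z'))) z)
        * (v (Sum.inl (Sum.inl z)) + R (fun z' => v (Sum.inl (Sum.inr z'))) z))
        + ∑ w, v (Sum.inr w) ^ 2 = ∑ i, v i ^ 2
    rw [Fintype.sum_sum_type, Fintype.sum_sum_type]
    have e1 : ∀ z, (v (Sum.inl (Sum.inl z)) - R (fun z' => v (Sum.inl (Sum.inr z'))) z)
        * (v (Sum.inl (Sum.inl z)) + R (fun z' => v (Sum.inl (Sum.inr z'))) z)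
        = v (Sum.inl (Sum.inl z)) ^ 2 - R (fun z' => v (Sum.inl (Sum.inr z'))) z ^ 2 := by
      intro z; ring
    rw [Finset.sum_congr rfl (fun z _ => e1 z), Finset.sum_sub_distrib, hR]
    ring
  have hinj : Function.Injective L := by
    rw [injective_iff_map_eq_zero]
    intro v hv
    apply dot_nondeg h2
    intro w
    rw [← hL, ← hL, map_add, hv, zero_add]
  refine pgo_congr _ _ L hinj rfl 1 ?_
  intro v
  rw [Units.val_one, one_mul]
  exact hL v

theorem gen_to_plus (m : ℕ) (Z : Type) [Fintype Z] [DecidableEq Z] (e' : Z ≃ Fin m) :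
    Nonempty (Cfsg.PGO F (genQ (F := F) Z Empty) ≃* Cfsg.PGO F (Cfsg.quadFormPlus m F)) := by
  apply pgo_reindex _ _ ((Equiv.sumEmpty (Z ⊕ Z) Empty).trans (Equiv.sumCongr e' e'))
  intro v
  unfold Cfsg.quadFormPlus genQ
  rw [← Equiv.sum_comp e'.symm (fun z => v (Sum.inl (Sum.inl z)) * v (Sum.inl (Sum.inr z)))]
  simp

theorem gen_to_minus (m : ℕ) (Z : Type) [Fintype Z] [DecidableEq Z] (e' : Z ≃ Fin m) :
    Nonempty (Cfsg.PGO F (genQ (F := F) Z (Fin 2)) ≃* Cfsg.PGO F (Cfsg.quadFormMinus m F 0 1)) := by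
  apply pgo_reindex _ _ (Equiv.sumCongr (Equiv.sumCongr e' e') (Equiv.refl (Fin 2)))
  intro v
  unfold Cfsg.quadFormMinus genQ
  rw [← Equiv.sum_comp e'.symm (fun z => v (Sum.inl (Sum.inl z)) * v (Sum.inl (Sum.inr z)))]
  simp [Fin.sum_univ_two]

/-- sum of squares in dimension `2m` is of plus type, given `R` in dimension `m` -/
theorem dot_pgo_plus (h2 : (2 : F) ≠ 0) {n m : ℕ} (hn : n = 2 * m) (Z : Type) [Fintype Z]
    [DecidableEq Z] (hZ : Fintype.card Z = m) (R : (Z → F) →ₗ[F] (Z → F))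
    (hR : ∀ p : Z → F, ∑ z, R p z ^ 2 = - ∑ z, p z ^ 2) :
    Nonempty (Cfsg.PGO F (dotQ (F := F) (Fin n)) ≃* Cfsg.PGO F (Cfsg.quadFormPlus m F)) := by
  have hc : Fintype.card (Fin n) = Fintype.card ((Z ⊕ Z) ⊕ Empty) := by
    simp [hZ, hn]; omega
  have hc' : Fintype.card Z = Fintype.card (Fin m) := by simp [hZ]
  obtain ⟨a⟩ := dot_reindex (F := F) (Fintype.equivOfCardEq hc)
  obtain ⟨b⟩ := dot_to_gen h2 Z Empty R hR
  obtain ⟨c⟩ := gen_to_plus (F := F) m Z (Fintype.equivOfCardEq hc')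
  exact ⟨a.trans (b.trans c)⟩

/-- sum of squares in dimension `2m+2` is similar to `H^m ⊥ (z₁² + z₂²)`, given `R` in dimension `m` -/
theorem dot_pgo_minus (h2 : (2 : F) ≠ 0) {n m : ℕ} (hn : n = 2 * m + 2) (Z : Type) [Fintype Z]
    [DecidableEq Z] (hZ : Fintype.card Z = m) (R : (Z → F) →ₗ[F] (Z → F))
    (hR : ∀ p : Z → F, ∑ z, R p z ^ 2 = - ∑ z, p z ^ 2) :
    Nonempty (Cfsg.PGO F (dotQ (F := F) (Fin n)) ≃* Cfsg.PGO F (Cfsg.quadFormMinus m F 0 1)) := by
  have hc : Fintype.card (Fin n) = Fintype.card ((Z ⊕ Z) ⊕ Fin 2) := by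
    simp [hZ, hn]; omega
  have hc' : Fintype.card Z = Fintype.card (Fin m) := by simp [hZ]
  obtain ⟨a⟩ := dot_reindex (F := F) (Fintype.equivOfCardEq hc)
  obtain ⟨b⟩ := dot_to_gen h2 Z (Fin 2) R hR
  obtain ⟨c⟩ := gen_to_minus (F := F) m Z (Fintype.equivOfCardEq hc')
  exact ⟨a.trans (b.trans c)⟩

theorem exists_R_of_sq (ε : F) (hε : ε ^ 2 = -1) (Z : Type) [Fintype Z] :
    ∃ R : (Z → F) →ₗ[F] (Z → F), ∀ p : Z → F, ∑ z, R p z ^ 2 = - ∑ z, p z ^ 2 := by
  refine ⟨ε • LinearMap.id, fun p => ?_⟩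
  simp only [LinearMap.smul_apply, LinearMap.id_coe, id_eq, Pi.smul_apply, smul_eq_mul, mul_pow, hε,
    ← Finset.mul_sum]
  ring

theorem exists_R_of_pair (a b : F) (hab : a ^ 2 + b ^ 2 = -1) (k : ℕ) :
    ∃ R : (Fin k ⊕ Fin k → F) →ₗ[F] (Fin k ⊕ Fin k → F),
      ∀ p : Fin k ⊕ Fin k → F, ∑ z, R p z ^ 2 = - ∑ z, p z ^ 2 := by
  let R : (Fin k ⊕ Fin k → F) →ₗ[F] (Fin k ⊕ Fin k → F) :=
    { toFun := fun p => Sum.elim (fun j => a * p (Sum.inl j) + b * p (Sum.inr j))
        (fun j => -b * p (Sum.inl j) + a * p (Sum.inr j))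
      map_add' := by
        intro v w
        funext x
        rcases x with j | j
        · simp only [Sum.elim_inl, Pi.add_apply]; ring
        · simp only [Sum.elim_inr, Pi.add_apply]; ring
      map_smul' := by
        intro c v
        funext x
        rcases x with j | j
        · simp only [Sum.elim_inl, Pi.smul_apply, smul_eq_mul, RingHom.id_apply]; ring
        · simp only [Sum.elim_inr, Pi.smul_apply, smul_eq_mul, RingHom.id_apply]; ring }
  refine ⟨R, fun p => ?_⟩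
  show ∑ z, (Sum.elim (fun j => a * p (Sum.inl j) + b * p (Sum.inr j))
        (fun j => -b * p (Sum.inl j) + a * p (Sum.inr j)) : Fin k ⊕ Fin k → F) z ^ 2 = _
  rw [Fintype.sum_sum_type, Fintype.sum_sum_type]
  simp only [Sum.elim_inl, Sum.elim_inr]
  rw [← Finset.sum_add_distrib, ← Finset.sum_add_distrib, ← Finset.sum_neg_distrib]
  apply Finset.sum_congr rfl
  intro j _
  linear_combination (p (Sum.inl j) ^ 2 + p (Sum.inr j) ^ 2) * hab

end Cfsg.Agent.Lib.Helper45.DotForms
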