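import Mathlib
import Cfsg.Prelude.Def_Classical
import Cfsg.Prelude.Def_GeometricClasses
import Cfsg.Agent.Lib.Helper37.HypStmt
import Cfsg.Agent.Lib.Helper94.OPStmt
import Cfsg.Agent.Lib.Helper94.OPAsm
import Cfsg.Agent.Lib.Helper45.EPStmt

/-!
# S5988: final assembly from the pieces of `EPStmt` (and landed pieces of `OPStmt`).
-/

set_option autoImplicit false

universe u

open scoped Matrix

namespace Cfsg.Agent.Lib.Helper45.EPAsm

open Cfsg.Agent.Lib.Helper37.HypStmt (cc)
open Cfsg.Agent.Lib.Helper94.OPStmt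
open Cfsg.Agent.Lib.Helper45.EPStmt

/-- a finite field of characteristic `≠ 2` has odd order -/
theorem odd_card_of_char_ne_two {F : Type u} [Field F] [Fintype F] {p : ℕ} [Fact p.Prime]
    [CharP F p] (hp : p ≠ 2) : Odd (Fintype.card F) := by
  by_contra h
  have he : Fintype.card F % 2 = 0 := by
    rcases Nat.even_or_odd (Fintype.card F) with h1 | h1
    · exact Nat.even_iff.mp h1
    · exact absurd h1 h
  have h2 := FiniteField.even_card_iff_char_two.mpr he
  rw [ringChar.eq F p] at h2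
  exact hp h2

theorem thm_of (hScal : Scal.{u}) (hNR : NegRed.{u}) (hNE : NegSqEx.{u}) (hN3 : NegSqNon3.{u})
    (hN5 : NegSqNon5.{u}) (hInv : InvolE.{u}) (hFA : NegSqFixA.{u}) (hFB1 : NegSqFixB1.{u})
    (hFB2 : NegSqFixB2.{u}) (hPA : PEltA.{u}) (hQN : QNZero.{u}) (hP2 : PEltE2.{u})
    (hPF : PFixE.{u}) (hB1 : B1E.{u}) (hB2 : B2E.{u}) (hND : NDivE.{u})
    {F : Type u} [Field F] [Fintype F] {p : ℕ} [Fact p.Prime] [CharP F p]
    (d m : ℕ) (hd : 4 ≤ d) (hm : 2 ≤ m) (hme : Even m) (hmd : m < d)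
    (r : ℕ) [Fact r.Prime]
    (hrΩ : r ∣ Nat.card {W : Submodule F (Fin d ⊕ Fin d → F) // Module.finrank F ↥W = m ∧
      Cfsg.Geo.IsNondegenerateOn (QuadraticMap.polar (Cfsg.quadFormPlus d F)) W ∧
      ¬ Cfsg.Geo.IsPlusTypeOn (Cfsg.quadFormPlus d F) W})
    (i c : ℕ) (hi : i = orderOf ((Fintype.card F : ℕ) : ZMod r))
    (hc : c = if Even i then i else 2 * i) :
    (∀ x : Matrix.GeneralLinearGroup (Fin d ⊕ Fin d) F,
      x ∈ Cfsg.Geo.omegaGL (Cfsg.quadFormPlus d F) →
      (∃ z : F, ((x ^ r : Matrix.GeneralLinearGroup (Fin d ⊕ Fin d) F) :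
        Matrix (Fin d ⊕ Fin d) (Fin d ⊕ Fin d) F) =
          z • (1 : Matrix (Fin d ⊕ Fin d) (Fin d ⊕ Fin d) F)) →
      (∀ z : F, (x : Matrix (Fin d ⊕ Fin d) (Fin d ⊕ Fin d) F) ≠
        z • (1 : Matrix (Fin d ⊕ Fin d) (Fin d ⊕ Fin d) F)) →
      ∃ W : Submodule F (Fin d ⊕ Fin d → F), (Module.finrank F ↥W = m ∧
        Cfsg.Geo.IsNondegenerateOn (QuadraticMap.polar (Cfsg.quadFormPlus d F)) W ∧
        ¬ Cfsg.Geo.IsPlusTypeOn (Cfsg.quadFormPlus d F) W) ∧
        W.map (Matrix.toLin' (x : Matrix (Fin d ⊕ Fin d) (Fin d ⊕ Fin d) F)) ≤ W) ↔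
    ((r = 2 ∧ p ≠ 2 ∧ ((Even d ∧ Fintype.card F % 4 = 3 ∧ m % 4 = 2) ∨
        (Odd d ∧ Fintype.card F % 8 ≠ 1))) ∨
     (r ≠ p ∧ 2 < r ∧ Odd i ∧ c ≤ m ∧ 0 < m % c ∧ m % c < (2 * d) % c) ∨
     (r ≠ p ∧ 2 < r ∧ Even i ∧
       (((2 * d) % c = 0 ∧ (Odd ((2 * d) / i) ∨ (m % c = 0 ∧ Odd (m / i)))) ∨
        (i ≤ m ∧ ((0 < m % c ∧ m % c < (2 * d) % c) ∨
                  (0 < m % c ∧ m % c = (2 * d) % c ∧
                    Odd ((2 * d + m - 2 * ((2 * d) % c)) / i)) ∨
                  (m % c = 0 ∧ 0 < (2 * d) % c ∧ Odd (m / i))))))) := by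
  have hcc : c = cc i := hc
  subst hcc
  subst hi
  have hrpr : r.Prime := Fact.out
  have hppr : p.Prime := Fact.out
  have hd1 : 1 ≤ d := by omega
  have hiso : ∀ x : Matrix.GeneralLinearGroup (P d) F,
      x ∈ Cfsg.Geo.omegaGL (Cfsg.quadFormPlus d F) →
      x ∈ Cfsg.isometryGroup F (Cfsg.quadFormPlus d F) := by
    intro x hx
    obtain ⟨y, -, rfl⟩ := hx
    exact y.2
  by_cases hrp : r = p
  · constructor
    · intro hL
      exfalso
      have hρ : ∃ ρ, Even ρ ∧ 2 ≤ ρ ∧ ρ ≤ d ∧ (ρ = d ∨ (Odd d ∧ ρ = d - 1)) := by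
        rcases Nat.even_or_odd d with hde | hdo
        · exact ⟨d, hde, by omega, le_rfl, Or.inl rfl⟩
        · refine ⟨d - 1, ?_, by omega, by omega, Or.inr ⟨hdo, rfl⟩⟩
          obtain ⟨t, ht⟩ := hdo
          exact ⟨t, by omega⟩
      obtain ⟨ρ, hρe, hρ2, hρd, hρc⟩ := hρ
      have key : ∃ x : Matrix.GeneralLinearGroup (P d) F,
          x ∈ Cfsg.Geo.omegaGL (Cfsg.quadFormPlus d F) ∧
          (∃ z : F, ((x ^ r : Matrix.GeneralLinearGroup (P d) F) : Matrix (P d) (P d) F) =
            z • (1 : Matrix (P d) (P d) F)) ∧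
          (∀ z : F, (x : Matrix (P d) (P d) F) ≠ z • (1 : Matrix (P d) (P d) F)) ∧
          LinearMap.range (NP (x : Matrix (P d) (P d) F)) ≤ FxP (x : Matrix (P d) (P d) F) ∧
          (∀ v, Cfsg.quadFormPlus d F (NP (x : Matrix (P d) (P d) F) v) = 0) ∧
          Module.finrank F ↥(LinearMap.range (NP (x : Matrix (P d) (P d) F))) = ρ := by
        by_cases hp2 : p = 2
        · subst hp2
          obtain ⟨x, hxΩ, hxx, hns, hle, hQ, hrk⟩ := hP2 F d ρ (by omega) hρe hρ2 hρd
          refine ⟨x, hxΩ, ⟨1, ?_⟩, hns, hle, hQ, hrk⟩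
          rw [hrp, Units.val_pow_eq_pow_val, pow_two, hxx, one_smul]
        · have hodd : Odd (Fintype.card F) := odd_card_of_char_ne_two hp2
          obtain ⟨x, hxΩ, hxp, hle, hrk⟩ := hPA F p hodd d ρ hρe hρ2 hρd
          have hxr : x ^ r = 1 := by
            rw [hrp, ← hxp]
            exact pow_orderOf_eq_one x
          refine ⟨x, hxΩ, ⟨1, by rw [hxr, one_smul]; rfl⟩, ?_, hle,
            hQN F hodd d x (hiso x hxΩ) hle, hrk⟩
          exact Cfsg.Agent.Lib.Helper94.OPAsm.nonscalar_of_order hScal hd1 x (hiso x hxΩ) hxp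
            hppr hp2
      obtain ⟨x, hxΩ, hsc, hns, hle, hQ, hrk⟩ := key
      obtain ⟨W, hW, hS⟩ := hL x hxΩ hsc hns
      have hcase : Module.finrank F ↥(LinearMap.range (NP (x : Matrix (P d) (P d) F))) = d ∨
          (Odd d ∧ Module.finrank F ↥(LinearMap.range (NP (x : Matrix (P d) (P d) F))) = d - 1) := by
        rcases hρc with h | ⟨h1, h2⟩
        · left
          rw [hrk, h]
        · right
          exact ⟨h1, by rw [hrk, h2]⟩
      have hplus := hPF F d hd1 x (hiso x hxΩ) hle hQ hcase W hW.2.1 hS (by rw [hW.1]; exact hme)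
      exact hW.2.2 hplus
    · rintro (⟨h2, hp2, -⟩ | ⟨h, -⟩ | ⟨h, -⟩)
      · exact absurd (hrp.symm.trans h2) hp2
      · exact absurd hrp h
      · exact absurd hrp h
  · by_cases hr2 : r = 2
    · subst hr2
      have hp2 : p ≠ 2 := fun h => hrp h.symm
      have hodd : Odd (Fintype.card F) := odd_card_of_char_ne_two hp2
      have h2 : (2 : F) ≠ 0 := Cfsg.Agent.Lib.Helper94.OPAsm.two_ne_zero' hodd
      constructor
      · intro hL
        left
        refine ⟨rfl, hp2, ?_⟩
        by_contra hcon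
        have hE : Even d ∨ Fintype.card F % 8 = 1 := by
          by_cases hde : Even d
          · exact Or.inl hde
          · right
            by_contra h8
            exact hcon (Or.inr ⟨Nat.not_even_iff_odd.mp hde, h8⟩)
        obtain ⟨x, hxΩ, hxx⟩ := hNE F hodd d (by omega) hE
        have hxi := hiso x hxΩ
        have hsq : ((x ^ 2 : Matrix.GeneralLinearGroup (P d) F) : Matrix (P d) (P d) F) =
            (-1 : F) • (1 : Matrix (P d) (P d) F) := by
          rw [Units.val_pow_eq_pow_val, pow_two, hxx]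
          simp
        have hns : ∀ z : F, (x : Matrix (P d) (P d) F) ≠ z • (1 : Matrix (P d) (P d) F) := by
          intro z hz
          have hzz : (1 : Matrix (P d) (P d) F) = -1 := by
            rw [← hxx, hz]
            rcases hScal F d hd1 x hxi z hz with rfl | rfl <;> simp
          exact Cfsg.Agent.Lib.Helper94.OPAsm.one_ne_neg_one h2 hd1 hzz
        obtain ⟨W, hW, hS⟩ := hL x hxΩ ⟨-1, hsq⟩ hns
        have hq4 : Fintype.card F % 4 = 1 ∨ Fintype.card F % 4 = 3 := by
          obtain ⟨t, ht⟩ := hodd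
          omega
        rcases hq4 with h1 | h3
        · exact hW.2.2 (hFA F h1 d x hxi hxx W hW.2.1 hS)
        · rcases Nat.even_or_odd d with hde | hdo
          · have hm4 : m % 4 = 0 := by
              by_contra hm4
              apply hcon
              left
              obtain ⟨t, ht⟩ := hme
              exact ⟨hde, h3, by omega⟩
            exact hW.2.2 (hFB1 F h3 d x hxi hxx W hW.2.1 hS (by rw [hW.1]; exact hm4))
          · have h8 : Fintype.card F % 8 = 1 := by
              by_contra h8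
              exact hcon (Or.inr ⟨hdo, h8⟩)
            omega
      · rintro (⟨-, -, hR⟩ | ⟨-, h, -⟩ | ⟨-, h, -⟩)
        · intro x hxΩ ⟨z, hz⟩ hns
          have hxi := hiso x hxΩ
          have hx2i : x ^ 2 ∈ Cfsg.isometryGroup F (Cfsg.quadFormPlus d F) :=
            Subgroup.pow_mem _ hxi 2
          rcases hScal F d hd1 (x ^ 2) hx2i z hz with rfl | rfl
          · have hxx : (x : Matrix (P d) (P d) F) * (x : Matrix (P d) (P d) F) = 1 := by
              rw [← pow_two, ← Units.val_pow_eq_pow_val, hz, one_smul]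
            obtain ⟨W, hW, hS⟩ := hInv F hodd d m hm hme hmd x hxi hxx
            exact ⟨W, hW, hS⟩
          · have hxx : (x : Matrix (P d) (P d) F) * (x : Matrix (P d) (P d) F) = -1 := by
              rw [← pow_two, ← Units.val_pow_eq_pow_val, hz]
              simp
            rcases hR with ⟨hde, h3, hm4⟩ | ⟨hdo, h8⟩
            · obtain ⟨W, hW, hS⟩ := hFB2 F h3 d m hm4 (by omega) x hxi hxx
              exact ⟨W, hW, hS⟩
            · exfalso
              have hq8 : Fintype.card F % 4 = 3 ∨ Fintype.card F % 8 = 5 := by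
                obtain ⟨t, ht⟩ := hodd
                omega
              rcases hq8 with h4 | h5
              · exact hN3 F h4 d (by omega) hdo x hxΩ hxx
              · exact hN5 F h5 d (by omega) hdo x hxΩ hxx
        · omega
        · omega
    · have h2r : 2 < r := by
        have := hrpr.two_le
        omega
      have hrodd : Odd r := hrpr.odd_of_ne_two hr2
      constructor
      · intro hL
        by_contra hR
        have hcond : ¬ CondE d m (orderOf ((Fintype.card F : ℕ) : ZMod r)) := by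
          intro hC
          apply hR
          rcases hC with h | h
          · exact Or.inr (Or.inl ⟨hrp, h2r, h⟩)
          · exact Or.inr (Or.inr ⟨hrp, h2r, h⟩)
        have hA := hND F p d m hd hm hme hmd r hr2 hrp hrΩ
        obtain ⟨x, hxΩ, hxr, hxW⟩ := hB2 F p d m hd hm hme hmd r hr2 hrp hA hcond
        have hxr1 : x ^ r = 1 := by
          rw [← hxr]
          exact pow_orderOf_eq_one x
        have hsc : ∃ z : F, ((x ^ r : Matrix.GeneralLinearGroup (P d) F) :
            Matrix (P d) (P d) F) = z • (1 : Matrix (P d) (P d) F) :=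
          ⟨1, by rw [hxr1, one_smul]; rfl⟩
        obtain ⟨W, hW, hS⟩ := hL x hxΩ hsc
          (Cfsg.Agent.Lib.Helper94.OPAsm.nonscalar_of_order hScal hd1 x (hiso x hxΩ) hxr hrpr hr2)
        exact hxW W hW hS
      · intro hR x hxΩ ⟨z, hz⟩ hns
        have hC : CondE d m (orderOf ((Fintype.card F : ℕ) : ZMod r)) := by
          rcases hR with ⟨h, -⟩ | ⟨-, -, h⟩ | ⟨-, -, h⟩
          · exact absurd h hr2
          · exact Or.inl h
          · exact Or.inr h
        have hxi := hiso x hxΩ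
        have hxri : x ^ r ∈ Cfsg.isometryGroup F (Cfsg.quadFormPlus d F) :=
          Subgroup.pow_mem _ hxi r
        rcases hScal F d hd1 (x ^ r) hxri z hz with rfl | rfl
        · have hxr1 : x ^ r = 1 := Units.ext (by rw [hz, one_smul]; rfl)
          obtain ⟨W, hW, hS⟩ := hB1 F p d m hd hm hme hmd r hr2 hrp hC x hxi hxr1
          exact ⟨W, hW, hS⟩
        · have hneg : ((x ^ r : Matrix.GeneralLinearGroup (P d) F) : Matrix (P d) (P d) F)
              = -1 := by
            rw [hz]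
            simp
          obtain ⟨y, hyi, hyr, hyS⟩ := hNR F d r hrodd x hxi hneg
          obtain ⟨W, hW, hS⟩ := hB1 F p d m hd hm hme hmd r hr2 hrp hC y hyi hyr
          exact ⟨W, hW, (hyS W).mp hS⟩

end Cfsg.Agent.Lib.Helper45.EPAsm
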