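import Mathlib
import Cfsg.Prelude.Def_LieTypeDatum
import Cfsg.Agent.Lib.Helper43.PSLnField
import Cfsg.Agent.Lib.Helper45.PGOCongr

set_option autoImplicit false

/-!
Centralizer in `Inndiag(PSL_n(F))` of the graph automorphism `cτ * cGL g₁`
(`g₁` symmetric, `2 ≠ 0`): it is `PGO` of the quadratic form `v ↦ vᵀ g₁ v`.
-/

namespace Cfsg.Agent.Lib.Helper45.GraphCent

open Matrix Cfsg.Agent.Lib.Helper43.PSLnBasic Cfsg.Agent.Lib.Helper43.PSLnAuts
  Cfsg.Agent.Lib.Helper43.PSLnAll Cfsg.Agent.Lib.Helper43.PSLnField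
  Cfsg.Agent.Lib.Helper45.PGOCongr

variable {F : Type*} [Field F] {n : ℕ}

theorem gT_gT (h : GL (Fin n) F) : gT (gT h) = h := by
  apply Units.ext
  show ((h : Matrix (Fin n) (Fin n) F)ᵀ)ᵀ = h
  exact Matrix.transpose_transpose _

theorem gT_coe (h : GL (Fin n) F) :
    ((gT h : GL (Fin n) F) : Matrix (Fin n) (Fin n) F) = ((h⁻¹ : GL (Fin n) F) : Matrix (Fin n) (Fin n) F)ᵀ :=
  rfl

/-- `cGL h` commutes with `cτ * cGL g₁` iff `hᵀ g₁ h` is a scalar multiple of `g₁`. -/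
theorem commute_iff (hn : 2 ≤ n) (g₁ h : GL (Fin n) F) :
    cGL h * (cτ * cGL g₁) = cτ * cGL g₁ * cGL h ↔
      ∃ t : Fˣ, (h : Matrix (Fin n) (Fin n) F)ᵀ * (g₁ : Matrix (Fin n) (Fin n) F)
        * (h : Matrix (Fin n) (Fin n) F) = (t : F) • (g₁ : Matrix (Fin n) (Fin n) F) := by
  have e1 : cGL h * (cτ * cGL g₁) = cτ * cGL (gT h * g₁) := by
    calc cGL h * (cτ * cGL g₁) = (cGL (gT (gT h)) * cτ) * cGL g₁ := by rw [gT_gT, mul_assoc]
      _ = (cτ * cGL (gT h)) * cGL g₁ := by rw [cτ_mul_cGL]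
      _ = cτ * cGL (gT h * g₁) := by rw [mul_assoc, ← map_mul]
  have e2 : cτ * cGL g₁ * cGL h = cτ * cGL (g₁ * h) := by rw [mul_assoc, ← map_mul]
  rw [e1, e2, mul_right_inj, MonoidHom.eq_iff, ker_cGL hn,
    Matrix.GeneralLinearGroup.center_eq_range_scalar]
  have hT : (h : Matrix (Fin n) (Fin n) F)ᵀ * ((h⁻¹ : GL (Fin n) F) : Matrix (Fin n) (Fin n) F)ᵀ = 1 := by
    rw [← Matrix.transpose_mul, ← Units.val_mul, inv_mul_cancel, Units.val_one, Matrix.transpose_one]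
  have hT' : ((h⁻¹ : GL (Fin n) F) : Matrix (Fin n) (Fin n) F)ᵀ * (h : Matrix (Fin n) (Fin n) F)ᵀ = 1 := by
    rw [← Matrix.transpose_mul, ← Units.val_mul, mul_inv_cancel, Units.val_one, Matrix.transpose_one]
  have h6 : ∀ t : Fˣ, (Matrix.scalar (Fin n)) (t : F) = (t : F) • (1 : Matrix (Fin n) (Fin n) F) := by
    intro t
    rw [Matrix.smul_one_eq_diagonal]; rfl
  constructor
  · rintro ⟨t, ht⟩
    refine ⟨t⁻¹, ?_⟩
    have h3 : gT h * g₁ = (g₁ * h) * Matrix.GeneralLinearGroup.scalar (Fin n) t := by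
      rw [ht, mul_inv_cancel_left]
    have h4 := congrArg (fun x : GL (Fin n) F => (x : Matrix (Fin n) (Fin n) F)) h3
    simp only [Units.val_mul, gT_coe, Matrix.GeneralLinearGroup.coe_scalar] at h4
    have h5 : (h : Matrix (Fin n) (Fin n) F)ᵀ * (((h⁻¹ : GL (Fin n) F) : Matrix (Fin n) (Fin n) F)ᵀ
        * (g₁ : Matrix (Fin n) (Fin n) F)) = (g₁ : Matrix (Fin n) (Fin n) F) := by
      rw [← Matrix.mul_assoc, hT, Matrix.one_mul]
    rw [h4, h6, Matrix.mul_smul, Matrix.mul_smul, Matrix.mul_one, ← Matrix.mul_assoc] at h5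
    rw [← h5, smul_smul, ← Units.val_mul, inv_mul_cancel, Units.val_one, one_smul]
    rw [h5]
  · rintro ⟨t, ht⟩
    refine ⟨t⁻¹, ?_⟩
    rw [eq_inv_mul_iff_mul_eq]
    apply Units.ext
    simp only [Units.val_mul, gT_coe, Matrix.GeneralLinearGroup.coe_scalar]
    rw [h6, Matrix.mul_smul, Matrix.mul_one]
    have h7 : (g₁ : Matrix (Fin n) (Fin n) F) * (h : Matrix (Fin n) (Fin n) F)
        = (t : F) • (((h⁻¹ : GL (Fin n) F) : Matrix (Fin n) (Fin n) F)ᵀ * (g₁ : Matrix (Fin n) (Fin n) F)) := by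
      rw [← Matrix.mul_smul, ← ht, ← Matrix.mul_assoc, ← Matrix.mul_assoc, hT', Matrix.one_mul]
    rw [h7, smul_smul, ← Units.val_mul, inv_mul_cancel, Units.val_one, one_smul]

/-- a symmetric matrix whose quadratic form vanishes is zero (`2 ≠ 0`) -/
theorem eq_zero_of_forall_dot (h2 : (2 : F) ≠ 0) (N : Matrix (Fin n) (Fin n) F) (hN : Nᵀ = N)
    (h : ∀ v : Fin n → F, v ⬝ᵥ (N *ᵥ v) = 0) : N = 0 := by
  have hd : ∀ i, N i i = 0 := by
    intro i
    have := h (Pi.single i 1)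
    rw [Matrix.mulVec_single_one, single_one_dotProduct] at this
    exact this
  ext i j
  have := h (Pi.single i 1 + Pi.single j 1)
  rw [Matrix.mulVec_add, add_dotProduct, dotProduct_add, dotProduct_add, Matrix.mulVec_single_one,
    Matrix.mulVec_single_one, single_one_dotProduct, single_one_dotProduct, single_one_dotProduct,
    single_one_dotProduct] at this
  simp only [Matrix.col_apply] at this
  have hji : N j i = N i j := by
    have := congrFun (congrFun hN i) j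
    rwa [Matrix.transpose_apply] at this
  rw [hd i, hd j, hji] at this
  have h3 : (2 : F) * N i j = 0 := by linear_combination this
  rcases mul_eq_zero.1 h3 with h4 | h4
  · exact absurd h4 h2
  · simpa using h4

theorem dot_conj (g₁ : Matrix (Fin n) (Fin n) F) (h : Matrix (Fin n) (Fin n) F) (v : Fin n → F) :
    (h *ᵥ v) ⬝ᵥ (g₁ *ᵥ (h *ᵥ v)) = v ⬝ᵥ ((hᵀ * g₁ * h) *ᵥ v) := by
  rw [← Matrix.mulVec_mulVec, ← Matrix.mulVec_mulVec, Matrix.dotProduct_mulVec v hᵀ,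
    Matrix.vecMul_transpose]

/-- membership in the similarity group of `v ↦ vᵀ g₁ v` -/
theorem mem_sim_iff (h2 : (2 : F) ≠ 0) (g₁ : Matrix (Fin n) (Fin n) F) (hsym : g₁ᵀ = g₁)
    (h : GL (Fin n) F) :
    h ∈ Cfsg.Geo.quadSimilarityGroup (F := F) (fun v : Fin n → F => v ⬝ᵥ (g₁ *ᵥ v)) ↔
      ∃ t : Fˣ, (h : Matrix (Fin n) (Fin n) F)ᵀ * g₁ * (h : Matrix (Fin n) (Fin n) F) = (t : F) • g₁ := by
  constructor
  · rintro ⟨c, hc⟩
    refine ⟨c, ?_⟩
    have hN : ((h : Matrix (Fin n) (Fin n) F)ᵀ * g₁ * (h : Matrix (Fin n) (Fin n) F) - (c : F) • g₁)ᵀ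
        = (h : Matrix (Fin n) (Fin n) F)ᵀ * g₁ * (h : Matrix (Fin n) (Fin n) F) - (c : F) • g₁ := by
      rw [Matrix.transpose_sub, Matrix.transpose_mul, Matrix.transpose_mul, Matrix.transpose_transpose,
        Matrix.transpose_smul, hsym, Matrix.mul_assoc]
    have := eq_zero_of_forall_dot h2 _ hN (fun v => by
      rw [Matrix.sub_mulVec, dotProduct_sub, ← dot_conj, Matrix.smul_mulVec, dotProduct_smul,
        smul_eq_mul]
      have := hc v
      simp only at this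
      rw [this, sub_self])
    exact sub_eq_zero.1 this
  · rintro ⟨t, ht⟩
    refine ⟨t, fun v => ?_⟩
    show ((h : Matrix (Fin n) (Fin n) F) *ᵥ v) ⬝ᵥ (g₁ *ᵥ ((h : Matrix (Fin n) (Fin n) F) *ᵥ v)) = _
    rw [dot_conj, ht, Matrix.smul_mulVec, dotProduct_smul, smul_eq_mul]

/-- The centralizer of the graph automorphism `cτ * cGL g₁` (`g₁` symmetric) in `Inndiag(PSL_n(F))`
is `PGO` of the form `v ↦ vᵀ g₁ v`. -/
theorem cent_equiv (hn : 2 ≤ n) (h2 : (2 : F) ≠ 0) (g₁ : GL (Fin n) F)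
    (hsym : (g₁ : Matrix (Fin n) (Fin n) F)ᵀ = g₁) :
    Nonempty (↥(Cfsg.inndiagPSL n F ⊓ Subgroup.centralizer {cτ * cGL g₁}) ≃*
      Cfsg.PGO F (fun v : Fin n → F => v ⬝ᵥ ((g₁ : Matrix (Fin n) (Fin n) F) *ᵥ v))) := by
  let S := Cfsg.Geo.quadSimilarityGroup (F := F)
    (fun v : Fin n → F => v ⬝ᵥ ((g₁ : Matrix (Fin n) (Fin n) F) *ᵥ v))
  have hmem : ∀ h : ↥S, cGL h.1 ∈ Cfsg.inndiagPSL n F ⊓ Subgroup.centralizer {cτ * cGL g₁} := by
    intro h
    refine ⟨cGL_mem_inndiag _, ?_⟩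
    show cGL h.1 ∈ Subgroup.centralizer {cτ * cGL g₁}
    rw [Subgroup.mem_centralizer_iff]
    intro x hx
    rw [Set.mem_singleton_iff] at hx
    rw [hx]
    exact ((commute_iff hn g₁ h.1).2 ((mem_sim_iff h2 _ hsym h.1).1 h.2)).symm
  let f : ↥S →* ↥(Cfsg.inndiagPSL n F ⊓ Subgroup.centralizer {cτ * cGL g₁}) :=
    { toFun := fun h => ⟨cGL h.1, hmem h⟩
      map_one' := Subtype.ext (map_one _)
      map_mul' := fun a b => Subtype.ext (map_mul _ _ _) }
  have hsurj : Function.Surjective f := by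
    rintro ⟨x, hx1, hx2⟩
    obtain ⟨h, rfl⟩ := (mem_inndiag_iff x).1 hx1
    have hx2' : cGL h ∈ Subgroup.centralizer {cτ * cGL g₁} := hx2
    rw [Subgroup.mem_centralizer_iff] at hx2'
    have h3 := (hx2' _ (Set.mem_singleton _)).symm
    have h4 := (mem_sim_iff h2 _ hsym h).2 ((commute_iff hn g₁ h).1 h3)
    exact ⟨⟨h, h4⟩, rfl⟩
  have hker : f.ker = (Cfsg.Geo.scalars (Fin n) F).subgroupOf S := by
    ext h
    rw [MonoidHom.mem_ker, Subgroup.mem_subgroupOf, Cfsg.Geo.mem_scalars_iff]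
    have e : f h = 1 ↔ cGL h.1 = 1 := by
      constructor
      · intro hh
        exact congrArg Subtype.val hh
      · intro hh
        exact Subtype.ext hh
    rw [e, ← MonoidHom.mem_ker, ker_cGL hn, Matrix.GeneralLinearGroup.center_eq_range_scalar]
    constructor
    · rintro ⟨t, ht⟩
      refine ⟨t, ?_⟩
      rw [← ht, Matrix.GeneralLinearGroup.coe_scalar, Matrix.smul_one_eq_diagonal]
      rfl
    · rintro ⟨t, ht⟩
      refine ⟨t, Units.ext ?_⟩
      rw [ht, Matrix.GeneralLinearGroup.coe_scalar, Matrix.smul_one_eq_diagonal]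
      rfl
  obtain ⟨e⟩ := quot_equiv_of_surj _ f hsurj hker
  exact ⟨e.symm⟩

end Cfsg.Agent.Lib.Helper45.GraphCent
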