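import Mathlib
import Cfsg.Prelude.Def_LieTypeDatum
import Cfsg.Agent.Lib.Helper43.PSLnField
import Cfsg.Agent.Lib.Helper45.GraphCent

set_option autoImplicit false

/-!
Graph automorphisms `cτ * cGL g₁` of `PSL_n(F)`: parametrisation of the graph class, order two
iff `g₁` is symmetric or skew-symmetric, conjugacy under `Inndiag` iff congruence up to a scalar.
-/

namespace Cfsg.Agent.Lib.Helper45.GraphInv

open Matrix Cfsg.Agent.Lib.Helper43.PSLnBasic Cfsg.Agent.Lib.Helper43.PSLnAuts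
  Cfsg.Agent.Lib.Helper43.PSLnAll Cfsg.Agent.Lib.Helper43.PSLnField
  Cfsg.Agent.Lib.Helper43.PSLnPred Cfsg.Agent.Lib.Helper45.GraphCent

variable {F : Type*} [Field F] {n : ℕ}

theorem cGL_mul_cτ (g : GL (Fin n) F) : cGL g * cτ = cτ * cGL (gT g) := by
  rw [cτ_mul_cGL, gT_gT]

/-- graph-class automorphisms are exactly the `cτ * cGL g₁` (for `n ≥ 3`) -/
theorem graph_iff (β : MulAut (Matrix.ProjectiveSpecialLinearGroup (Fin n) F)) :
    Cfsg.IsGraphAutClassPSL β ↔ 3 ≤ n ∧ ∃ g₁ : GL (Fin n) F, β = cτ * cGL g₁ := by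
  unfold Cfsg.IsGraphAutClassPSL
  constructor
  · rintro ⟨hn, δ, γ, hδ, hγ, rfl⟩
    obtain ⟨g, rfl⟩ := (isInnerDiag_iff δ).1 hδ
    rw [(isInvTransp_iff γ).1 hγ]
    exact ⟨hn, gT g, cGL_mul_cτ g⟩
  · rintro ⟨hn, g₁, rfl⟩
    refine ⟨hn, cGL (gT g₁), cτ, isInnerDiag_cGL _, isInvTransp_cτ, ?_⟩
    rw [cGL_mul_cτ, gT_gT]

theorem sq_eq (g₁ : GL (Fin n) F) : (cτ * cGL g₁) * (cτ * cGL g₁) = cGL (gT g₁ * g₁) := by
  calc cτ * cGL g₁ * (cτ * cGL g₁) = cτ * (cGL g₁ * cτ) * cGL g₁ := by group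
    _ = cτ * (cτ * cGL (gT g₁)) * cGL g₁ := by rw [cGL_mul_cτ]
    _ = (cτ * cτ) * cGL (gT g₁) * cGL g₁ := by group
    _ = cGL (gT g₁ * g₁) := by rw [cτ_mul_cτ, one_mul, map_mul]

theorem ne_one (hn : 3 ≤ n) (g₁ : GL (Fin n) F) : cτ * cGL g₁ ≠ 1 := by
  intro h
  have h1 : cGL g₁⁻¹ * cσ (1 : RingAut F) = cτ := by
    rw [map_one, mul_one, map_inv]
    exact (eq_inv_of_mul_eq_one_left h).symm
  exact cτ_ne hn g₁⁻¹ 1 h1

/-- `cτ * cGL g₁` squares to one iff `g₁` is a scalar multiple of its transpose -/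
theorem sq_eq_one_iff (hn : 2 ≤ n) (g₁ : GL (Fin n) F) :
    (cτ * cGL g₁) * (cτ * cGL g₁) = 1 ↔
      ∃ t : Fˣ, (g₁ : Matrix (Fin n) (Fin n) F) = (t : F) • (g₁ : Matrix (Fin n) (Fin n) F)ᵀ := by
  rw [sq_eq, ← MonoidHom.mem_ker, ker_cGL hn, Matrix.GeneralLinearGroup.center_eq_range_scalar]
  have hT : (g₁ : Matrix (Fin n) (Fin n) F)ᵀ * ((g₁⁻¹ : GL (Fin n) F) : Matrix (Fin n) (Fin n) F)ᵀ = 1 := by
    rw [← Matrix.transpose_mul, ← Units.val_mul, inv_mul_cancel, Units.val_one, Matrix.transpose_one]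
  have hT' : ((g₁⁻¹ : GL (Fin n) F) : Matrix (Fin n) (Fin n) F)ᵀ * (g₁ : Matrix (Fin n) (Fin n) F)ᵀ = 1 := by
    rw [← Matrix.transpose_mul, ← Units.val_mul, mul_inv_cancel, Units.val_one, Matrix.transpose_one]
  have h6 : ∀ t : Fˣ, (Matrix.scalar (Fin n)) (t : F) = (t : F) • (1 : Matrix (Fin n) (Fin n) F) := by
    intro t
    rw [Matrix.smul_one_eq_diagonal]; rfl
  constructor
  · rintro ⟨t, ht⟩
    refine ⟨t, ?_⟩
    have h4 := congrArg (fun x : GL (Fin n) F => (x : Matrix (Fin n) (Fin n) F)) ht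
    simp only [Units.val_mul, gT_coe, Matrix.GeneralLinearGroup.coe_scalar] at h4
    rw [h6] at h4
    calc (g₁ : Matrix (Fin n) (Fin n) F)
        = (g₁ : Matrix (Fin n) (Fin n) F)ᵀ * (((g₁⁻¹ : GL (Fin n) F) : Matrix (Fin n) (Fin n) F)ᵀ
            * (g₁ : Matrix (Fin n) (Fin n) F)) := by rw [← Matrix.mul_assoc, hT, Matrix.one_mul]
      _ = (t : F) • (g₁ : Matrix (Fin n) (Fin n) F)ᵀ := by
          rw [← h4, Matrix.mul_smul, Matrix.mul_one]
  · rintro ⟨t, ht⟩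
    refine ⟨t, ?_⟩
    apply Units.ext
    simp only [Units.val_mul, gT_coe, Matrix.GeneralLinearGroup.coe_scalar]
    rw [h6]
    conv_rhs => rw [ht, Matrix.mul_smul, hT']

/-- order two iff symmetric or skew-symmetric (`n ≥ 3`) -/
theorem order_two_iff (hn : 3 ≤ n) (g₁ : GL (Fin n) F) :
    orderOf (cτ * cGL g₁) = 2 ↔
      ((g₁ : Matrix (Fin n) (Fin n) F)ᵀ = g₁ ∨ (g₁ : Matrix (Fin n) (Fin n) F)ᵀ = -(g₁ : Matrix (Fin n) (Fin n) F)) := by
  have key : orderOf (cτ * cGL g₁) = 2 ↔ (cτ * cGL g₁) * (cτ * cGL g₁) = 1 := by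
    constructor
    · intro h
      have := pow_orderOf_eq_one (cτ * cGL g₁)
      rw [h, pow_two] at this
      exact this
    · intro h
      have : Fact (Nat.Prime 2) := ⟨Nat.prime_two⟩
      exact orderOf_eq_prime (by rw [pow_two]; exact h) (ne_one hn g₁)
  rw [key, sq_eq_one_iff (by omega)]
  have hne : (g₁ : Matrix (Fin n) (Fin n) F) ≠ 0 := by
    intro h0
    have h1 : (g₁ : Matrix (Fin n) (Fin n) F) * ((g₁⁻¹ : GL (Fin n) F) : Matrix (Fin n) (Fin n) F) = 1 := by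
      rw [← Units.val_mul, mul_inv_cancel, Units.val_one]
    rw [h0, Matrix.zero_mul] at h1
    have h2 := congrFun (congrFun h1 ⟨0, by omega⟩) ⟨0, by omega⟩
    simp at h2
  constructor
  · rintro ⟨t, ht⟩
    have h1 : (g₁ : Matrix (Fin n) (Fin n) F)ᵀ = (t : F) • (g₁ : Matrix (Fin n) (Fin n) F) := by
      conv_lhs => rw [ht, Matrix.transpose_smul, Matrix.transpose_transpose]
    have h2 : ((t : F) ^ 2 - 1) • (g₁ : Matrix (Fin n) (Fin n) F) = 0 := by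
      have : (g₁ : Matrix (Fin n) (Fin n) F) = (t : F) • ((t : F) • (g₁ : Matrix (Fin n) (Fin n) F)) := by
        rw [← h1]; exact ht
      rw [sub_smul, one_smul, pow_two, ← smul_smul, ← this, sub_self]
    rcases smul_eq_zero.1 h2 with h3 | h3
    · have h4 : ((t : F) - 1) * ((t : F) + 1) = 0 := by linear_combination h3
      rcases mul_eq_zero.1 h4 with h5 | h5
      · left
        rw [h1, sub_eq_zero.1 h5, one_smul]
      · right
        rw [h1, eq_neg_of_add_eq_zero_left h5, neg_smul, one_smul]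
    · exact absurd h3 hne
  · rintro (h | h)
    · exact ⟨1, by rw [Units.val_one, one_smul, h]⟩
    · exact ⟨-1, by rw [Units.val_neg, Units.val_one, neg_smul, one_smul, h, neg_neg]⟩

/-- conjugacy under `Inndiag` is congruence up to a scalar -/
theorem conj_iff (hn : 2 ≤ n) (g₁ g₂ : GL (Fin n) F) :
    Cfsg.IsConjUnder (Cfsg.inndiagPSL n F) (cτ * cGL g₁) (cτ * cGL g₂) ↔
      ∃ (k : GL (Fin n) F) (t : Fˣ), (g₂ : Matrix (Fin n) (Fin n) F)
        = (t : F) • ((k : Matrix (Fin n) (Fin n) F)ᵀ * (g₁ : Matrix (Fin n) (Fin n) F) * (k : Matrix (Fin n) (Fin n) F)) := by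
  have hconj : ∀ a : GL (Fin n) F, cGL a * (cτ * cGL g₁) * (cGL a)⁻¹ = cτ * cGL (gT a * g₁ * a⁻¹) := by
    intro a
    calc cGL a * (cτ * cGL g₁) * (cGL a)⁻¹ = (cGL a * cτ) * cGL g₁ * (cGL a)⁻¹ := by group
      _ = cτ * cGL (gT a) * cGL g₁ * cGL a⁻¹ := by rw [cGL_mul_cτ, map_inv]
      _ = cτ * cGL (gT a * g₁ * a⁻¹) := by rw [map_mul, map_mul]; group
  have h6 : ∀ t : Fˣ, (Matrix.scalar (Fin n)) (t : F) = (t : F) • (1 : Matrix (Fin n) (Fin n) F) := by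
    intro t
    rw [Matrix.smul_one_eq_diagonal]; rfl
  constructor
  · rintro ⟨h, hh, e⟩
    obtain ⟨a, rfl⟩ := (mem_inndiag_iff h).1 hh
    rw [hconj, mul_right_inj, MonoidHom.eq_iff, ker_cGL hn,
      Matrix.GeneralLinearGroup.center_eq_range_scalar] at e
    obtain ⟨t, ht⟩ := e
    refine ⟨a⁻¹, t, ?_⟩
    have h3 : g₂ = (gT a * g₁ * a⁻¹) * Matrix.GeneralLinearGroup.scalar (Fin n) t := by
      rw [ht, mul_inv_cancel_left]
    have h4 := congrArg (fun x : GL (Fin n) F => (x : Matrix (Fin n) (Fin n) F)) h3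
    simp only [Units.val_mul, gT_coe, Matrix.GeneralLinearGroup.coe_scalar] at h4
    rw [h6, Matrix.mul_smul, Matrix.mul_one] at h4
    exact h4
  · rintro ⟨k, t, e⟩
    refine ⟨cGL k⁻¹, cGL_mem_inndiag _, ?_⟩
    rw [hconj]
    congr 1
    have h3 : g₂ = (gT k⁻¹ * g₁ * k⁻¹⁻¹) * Matrix.GeneralLinearGroup.scalar (Fin n) t := by
      apply Units.ext
      simp only [Units.val_mul, gT_coe, Matrix.GeneralLinearGroup.coe_scalar, inv_inv]
      rw [h6, Matrix.mul_smul, Matrix.mul_one, e]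
    rw [h3, map_mul, cGL_scalar, mul_one]

end Cfsg.Agent.Lib.Helper45.GraphInv
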