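import Mathlib
import Cfsg.Prelude.Def_LieTypeDatum
import Cfsg.Agent.Lib.Helper43.PSLnField
import Cfsg.Agent.Lib.Helper45.GraphCent
import Cfsg.Agent.Lib.Helper45.GraphInv
import Cfsg.Agent.Lib.Helper45.SymCong
import Cfsg.Agent.Lib.Helper45.PGOCongr

set_option autoImplicit false

/-!
Representatives of the three classes of involutory graph automorphisms of `PSL_{2m}(F)`
(`F` finite of odd order): Gram matrices of the symplectic form, the plus form and a minus form,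
transported to `Fin n`, with the centralizers `PGSp`, `PGO⁺`, `PGO⁻`.
-/

namespace Cfsg.Agent.Lib.Helper45.GraphReps

open Matrix Cfsg.Agent.Lib.Helper43.PSLnBasic Cfsg.Agent.Lib.Helper43.PSLnAuts
  Cfsg.Agent.Lib.Helper43.PSLnAll Cfsg.Agent.Lib.Helper43.PSLnField
  Cfsg.Agent.Lib.Helper43.PSLnPred Cfsg.Agent.Lib.Helper45.GraphCent
  Cfsg.Agent.Lib.Helper45.PGOCongr Cfsg.Agent.Lib.Helper45.SymCong

variable {F : Type*} [Field F]

section general

variable {ι ι' : Type} [Fintype ι] [DecidableEq ι] [Fintype ι'] [DecidableEq ι']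

/-- Transfer of `projQuot` along conjugation by mutually inverse rectangular matrices. -/
theorem projQuot_congr (S : Subgroup (GL ι F)) (S' : Subgroup (GL ι' F))
    (P : Matrix ι' ι F) (P' : Matrix ι ι' F) (h1 : P * P' = 1) (h2 : P' * P = 1)
    (hmem : ∀ g : GL ι F, g ∈ S → conj P P' h1 h2 g ∈ S')
    (hmem' : ∀ g : GL ι' F, g ∈ S' → conj P' P h2 h1 g ∈ S) :
    Nonempty (Cfsg.projQuot S ≃* Cfsg.projQuot S') := by
  let f₀ : ↥S →* ↥S' :=
    { toFun := fun g => ⟨conj P P' h1 h2 g.1, hmem g.1 g.2⟩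
      map_one' := Subtype.ext (map_one _)
      map_mul' := fun g k => Subtype.ext (map_mul _ _ _) }
  let f : ↥S →* Cfsg.projQuot S' := (QuotientGroup.mk' _).comp f₀
  apply quot_equiv_of_surj _ f
  · intro y
    obtain ⟨g', rfl⟩ := QuotientGroup.mk_surjective y
    refine ⟨⟨conj P' P h2 h1 g'.1, hmem' g'.1 g'.2⟩, ?_⟩
    have e : f₀ ⟨conj P' P h2 h1 g'.1, hmem' g'.1 g'.2⟩ = g' :=
      Subtype.ext (conj_conj P P' h1 h2 g'.1)
    show QuotientGroup.mk' _ (f₀ _) = _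
    rw [e]
    rfl
  · ext g
    rw [MonoidHom.mem_ker]
    show (QuotientGroup.mk' _ (f₀ g)) = 1 ↔ _
    rw [QuotientGroup.mk'_apply, QuotientGroup.eq_one_iff, Subgroup.mem_subgroupOf,
      Subgroup.mem_subgroupOf, Cfsg.Geo.mem_scalars_iff, Cfsg.Geo.mem_scalars_iff]
    constructor
    · rintro ⟨t, ht⟩
      refine ⟨t, ?_⟩
      have ht' : P * (g.1 : Matrix ι ι F) * P' = (t : F) • (1 : Matrix ι' ι' F) := ht
      calc ((g.1 : GL ι F) : Matrix ι ι F) = (P' * P) * (g.1 : Matrix ι ι F) * (P' * P) := by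
            rw [h2, Matrix.one_mul, Matrix.mul_one]
        _ = P' * (P * (g.1 : Matrix ι ι F) * P') * P := by simp only [Matrix.mul_assoc]
        _ = (t : F) • (1 : Matrix ι ι F) := by
            rw [ht', Matrix.mul_smul, Matrix.smul_mul, Matrix.mul_one, h2]
    · rintro ⟨t, ht⟩
      refine ⟨t, ?_⟩
      show P * (g.1 : Matrix ι ι F) * P' = (t : F) • (1 : Matrix ι' ι' F)
      rw [ht, Matrix.mul_smul, Matrix.smul_mul, Matrix.mul_one, h1]

/-- Transfer of the projective similarity group of a bilinear function along a reindexing. -/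
theorem psim_reindex (f : (ι → F) → (ι → F) → F) (f' : (ι' → F) → (ι' → F) → F) (e : ι ≃ ι')
    (h : ∀ u v : ι → F, f' (fun j => u (e.symm j)) (fun j => v (e.symm j)) = f u v) :
    Nonempty (Cfsg.projQuot (Cfsg.Geo.similarityGroup f) ≃*
      Cfsg.projQuot (Cfsg.Geo.similarityGroup f')) := by
  let Le : (ι → F) ≃ₗ[F] (ι' → F) := LinearEquiv.funCongrLeft F F e.symm
  have hLe : ∀ (v : ι → F), Le v = fun j => v (e.symm j) := fun v => rfl
  let P : Matrix ι' ι F := LinearMap.toMatrix' (Le : (ι → F) →ₗ[F] (ι' → F))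
  let P' : Matrix ι ι' F := LinearMap.toMatrix' (Le.symm : (ι' → F) →ₗ[F] (ι → F))
  have h1 : P * P' = 1 := by
    show LinearMap.toMatrix' (Le : (ι → F) →ₗ[F] (ι' → F))
      * LinearMap.toMatrix' (Le.symm : (ι' → F) →ₗ[F] (ι → F)) = 1
    rw [← LinearMap.toMatrix'_comp, LinearEquiv.comp_coe, LinearEquiv.symm_trans_self,
      LinearEquiv.refl_toLinearMap, LinearMap.toMatrix'_id]
  have h2 : P' * P = 1 := by
    show LinearMap.toMatrix' (Le.symm : (ι' → F) →ₗ[F] (ι → F))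
      * LinearMap.toMatrix' (Le : (ι → F) →ₗ[F] (ι' → F)) = 1
    rw [← LinearMap.toMatrix'_comp, LinearEquiv.comp_coe, LinearEquiv.self_trans_symm,
      LinearEquiv.refl_toLinearMap, LinearMap.toMatrix'_id]
  have hP : ∀ v, P *ᵥ v = Le v := fun v => LinearMap.toMatrix'_mulVec _ v
  have hP' : ∀ w, P' *ᵥ w = Le.symm w := fun w => LinearMap.toMatrix'_mulVec _ w
  have hf : ∀ u v, f' (Le u) (Le v) = f u v := fun u v => h u v
  have hf' : ∀ u v, f (Le.symm u) (Le.symm v) = f' u v := by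
    intro u v
    rw [← hf, LinearEquiv.apply_symm_apply, LinearEquiv.apply_symm_apply]
  apply projQuot_congr _ _ P P' h1 h2
  · rintro g ⟨d, hd⟩
    refine ⟨d, fun u v => ?_⟩
    rw [conj_coe, ← Matrix.mulVec_mulVec, ← Matrix.mulVec_mulVec, ← Matrix.mulVec_mulVec,
      ← Matrix.mulVec_mulVec, hP', hP', hP, hP, hf, hd, hf']
  · rintro g ⟨d, hd⟩
    refine ⟨d, fun u v => ?_⟩
    rw [conj_coe, ← Matrix.mulVec_mulVec, ← Matrix.mulVec_mulVec, ← Matrix.mulVec_mulVec,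
      ← Matrix.mulVec_mulVec, hP, hP, hP', hP', hf', hd, hf]

end general

section cent

variable {n : ℕ}

/-- membership in the similarity group of the bilinear function `(u, v) ↦ uᵀ g₁ v` -/
theorem mem_bsim_iff (g₁ : Matrix (Fin n) (Fin n) F) (h : GL (Fin n) F) :
    h ∈ Cfsg.Geo.similarityGroup (F := F) (fun u v : Fin n → F => u ⬝ᵥ (g₁ *ᵥ v)) ↔
      ∃ t : Fˣ, (h : Matrix (Fin n) (Fin n) F)ᵀ * g₁ * (h : Matrix (Fin n) (Fin n) F) = (t : F) • g₁ := by
  constructor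
  · rintro ⟨c, hc⟩
    refine ⟨c, ?_⟩
    ext i j
    rw [entry_eq ((h : Matrix (Fin n) (Fin n) F)ᵀ * g₁ * (h : Matrix (Fin n) (Fin n) F)) i j, ← bil_conj]
    have := hc (Pi.single i 1) (Pi.single j 1)
    simp only at this
    rw [this, Matrix.smul_apply, smul_eq_mul, ← entry_eq]
  · rintro ⟨t, ht⟩
    refine ⟨t, fun u v => ?_⟩
    show ((h : Matrix (Fin n) (Fin n) F) *ᵥ u) ⬝ᵥ (g₁ *ᵥ ((h : Matrix (Fin n) (Fin n) F) *ᵥ v)) = _
    rw [bil_conj, ht, Matrix.smul_mulVec, dotProduct_smul, smul_eq_mul]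

/-- The centralizer of the graph automorphism `cτ * cGL g₁` in `Inndiag(PSL_n(F))` is the projective
similarity group of the bilinear function `(u, v) ↦ uᵀ g₁ v`. -/
theorem cent_bil (hn : 2 ≤ n) (g₁ : GL (Fin n) F) :
    Nonempty (↥(Cfsg.inndiagPSL n F ⊓ Subgroup.centralizer {cτ * cGL g₁}) ≃*
      Cfsg.projQuot (Cfsg.Geo.similarityGroup (F := F)
        (fun u v : Fin n → F => u ⬝ᵥ ((g₁ : Matrix (Fin n) (Fin n) F) *ᵥ v)))) := by
  let S := Cfsg.Geo.similarityGroup (F := F)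
    (fun u v : Fin n → F => u ⬝ᵥ ((g₁ : Matrix (Fin n) (Fin n) F) *ᵥ v))
  have hmem : ∀ h : ↥S, cGL h.1 ∈ Cfsg.inndiagPSL n F ⊓ Subgroup.centralizer {cτ * cGL g₁} := by
    intro h
    refine ⟨cGL_mem_inndiag _, ?_⟩
    show cGL h.1 ∈ Subgroup.centralizer {cτ * cGL g₁}
    rw [Subgroup.mem_centralizer_iff]
    intro x hx
    rw [Set.mem_singleton_iff] at hx
    rw [hx]
    exact ((commute_iff hn g₁ h.1).2 ((mem_bsim_iff _ h.1).1 h.2)).symm
  let f : ↥S →* ↥(Cfsg.inndiagPSL n F ⊓ Subgroup.centralizer {cτ * cGL g₁}) :=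
    { toFun := fun h => ⟨cGL h.1, hmem h⟩
      map_one' := Subtype.ext (map_one _)
      map_mul' := fun a b => Subtype.ext (map_mul _ _ _) }
  have hsurj : Function.Surjective f := by
    rintro ⟨x, hx1, hx2⟩
    obtain ⟨h, rfl⟩ := (mem_inndiag_iff x).1 hx1
    have hx2' : cGL h ∈ Subgroup.centralizer {cτ * cGL g₁} := hx2
    rw [Subgroup.mem_centralizer_iff] at hx2'
    have h3 := (hx2' _ (Set.mem_singleton _)).symm
    have h4 := (mem_bsim_iff _ h).2 ((commute_iff hn g₁ h).1 h3)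
    exact ⟨⟨h, h4⟩, rfl⟩
  have hker : f.ker = (Cfsg.Geo.scalars (Fin n) F).subgroupOf S := by
    ext h
    rw [MonoidHom.mem_ker, Subgroup.mem_subgroupOf, Cfsg.Geo.mem_scalars_iff]
    have e : f h = 1 ↔ cGL h.1 = 1 := by
      constructor
      · intro hh
        exact congrArg Subtype.val hh
      · intro hh
        exact Subtype.ext hh
    rw [e, ← MonoidHom.mem_ker, ker_cGL hn, Matrix.GeneralLinearGroup.center_eq_range_scalar]
    constructor
    · rintro ⟨t, ht⟩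
      refine ⟨t, ?_⟩
      rw [← ht, Matrix.GeneralLinearGroup.coe_scalar, Matrix.smul_one_eq_diagonal]
      rfl
    · rintro ⟨t, ht⟩
      refine ⟨t, Units.ext ?_⟩
      rw [ht, Matrix.GeneralLinearGroup.coe_scalar, Matrix.smul_one_eq_diagonal]
      rfl
  obtain ⟨e⟩ := quot_equiv_of_surj _ f hsurj hker
  exact ⟨e.symm⟩

/-- the bilinear function of a reindexed matrix -/
theorem dot_submatrix {ι : Type} [Fintype ι] (M : Matrix ι ι F) (e : Fin n ≃ ι) (u v : Fin n → F) :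
    u ⬝ᵥ (M.submatrix e e *ᵥ v) = (fun j => u (e.symm j)) ⬝ᵥ (M *ᵥ (fun j => v (e.symm j))) := by
  rw [Matrix.submatrix_mulVec_equiv]
  unfold dotProduct
  rw [← Equiv.sum_comp e.symm]
  apply Finset.sum_congr rfl
  intro j _
  simp only [Function.comp_apply, Equiv.apply_symm_apply]
  rfl

end cent

section mats

/-- Gram matrix of the polar form of the plus form -/
def Mplus (m : ℕ) : Matrix (Fin m ⊕ Fin m) (Fin m ⊕ Fin m) F := Matrix.fromBlocks 0 1 1 0

/-- Gram matrix of the polar form of `z₁² + a z₁ z₂ + b z₂²` -/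
def B2 (a b : F) : Matrix (Fin 2) (Fin 2) F := !![2, a; a, 2 * b]

/-- Gram matrix of the polar form of the minus form -/
def Mminus (m : ℕ) (a b : F) : Matrix ((Fin m ⊕ Fin m) ⊕ Fin 2) ((Fin m ⊕ Fin m) ⊕ Fin 2) F :=
  Matrix.fromBlocks (Mplus m) 0 0 (B2 a b)

theorem Mplus_transpose (m : ℕ) : (Mplus (F := F) m)ᵀ = Mplus m := by
  unfold Mplus
  rw [Matrix.fromBlocks_transpose]
  simp

theorem B2_transpose (a b : F) : (B2 a b)ᵀ = B2 a b := by
  unfold B2
  ext i j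
  fin_cases i <;> fin_cases j <;> rfl

theorem Mminus_transpose (m : ℕ) (a b : F) : (Mminus m a b)ᵀ = Mminus m a b := by
  unfold Mminus
  rw [Matrix.fromBlocks_transpose, Mplus_transpose, B2_transpose]
  simp

theorem det_Mplus (m : ℕ) : (Mplus (F := F) m).det = (-1) ^ m := by
  have h1 : Mplus (F := F) m * Matrix.fromBlocks 1 0 1 1 = Matrix.fromBlocks 1 1 1 0 := by
    unfold Mplus
    rw [Matrix.fromBlocks_multiply]
    simp
  have h2 := congrArg Matrix.det h1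
  rw [Matrix.det_mul, Matrix.det_fromBlocks_zero₁₂, Matrix.det_fromBlocks_one₁₁] at h2
  simp only [Matrix.det_one, mul_one, zero_sub] at h2
  rw [h2, Matrix.det_neg, Matrix.det_one, mul_one, Fintype.card_fin]

theorem det_B2 (a b : F) : (B2 a b).det = 4 * b - a ^ 2 := by
  unfold B2
  rw [Matrix.det_fin_two_of]
  ring

theorem det_Mminus (m : ℕ) (a b : F) : (Mminus m a b).det = (-1) ^ m * (4 * b - a ^ 2) := by
  unfold Mminus
  rw [Matrix.det_fromBlocks_zero₂₁, det_Mplus, det_B2]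

theorem dot_Mplus (m : ℕ) (v : Fin m ⊕ Fin m → F) :
    v ⬝ᵥ (Mplus m *ᵥ v) = 2 * Cfsg.quadFormPlus m F v := by
  unfold Mplus Cfsg.quadFormPlus
  rw [Matrix.fromBlocks_mulVec]
  unfold dotProduct
  rw [Fintype.sum_sum_type]
  simp only [Sum.elim_inl, Sum.elim_inr, Matrix.zero_mulVec, Matrix.one_mulVec, zero_add, add_zero,
    Function.comp_apply]
  rw [two_mul]
  congr 1
  apply Finset.sum_congr rfl
  intro i _
  ring

theorem dot_B2 (a b : F) (w : Fin 2 → F) :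
    w ⬝ᵥ (B2 a b *ᵥ w) = 2 * (w 0 ^ 2 + a * w 0 * w 1 + b * w 1 ^ 2) := by
  unfold B2
  simp [dotProduct, Matrix.mulVec, Fin.sum_univ_two]
  ring

theorem dot_Mminus (m : ℕ) (a b : F) (v : (Fin m ⊕ Fin m) ⊕ Fin 2 → F) :
    v ⬝ᵥ (Mminus m a b *ᵥ v) = 2 * Cfsg.quadFormMinus m F a b v := by
  unfold Mminus Cfsg.quadFormMinus
  rw [Matrix.fromBlocks_mulVec]
  have e1 : ∀ x : (Fin m ⊕ Fin m) ⊕ Fin 2 → F, v ⬝ᵥ x
      = (v ∘ Sum.inl) ⬝ᵥ (x ∘ Sum.inl) + (v ∘ Sum.inr) ⬝ᵥ (x ∘ Sum.inr) := by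
    intro x
    unfold dotProduct
    rw [Fintype.sum_sum_type]
    rfl
  rw [e1]
  simp only [Sum.elim_comp_inl, Sum.elim_comp_inr, Matrix.zero_mulVec, zero_add, add_zero]
  rw [dot_Mplus, dot_B2]
  unfold Cfsg.quadFormPlus
  simp only [Function.comp_apply]
  ring


end mats

section reps

variable {n : ℕ}

/-- centralizer of the graph automorphism given by the (reindexed) Gram matrix of the plus form -/
theorem cent_plus (hn : 2 ≤ n) (h2 : (2 : F) ≠ 0) (m : ℕ) (e : Fin n ≃ Fin m ⊕ Fin m)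
    (g : GL (Fin n) F) (hg : (g : Matrix (Fin n) (Fin n) F) = (Mplus m).submatrix e e) :
    Nonempty (↥(Cfsg.inndiagPSL n F ⊓ Subgroup.centralizer {cτ * cGL g}) ≃*
      Cfsg.PGO F (Cfsg.quadFormPlus m F)) := by
  have hsym : (g : Matrix (Fin n) (Fin n) F)ᵀ = g := by
    rw [hg, Matrix.transpose_submatrix, Mplus_transpose]
  obtain ⟨a⟩ := cent_equiv hn h2 g hsym
  obtain ⟨b⟩ := pgo_congr (fun v : Fin n → F => v ⬝ᵥ ((g : Matrix (Fin n) (Fin n) F) *ᵥ v))
    (Cfsg.quadFormPlus m F)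
    ((LinearEquiv.funCongrLeft F F e.symm : (Fin n → F) ≃ₗ[F] (Fin m ⊕ Fin m → F)) :
      (Fin n → F) →ₗ[F] (Fin m ⊕ Fin m → F)) (LinearEquiv.injective _) (Fintype.card_congr e)
    (Units.mk0 (2⁻¹ : F) (inv_ne_zero h2)) (by
      intro v
      show Cfsg.quadFormPlus m F (fun j => v (e.symm j)) = (2⁻¹ : F) * _
      rw [hg, dot_submatrix, dot_Mplus, ← mul_assoc, inv_mul_cancel₀ h2, one_mul])
  exact ⟨a.trans b⟩

/-- centralizer of the graph automorphism given by the (reindexed) Gram matrix of a minus form -/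
theorem cent_minus (hn : 2 ≤ n) (h2 : (2 : F) ≠ 0) (m : ℕ) (a b : F)
    (e : Fin n ≃ (Fin m ⊕ Fin m) ⊕ Fin 2)
    (g : GL (Fin n) F) (hg : (g : Matrix (Fin n) (Fin n) F) = (Mminus m a b).submatrix e e) :
    Nonempty (↥(Cfsg.inndiagPSL n F ⊓ Subgroup.centralizer {cτ * cGL g}) ≃*
      Cfsg.PGO F (Cfsg.quadFormMinus m F a b)) := by
  have hsym : (g : Matrix (Fin n) (Fin n) F)ᵀ = g := by
    rw [hg, Matrix.transpose_submatrix, Mminus_transpose]
  obtain ⟨x⟩ := cent_equiv hn h2 g hsym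
  obtain ⟨y⟩ := pgo_congr (fun v : Fin n → F => v ⬝ᵥ ((g : Matrix (Fin n) (Fin n) F) *ᵥ v))
    (Cfsg.quadFormMinus m F a b)
    ((LinearEquiv.funCongrLeft F F e.symm : (Fin n → F) ≃ₗ[F] ((Fin m ⊕ Fin m) ⊕ Fin 2 → F)) :
      (Fin n → F) →ₗ[F] ((Fin m ⊕ Fin m) ⊕ Fin 2 → F)) (LinearEquiv.injective _)
    (Fintype.card_congr e)
    (Units.mk0 (2⁻¹ : F) (inv_ne_zero h2)) (by
      intro v
      show Cfsg.quadFormMinus m F a b (fun j => v (e.symm j)) = (2⁻¹ : F) * _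
      rw [hg, dot_submatrix, dot_Mminus, ← mul_assoc, inv_mul_cancel₀ h2, one_mul])
  exact ⟨x.trans y⟩

/-- centralizer of the graph automorphism given by the (reindexed) matrix `J` -/
theorem cent_symp (hn : 2 ≤ n) (m : ℕ) (e : Fin n ≃ Fin m ⊕ Fin m)
    (g : GL (Fin n) F) (hg : (g : Matrix (Fin n) (Fin n) F) = (Matrix.J (Fin m) F).submatrix e e) :
    Nonempty (↥(Cfsg.inndiagPSL n F ⊓ Subgroup.centralizer {cτ * cGL g}) ≃* Cfsg.PGSp m F) := by
  obtain ⟨x⟩ := cent_bil hn g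
  obtain ⟨y⟩ := psim_reindex (fun u v : Fin n → F => u ⬝ᵥ ((g : Matrix (Fin n) (Fin n) F) *ᵥ v))
    (Cfsg.sympForm m F) e (by
      intro u v
      show (fun j => u (e.symm j)) ⬝ᵥ (Matrix.J (Fin m) F *ᵥ (fun j => v (e.symm j))) = _
      rw [hg, dot_submatrix])
  exact ⟨x.trans y⟩

/-- Representatives: a skew matrix and two symmetric matrices with non-square determinant ratio,
together with the centralizers of the corresponding graph automorphisms. -/
theorem exists_reps [Fintype F] (hodd : Odd (Fintype.card F)) {m : ℕ} (hm : 2 ≤ m)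
    (hnm : n = 2 * m) :
    ∃ (g₁ g₂ g₃ : GL (Fin n) F) (a b : F),
      (∀ z₁ z₂ : F, z₁ ^ 2 + a * z₁ * z₂ + b * z₂ ^ 2 = 0 → z₁ = 0 ∧ z₂ = 0) ∧
      (g₁ : Matrix (Fin n) (Fin n) F)ᵀ = -(g₁ : Matrix (Fin n) (Fin n) F) ∧
      (g₂ : Matrix (Fin n) (Fin n) F)ᵀ = g₂ ∧ (g₃ : Matrix (Fin n) (Fin n) F)ᵀ = g₃ ∧
      ¬ IsSquare ((g₂ : Matrix (Fin n) (Fin n) F).det * (g₃ : Matrix (Fin n) (Fin n) F).det) ∧
      Nonempty (↥(Cfsg.inndiagPSL n F ⊓ Subgroup.centralizer {cτ * cGL g₁}) ≃* Cfsg.PGSp m F) ∧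
      Nonempty (↥(Cfsg.inndiagPSL n F ⊓ Subgroup.centralizer {cτ * cGL g₂}) ≃*
        Cfsg.PGO F (Cfsg.quadFormPlus m F)) ∧
      Nonempty (↥(Cfsg.inndiagPSL n F ⊓ Subgroup.centralizer {cτ * cGL g₃}) ≃*
        Cfsg.PGO F (Cfsg.quadFormMinus (m - 1) F a b)) := by
  classical
  have h2 : (2 : F) ≠ 0 := Cfsg.Agent.Lib.Helper44.FinSq.two_ne_zero_of_odd_card hodd
  have hn : 2 ≤ n := by omega
  obtain ⟨ν, hν⟩ := FiniteField.exists_nonsquare
    (Cfsg.Agent.Lib.Helper44.FinSq.ringChar_ne_two_of_odd_card hodd)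
  have hν0 : ν ≠ 0 := fun h => hν (h ▸ IsSquare.zero)
  have hcP : Fintype.card (Fin n) = Fintype.card (Fin m ⊕ Fin m) := by
    simp [hnm]; omega
  have hcM : Fintype.card (Fin n) = Fintype.card ((Fin (m - 1) ⊕ Fin (m - 1)) ⊕ Fin 2) := by
    simp [hnm]; omega
  let eP : Fin n ≃ Fin m ⊕ Fin m := Fintype.equivOfCardEq hcP
  let eM : Fin n ≃ (Fin (m - 1) ⊕ Fin (m - 1)) ⊕ Fin 2 := Fintype.equivOfCardEq hcM
  have hdJ : ((Matrix.J (Fin m) F).submatrix eP eP).det ≠ 0 := by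
    rw [Matrix.det_submatrix_equiv_self]
    exact (Matrix.isUnit_det_J (Fin m) F).ne_zero
  have hdP : ((Mplus (F := F) m).submatrix eP eP).det = (-1) ^ m := by
    rw [Matrix.det_submatrix_equiv_self, det_Mplus]
  have hdM : ((Mminus (F := F) (m - 1) 0 (-ν)).submatrix eM eM).det = (-1) ^ (m - 1) * (-(4 * ν)) := by
    rw [Matrix.det_submatrix_equiv_self, det_Mminus]
    ring
  have hdP0 : ((Mplus (F := F) m).submatrix eP eP).det ≠ 0 := by
    rw [hdP]
    exact pow_ne_zero _ (neg_ne_zero.2 one_ne_zero)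
  have h4 : (4 : F) ≠ 0 := by
    have : (4 : F) = 2 * 2 := by norm_num
    rw [this]
    exact mul_ne_zero h2 h2
  have hdM0 : ((Mminus (F := F) (m - 1) 0 (-ν)).submatrix eM eM).det ≠ 0 := by
    rw [hdM]
    exact mul_ne_zero (pow_ne_zero _ (neg_ne_zero.2 one_ne_zero)) (neg_ne_zero.2 (mul_ne_zero h4 hν0))
  refine ⟨Matrix.GeneralLinearGroup.mkOfDetNeZero _ hdJ, Matrix.GeneralLinearGroup.mkOfDetNeZero _ hdP0,
    Matrix.GeneralLinearGroup.mkOfDetNeZero _ hdM0, 0, -ν, ?_, ?_, ?_, ?_, ?_, ?_, ?_, ?_⟩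
  · intro z₁ z₂ hz
    have hz2 : z₂ = 0 := by
      by_contra hz2
      apply hν
      refine ⟨z₁ / z₂, ?_⟩
      field_simp
      linear_combination -hz
    subst hz2
    refine ⟨?_, rfl⟩
    have : z₁ ^ 2 = 0 := by linear_combination hz
    exact pow_eq_zero_iff (two_ne_zero) |>.1 this
  · show ((Matrix.J (Fin m) F).submatrix eP eP)ᵀ = -((Matrix.J (Fin m) F).submatrix eP eP)
    rw [Matrix.transpose_submatrix, Matrix.J_transpose]
    rfl
  · show ((Mplus (F := F) m).submatrix eP eP)ᵀ = (Mplus (F := F) m).submatrix eP eP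
    rw [Matrix.transpose_submatrix, Mplus_transpose]
  · show ((Mminus (F := F) (m - 1) 0 (-ν)).submatrix eM eM)ᵀ = (Mminus (F := F) (m - 1) 0 (-ν)).submatrix eM eM
    rw [Matrix.transpose_submatrix, Mminus_transpose]
  · show ¬ IsSquare (((Mplus (F := F) m).submatrix eP eP).det
      * ((Mminus (F := F) (m - 1) 0 (-ν)).submatrix eM eM).det)
    rw [hdP, hdM]
    have e1 : (-1 : F) ^ m * ((-1) ^ (m - 1) * (-(4 * ν))) = 2 * 2 * ν := by
      obtain ⟨k, rfl⟩ : ∃ k, m = k + 1 := ⟨m - 1, by omega⟩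
      rw [Nat.add_sub_cancel, pow_succ]
      have : ((-1 : F) ^ k) * ((-1 : F) ^ k) = 1 := by
        rw [← mul_pow]; simp
      linear_combination (4 * ν) * this
    rw [e1]
    rintro ⟨r, hr⟩
    apply hν
    refine ⟨r / 2, ?_⟩
    field_simp
    linear_combination hr
  · exact cent_symp hn m eP _ rfl
  · exact cent_plus hn h2 m eP _ rfl
  · exact cent_minus hn h2 (m - 1) 0 (-ν) eM _ rfl

end reps

end Cfsg.Agent.Lib.Helper45.GraphReps
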