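import Mathlib
import Cfsg.Agent.Lib.Helper44.Split
import Cfsg.Agent.Lib.Helper40.SympConj
import Cfsg.Agent.Lib.Helper45.SymCong

set_option autoImplicit false

/-!
Symmetric bilinear forms / matrices over a finite field of characteristic two:
a nondegenerate non-alternating form has an orthonormal basis (so all such matrices are congruent
to the identity); alternating nondegenerate matrices are all congruent and have even size.
-/

namespace Cfsg.Agent.Lib.Helper45.SymChar2

open Matrix Module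
open Cfsg.Agent.Lib.Helper44.Split Cfsg.Agent.Lib.Helper45.SymCong

universe u

variable {F : Type*} [Field F]

theorem sq_inj [CharP F 2] {a b : F} (h : a ^ 2 = b ^ 2) : a = b := by
  have h1 : (a - b) ^ 2 = 0 := by
    have h2 : (2 : F) = 0 := CharTwo.two_eq_zero
    have : (a - b) ^ 2 = a ^ 2 - 2 * (a * b) + b ^ 2 := by ring
    rw [this, h2, h]
    ring_nf
    rw [h2]; ring
  exact sub_eq_zero.1 ((pow_eq_zero_iff (two_ne_zero)).1 h1)

theorem exists_sqrt [Finite F] [CharP F 2] (a : F) : ∃ s : F, s ^ 2 = a := by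
  have h2 : ringChar F = 2 := ringChar.eq F 2
  obtain ⟨s, hs⟩ := FiniteField.isSquare_of_char_two h2 a
  exact ⟨s, by rw [hs, pow_two]⟩

section abstract

variable {V : Type u} [AddCommGroup V] [Module F V]

/-- a vector of norm one whose orthogonal hyperplane contains a non-isotropic vector -/
theorem exists_good [Finite F] [CharP F 2] [FiniteDimensional F V] (B : LinearMap.BilinForm F V)
    (hS : ∀ x y, B x y = B y x) (hN : ∀ x, (∀ y, B x y = 0) → x = 0) (hv : ∃ v, B v v ≠ 0)
    (hd : 2 ≤ finrank F V) : ∃ v, B v v = 1 ∧ ∃ u ∈ perp1 B v, B u u ≠ 0 := by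
  have h11 : (1 : F) + 1 = 0 := CharTwo.add_self_eq_zero 1
  obtain ⟨v₀, hv₀⟩ := hv
  obtain ⟨s, hs⟩ := exists_sqrt (F := F) (B v₀ v₀)⁻¹
  have hv1 : B (s • v₀) (s • v₀) = 1 := by
    simp only [map_smul, LinearMap.smul_apply, smul_eq_mul]
    rw [← mul_assoc, ← pow_two, hs, inv_mul_cancel₀ hv₀]
  set v := s • v₀ with hvdef
  by_cases hcase : ∃ u ∈ perp1 B v, B u u ≠ 0
  · exact ⟨v, hv1, hcase⟩
  · have halt : ∀ u ∈ perp1 B v, B u u = 0 := by
      intro u hu
      by_contra h
      exact hcase ⟨u, hu, h⟩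
    have hp : B v v ≠ 0 := by rw [hv1]; exact one_ne_zero
    have hfr := finrank_perp1 B (v := v) hp
    have hpos : 0 < finrank F (perp1 B v) := by omega
    have : Nontrivial (perp1 B v) := Module.nontrivial_of_finrank_pos (R := F) hpos
    obtain ⟨w, hw⟩ := exists_ne (0 : perp1 B v)
    have hw0 : (w : V) ≠ 0 := fun h => hw (Subtype.ext h)
    have hvw : B v (w : V) = 0 := (mem_perp1 B v _).1 w.2
    obtain ⟨y, hy⟩ : ∃ y, B (w : V) y ≠ 0 := by
      by_contra hcon
      apply hw0
      apply hN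
      intro y
      by_contra h
      exact hcon ⟨y, h⟩
    have hy' := proj_mem_perp1 B hp y
    have hwy' : B (w : V) (y - (B v y / B v v) • v) = B (w : V) y := by
      rw [map_sub, map_smul, smul_eq_mul, hS (w : V) v, hvw, mul_zero, sub_zero]
    set y' := y - (B v y / B v v) • v with hy'def
    have hvy' : B v y' = 0 := (mem_perp1 B v _).1 hy'
    set w' := (B (w : V) y)⁻¹ • y' with hw'def
    have hw'mem : w' ∈ perp1 B v := Submodule.smul_mem _ _ hy'
    have hvw' : B v w' = 0 := (mem_perp1 B v _).1 hw'mem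
    have hww' : B (w : V) w' = 1 := by
      rw [hw'def, map_smul, smul_eq_mul, hwy', inv_mul_cancel₀ hy]
    refine ⟨v + (w : V), ?_, v + w', ?_, ?_⟩
    · simp only [map_add, LinearMap.add_apply]
      rw [hv1, hvw, hS (w : V) v, hvw, halt _ w.2]
      ring
    · rw [mem_perp1]
      simp only [map_add, LinearMap.add_apply]
      rw [hv1, hvw', hS (w : V) v, hvw, hww']
      linear_combination h11
    · simp only [map_add, LinearMap.add_apply]
      rw [hv1, hvw', hS w' v, hvw', halt _ hw'mem]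
      simp

/-- Over a finite field of characteristic two, a nondegenerate symmetric bilinear form which is
not alternating has an orthonormal basis. -/
theorem exists_orthonormal [Finite F] [CharP F 2] (n : ℕ) : ∀ (V : Type u) [AddCommGroup V]
    [Module F V] [FiniteDimensional F V] (B : LinearMap.BilinForm F V), finrank F V = n + 1 →
    (∀ x y, B x y = B y x) → (∀ x, (∀ y, B x y = 0) → x = 0) → (∃ v, B v v ≠ 0) →
    ∃ b : Basis (Fin (n + 1)) F V, ∀ i j, B (b i) (b j) = if i = j then 1 else 0 := by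
  induction n with
  | zero =>
    intro V _ _ _ B hV hS hN hv
    obtain ⟨v₀, hv₀⟩ := hv
    obtain ⟨s, hs⟩ := exists_sqrt (F := F) (B v₀ v₀)⁻¹
    have hv1 : B (s • v₀) (s • v₀) = 1 := by
      simp only [map_smul, LinearMap.smul_apply, smul_eq_mul]
      rw [← mul_assoc, ← pow_two, hs, inv_mul_cancel₀ hv₀]
    set v := s • v₀ with hvdef
    have hp : B v v ≠ 0 := by rw [hv1]; exact one_ne_zero
    have hfr := finrank_perp1 B (v := v) hp
    have hfr0 : finrank F (perp1 B v) = 0 := by omega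
    have hli : ∀ (c : F), ∀ x ∈ perp1 B v, c • v + x = 0 → c = 0 := by
      intro c x hx hc
      have := congrArg (B v) hc
      rw [map_add, map_smul, smul_eq_mul, (mem_perp1 _ v x).mp hx, map_zero, add_zero, hv1, mul_one] at this
      exact this
    have hsp : ∀ z : V, ∃ c : F, z + c • v ∈ perp1 B v := by
      intro z
      refine ⟨-(B v z / B v v), ?_⟩
      have := proj_mem_perp1 B hp z
      rwa [sub_eq_add_neg, ← neg_smul] at this
    refine ⟨Basis.mkFinCons v (Module.finBasisOfFinrankEq F _ hfr0) hli hsp, ?_⟩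
    intro i j
    have hi : i = 0 := Fin.ext (by have := i.2; omega)
    have hj : j = 0 := Fin.ext (by have := j.2; omega)
    subst hi hj
    rw [Basis.coe_mkFinCons, if_pos rfl]
    simpa using hv1
  | succ n ih =>
    intro V _ _ _ B hV hS hN hv
    obtain ⟨v, hv1, u, hu, huu⟩ := exists_good B hS hN hv (by omega)
    have hp : B v v ≠ 0 := by rw [hv1]; exact one_ne_zero
    have hfr := finrank_perp1 B (v := v) hp
    obtain ⟨bW, hbW⟩ := ih (perp1 B v) (B.restrict (perp1 B v)) (by omega)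
      (fun x y => hS x y)
      (fun x hx => Subtype.ext (perp1_sep B hS hN hp (x : V) x.2 (fun y hy => hx ⟨y, hy⟩)))
      ⟨⟨u, hu⟩, huu⟩
    have hli : ∀ (c : F), ∀ x ∈ perp1 B v, c • v + x = 0 → c = 0 := by
      intro c x hx hc
      have := congrArg (B v) hc
      rw [map_add, map_smul, smul_eq_mul, (mem_perp1 _ v x).mp hx, map_zero, add_zero, hv1, mul_one] at this
      exact this
    have hsp : ∀ z : V, ∃ c : F, z + c • v ∈ perp1 B v := by
      intro z
      refine ⟨-(B v z / B v v), ?_⟩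
      have := proj_mem_perp1 B hp z
      rwa [sub_eq_add_neg, ← neg_smul] at this
    have hperp : ∀ k, B v (bW k : V) = 0 := fun k => (mem_perp1 _ v _).mp (bW k).2
    have hbW' : ∀ i j, B (bW i : V) (bW j : V) = if i = j then 1 else 0 := fun i j => hbW i j
    refine ⟨Basis.mkFinCons v bW hli hsp, ?_⟩
    intro i j
    rw [Basis.coe_mkFinCons]
    induction i using Fin.cases with
    | zero =>
      induction j using Fin.cases with
      | zero => simpa using hv1
      | succ j =>
        simp only [Fin.cons_zero, Fin.cons_succ, Function.comp_apply]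
        rw [hperp j, if_neg (Fin.succ_ne_zero j).symm]
    | succ i =>
      induction j using Fin.cases with
      | zero =>
        simp only [Fin.cons_zero, Fin.cons_succ, Function.comp_apply]
        rw [hS, hperp i, if_neg (Fin.succ_ne_zero i)]
      | succ j =>
        simp only [Fin.cons_succ, Function.comp_apply]
        rw [hbW' i j]
        by_cases hij : i = j
        · rw [if_pos hij, if_pos (by rw [hij])]
        · rw [if_neg hij, if_neg (fun h => hij (Fin.succ_injective _ h))]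

end abstract

section matrix

/-- Characteristic two: an invertible symmetric matrix which is not alternating is congruent to
the identity. -/
theorem cong_one [Fintype F] [CharP F 2] {N : ℕ} (g : Matrix (Fin N) (Fin N) F) (hg : gᵀ = g)
    (hd : IsUnit g.det) (hna : ∃ x : Fin N → F, x ⬝ᵥ g *ᵥ x ≠ 0) :
    ∃ k : Matrix (Fin N) (Fin N) F, IsUnit k.det ∧ kᵀ * g * k = 1 := by
  rcases N with _ | n
  · obtain ⟨x, hx⟩ := hna
    exact absurd (by simp [dotProduct]) hx
  have hfr : finrank F (Fin (n + 1) → F) = n + 1 := by simp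
  obtain ⟨b, hb⟩ := exists_orthonormal (F := F) n (Fin (n + 1) → F) (Matrix.toBilin' g) hfr
    (fun x y => by rw [Matrix.toBilin'_apply', Matrix.toBilin'_apply']; exact dot_symm g hg y x)
    (fun x hx => eq_zero_of_forall_dot_mulVec g hd x (fun y => by
      rw [← Matrix.toBilin'_apply']; exact hx y))
    (by obtain ⟨x, hx⟩ := hna; exact ⟨x, by rw [Matrix.toBilin'_apply']; exact hx⟩)
  let k : Matrix (Fin (n + 1)) (Fin (n + 1)) F := (Pi.basisFun F (Fin (n + 1))).toMatrix b
  have hk : ∀ j, k *ᵥ (Pi.single j 1) = b j := by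
    intro j
    rw [Matrix.mulVec_single_one]
    funext i
    show (Pi.basisFun F (Fin (n + 1))).toMatrix b i j = b j i
    rw [Basis.toMatrix_apply, Pi.basisFun_repr]
  refine ⟨k, ?_, ?_⟩
  · have : Invertible k := (Pi.basisFun F (Fin (n + 1))).invertibleToMatrix b
    exact Matrix.isUnit_det_of_invertible k
  · ext i j
    rw [entry_eq (kᵀ * g * k) i j, ← bil_conj, hk, hk, ← Matrix.toBilin'_apply', hb i j,
      Matrix.one_apply]

/-- Characteristic two: any two invertible non-alternating symmetric matrices are congruent. -/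
theorem cong_of_nonalt [Fintype F] [CharP F 2] {N : ℕ} (g g' : Matrix (Fin N) (Fin N) F)
    (hg : gᵀ = g) (hg' : g'ᵀ = g') (hd : IsUnit g.det) (hd' : IsUnit g'.det)
    (hna : ∃ x : Fin N → F, x ⬝ᵥ g *ᵥ x ≠ 0) (hna' : ∃ x : Fin N → F, x ⬝ᵥ g' *ᵥ x ≠ 0) :
    ∃ k : Matrix (Fin N) (Fin N) F, IsUnit k.det ∧ g' = kᵀ * g * k := by
  obtain ⟨k₁, hk₁, e₁⟩ := cong_one g hg hd hna
  obtain ⟨k₂, hk₂, e₂⟩ := cong_one g' hg' hd' hna'
  have hk₂' : IsUnit k₂ := (Matrix.isUnit_iff_isUnit_det k₂).2 hk₂
  refine ⟨k₁ * k₂⁻¹, ?_, ?_⟩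
  · rw [Matrix.det_mul, Matrix.det_nonsing_inv]
    exact hk₁.mul (Ring.inverse_unit hk₂.unit ▸ hk₂.unit⁻¹.isUnit)
  · have h1 : k₂ * k₂⁻¹ = 1 := Matrix.mul_nonsing_inv k₂ hk₂
    have h2' : (k₂⁻¹)ᵀ * k₂ᵀ = 1 := by
      rw [← Matrix.transpose_mul, h1, Matrix.transpose_one]
    calc g' = (k₂⁻¹)ᵀ * (k₂ᵀ * g' * k₂) * k₂⁻¹ := by
          rw [Matrix.mul_assoc k₂ᵀ, ← Matrix.mul_assoc (k₂⁻¹)ᵀ, h2', Matrix.one_mul, Matrix.mul_assoc, h1,
            Matrix.mul_one]
      _ = (k₁ * k₂⁻¹)ᵀ * g * (k₁ * k₂⁻¹) := by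
          rw [e₂, ← e₁, Matrix.transpose_mul k₁ k₂⁻¹]
          simp only [Matrix.mul_assoc]

/-- Any two invertible alternating matrices are congruent (any field). -/
theorem alt_cong {N : ℕ} (g g' : Matrix (Fin N) (Fin N) F)
    (ha : ∀ x : Fin N → F, x ⬝ᵥ g *ᵥ x = 0) (ha' : ∀ x : Fin N → F, x ⬝ᵥ g' *ᵥ x = 0)
    (hd : IsUnit g.det) (hd' : IsUnit g'.det) :
    ∃ k : Matrix (Fin N) (Fin N) F, IsUnit k.det ∧ g' = kᵀ * g * k := by
  have halt : ∀ (a : Matrix (Fin N) (Fin N) F), (∀ x : Fin N → F, x ⬝ᵥ a *ᵥ x = 0) →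
      (Matrix.toBilin' a).IsAlt := by
    intro a h x
    rw [Matrix.toBilin'_apply']
    exact h x
  have hnd : ∀ (a : Matrix (Fin N) (Fin N) F), IsUnit a.det →
      ∀ u : Fin N → F, (∀ v, Matrix.toBilin' a u v = 0) → u = 0 := by
    intro a h u hu
    apply eq_zero_of_forall_dot_mulVec a h
    intro y
    rw [← Matrix.toBilin'_apply']
    exact hu y
  obtain ⟨c, hc⟩ := Cfsg.Agent.Lib.Helper40.SympConj.alt_iso (Matrix.toBilin' g) (Matrix.toBilin' g')
    (halt g ha) (halt g' ha') (hnd g hd) (hnd g' hd')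
  refine ⟨LinearMap.toMatrix' (c : (Fin N → F) →ₗ[F] (Fin N → F)), ?_, ?_⟩
  · rw [LinearMap.det_toMatrix']
    exact LinearEquiv.isUnit_det' c
  · ext i j
    rw [entry_eq g' i j, entry_eq (_ᵀ * g * _) i j, ← bil_conj, LinearMap.toMatrix'_mulVec,
      LinearMap.toMatrix'_mulVec, ← Matrix.toBilin'_apply', ← Matrix.toBilin'_apply']
    exact hc _ _

/-- An invertible alternating matrix has even size (any field). -/
theorem even_of_alt {N : ℕ} (g : Matrix (Fin N) (Fin N) F)
    (ha : ∀ x : Fin N → F, x ⬝ᵥ g *ᵥ x = 0) (hd : IsUnit g.det) : Even N := by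
  classical
  have halt : (Matrix.toBilin' g).IsAlt := by
    intro x
    rw [Matrix.toBilin'_apply']
    exact ha x
  obtain ⟨m, k, b, -, -, -, h4⟩ := Cfsg.Agent.S0752.result (Matrix.toBilin' g) halt
  have hk : k = 0 := by
    by_contra hk
    obtain ⟨k, rfl⟩ := Nat.exists_eq_succ_of_ne_zero hk
    apply b.ne_zero (Sum.inr 0)
    apply eq_zero_of_forall_dot_mulVec g hd
    intro y
    rw [← Matrix.toBilin'_apply']
    exact h4 0 y
  subst hk
  have e1 := Module.finrank_eq_card_basis b
  simp only [Module.finrank_fintype_fun_eq_card, Fintype.card_sum, Fintype.card_fin] at e1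
  exact ⟨m, by omega⟩

end matrix

end Cfsg.Agent.Lib.Helper45.SymChar2
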