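import Mathlib
import Cfsg.Prelude.Def_LieTypeDatum
import Cfsg.Agent.Lib.Helper45.PGOCongr
import Cfsg.Agent.Lib.Helper45.GraphReps
import Cfsg.Agent.Lib.Helper45.SymChar2

set_option autoImplicit false

/-!
Characteristic two tools for graph automorphisms of `PSL_n`: transfer of projective similarity
groups of bilinear functions along linear maps; `PGO(Q) ≃ O(Q)` for finite fields of characteristic
two; the projective similarity group of the bilinear form `x₀ y₀ + (alternating)` is `Sp_{2m}(F)`.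
-/

namespace Cfsg.Agent.Lib.Helper45.GraphChar2

open Matrix Cfsg.Agent.Lib.Helper45.PGOCongr Cfsg.Agent.Lib.Helper45.GraphReps
  Cfsg.Agent.Lib.Helper45.SymChar2

variable {F : Type*} [Field F]

section general

variable {ι ι' : Type} [Fintype ι] [DecidableEq ι] [Fintype ι'] [DecidableEq ι']

/-- Transfer of the projective similarity group of a bilinear function along an injective linear
map (between spaces of the same dimension) scaling the function. -/
theorem psim_congr (f : (ι → F) → (ι → F) → F) (f' : (ι' → F) → (ι' → F) → F)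
    (L : (ι → F) →ₗ[F] (ι' → F)) (hinj : Function.Injective L)
    (hcard : Fintype.card ι = Fintype.card ι') (c : Fˣ)
    (h : ∀ u v : ι → F, f' (L u) (L v) = (c : F) * f u v) :
    Nonempty (Cfsg.projQuot (Cfsg.Geo.similarityGroup f) ≃*
      Cfsg.projQuot (Cfsg.Geo.similarityGroup f')) := by
  have hfr : Module.finrank F (ι → F) = Module.finrank F (ι' → F) := by
    rw [Module.finrank_fintype_fun_eq_card, Module.finrank_fintype_fun_eq_card, hcard]
  let Le : (ι → F) ≃ₗ[F] (ι' → F) := LinearMap.linearEquivOfInjective L hinj hfr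
  have hLe : ∀ v, Le v = L v := fun v => LinearMap.linearEquivOfInjective_apply hinj hfr v
  let P : Matrix ι' ι F := LinearMap.toMatrix' (Le : (ι → F) →ₗ[F] (ι' → F))
  let P' : Matrix ι ι' F := LinearMap.toMatrix' (Le.symm : (ι' → F) →ₗ[F] (ι → F))
  have h1 : P * P' = 1 := by
    show LinearMap.toMatrix' (Le : (ι → F) →ₗ[F] (ι' → F))
      * LinearMap.toMatrix' (Le.symm : (ι' → F) →ₗ[F] (ι → F)) = 1
    rw [← LinearMap.toMatrix'_comp, LinearEquiv.comp_coe, LinearEquiv.symm_trans_self,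
      LinearEquiv.refl_toLinearMap, LinearMap.toMatrix'_id]
  have h2 : P' * P = 1 := by
    show LinearMap.toMatrix' (Le.symm : (ι' → F) →ₗ[F] (ι → F))
      * LinearMap.toMatrix' (Le : (ι → F) →ₗ[F] (ι' → F)) = 1
    rw [← LinearMap.toMatrix'_comp, LinearEquiv.comp_coe, LinearEquiv.self_trans_symm,
      LinearEquiv.refl_toLinearMap, LinearMap.toMatrix'_id]
  have hP : ∀ v, P *ᵥ v = Le v := fun v => LinearMap.toMatrix'_mulVec _ v
  have hP' : ∀ w, P' *ᵥ w = Le.symm w := fun w => LinearMap.toMatrix'_mulVec _ w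
  have hf : ∀ u v, f' (Le u) (Le v) = (c : F) * f u v := by
    intro u v
    rw [hLe, hLe, h]
  have hf' : ∀ u v, f (Le.symm u) (Le.symm v) = ((c⁻¹ : Fˣ) : F) * f' u v := by
    intro u v
    have := hf (Le.symm u) (Le.symm v)
    rw [LinearEquiv.apply_symm_apply, LinearEquiv.apply_symm_apply] at this
    rw [this, ← mul_assoc, ← Units.val_mul, inv_mul_cancel, Units.val_one, one_mul]
  apply projQuot_congr _ _ P P' h1 h2
  · rintro g ⟨d, hd⟩
    refine ⟨d, fun u v => ?_⟩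
    rw [conj_coe, ← Matrix.mulVec_mulVec, ← Matrix.mulVec_mulVec, ← Matrix.mulVec_mulVec,
      ← Matrix.mulVec_mulVec, hP', hP', hP, hP, hf, hd, hf']
    rw [← mul_assoc, ← mul_assoc, mul_comm (c : F), mul_assoc (d : F), ← Units.val_mul,
      mul_inv_cancel, Units.val_one, mul_one]
  · rintro g ⟨d, hd⟩
    refine ⟨d, fun u v => ?_⟩
    rw [conj_coe, ← Matrix.mulVec_mulVec, ← Matrix.mulVec_mulVec, ← Matrix.mulVec_mulVec,
      ← Matrix.mulVec_mulVec, hP, hP, hP', hP', hf', hd, hf]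
    rw [← mul_assoc, ← mul_assoc, mul_comm ((c⁻¹ : Fˣ) : F), mul_assoc (d : F), ← Units.val_mul,
      inv_mul_cancel, Units.val_one, mul_one]

omit [DecidableEq ι] in
theorem bil_conj' (g h : Matrix ι ι F) (v w : ι → F) :
    (h *ᵥ v) ⬝ᵥ (g *ᵥ (h *ᵥ w)) = v ⬝ᵥ ((hᵀ * g * h) *ᵥ w) := by
  rw [← Matrix.mulVec_mulVec, ← Matrix.mulVec_mulVec, Matrix.dotProduct_mulVec v hᵀ,
    Matrix.vecMul_transpose]

theorem entry_eq' (M : Matrix ι ι F) (i j : ι) :
    M i j = (Pi.single i 1 : ι → F) ⬝ᵥ (M *ᵥ (Pi.single j 1)) := by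
  rw [Matrix.mulVec_single_one, single_one_dotProduct]
  rfl

/-- membership in the similarity group of the bilinear function `(u, v) ↦ uᵀ g₁ v` -/
theorem mem_bsim_iff' (g₁ : Matrix ι ι F) (h : GL ι F) :
    h ∈ Cfsg.Geo.similarityGroup (F := F) (fun u v : ι → F => u ⬝ᵥ (g₁ *ᵥ v)) ↔
      ∃ t : Fˣ, (h : Matrix ι ι F)ᵀ * g₁ * (h : Matrix ι ι F) = (t : F) • g₁ := by
  constructor
  · rintro ⟨c, hc⟩
    refine ⟨c, ?_⟩
    ext i j
    rw [entry_eq' ((h : Matrix ι ι F)ᵀ * g₁ * (h : Matrix ι ι F)) i j, ← bil_conj']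
    have := hc (Pi.single i 1) (Pi.single j 1)
    simp only at this
    rw [this, Matrix.smul_apply, smul_eq_mul, ← entry_eq']
  · rintro ⟨t, ht⟩
    refine ⟨t, fun u v => ?_⟩
    show ((h : Matrix ι ι F) *ᵥ u) ⬝ᵥ (g₁ *ᵥ ((h : Matrix ι ι F) *ᵥ v)) = _
    rw [bil_conj', ht, Matrix.smul_mulVec, dotProduct_smul, smul_eq_mul]

/-- Characteristic two, finite field: `PGO(Q)` is the isometry group of `Q`. -/
theorem pgo_iso_char2 [Finite F] [CharP F 2] (Q : (ι → F) → F)
    (hQ : ∀ (c : F) (v : ι → F), Q (c • v) = c ^ 2 * Q v) (hne : ∃ v, Q v ≠ 0) :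
    Nonempty (↥(Cfsg.isometryGroup F Q) ≃* Cfsg.PGO F Q) := by
  have hle : ∀ g : GL ι F, g ∈ Cfsg.isometryGroup F Q → g ∈ Cfsg.Geo.quadSimilarityGroup (F := F) Q := by
    intro g hg
    refine ⟨1, fun v => ?_⟩
    rw [Units.val_one, one_mul]
    exact hg v v
  let f₀ : ↥(Cfsg.isometryGroup F Q) →* ↥(Cfsg.Geo.quadSimilarityGroup (F := F) Q) :=
    { toFun := fun g => ⟨g.1, hle g.1 g.2⟩
      map_one' := rfl
      map_mul' := fun _ _ => rfl }
  let f : ↥(Cfsg.isometryGroup F Q) →* Cfsg.PGO F Q := (QuotientGroup.mk' _).comp f₀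
  have hinj : Function.Injective f := by
    rw [injective_iff_map_eq_one]
    intro g hg
    have hg' : (QuotientGroup.mk' _ (f₀ g)) = 1 := hg
    rw [QuotientGroup.mk'_apply, QuotientGroup.eq_one_iff, Subgroup.mem_subgroupOf,
      Cfsg.Geo.mem_scalars_iff] at hg'
    obtain ⟨s, hs⟩ := hg'
    have hs' : (g.1 : Matrix ι ι F) = (s : F) • (1 : Matrix ι ι F) := hs
    obtain ⟨v, hv⟩ := hne
    have h1 := g.2 v v
    simp only at h1
    have h1' : Q ((g.1 : Matrix ι ι F) *ᵥ v) = Q v := h1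
    rw [hs', Matrix.smul_mulVec, Matrix.one_mulVec, hQ] at h1'
    have h2 : (s : F) ^ 2 = 1 ^ 2 := by
      rw [one_pow]
      exact mul_right_cancel₀ hv (by rw [h1', one_mul])
    have h3 : (s : F) = 1 := sq_inj h2
    apply Subtype.ext
    apply Units.ext
    rw [hs', h3, one_smul]
    rfl
  have hsurj : Function.Surjective f := by
    intro y
    obtain ⟨⟨g, c, hc⟩, rfl⟩ := QuotientGroup.mk_surjective y
    obtain ⟨s, hs⟩ := exists_sqrt (F := F) ((c⁻¹ : Fˣ) : F)
    have hs0 : s ≠ 0 := by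
      rintro rfl
      rw [zero_pow (two_ne_zero)] at hs
      exact (c⁻¹).ne_zero hs.symm
    let su : Fˣ := Units.mk0 s hs0
    let sg : GL ι F := Matrix.GeneralLinearGroup.scalar ι su
    have hsg : (sg : Matrix ι ι F) = s • (1 : Matrix ι ι F) := by
      show ((Matrix.GeneralLinearGroup.scalar ι su : GL ι F) : Matrix ι ι F) = _
      rw [Matrix.GeneralLinearGroup.coe_scalar, Matrix.smul_one_eq_diagonal]
      rfl
    have hmem : sg * g ∈ Cfsg.isometryGroup F Q := by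
      intro u v
      show Q (((sg * g : GL ι F) : Matrix ι ι F) *ᵥ u) = Q u
      rw [Units.val_mul, hsg, Matrix.smul_mul, Matrix.one_mul, Matrix.smul_mulVec, hQ, hc, hs,
        ← mul_assoc, ← Units.val_mul, inv_mul_cancel, Units.val_one, one_mul]
    refine ⟨⟨sg * g, hmem⟩, ?_⟩
    show (QuotientGroup.mk' _ (f₀ ⟨sg * g, hmem⟩)) = QuotientGroup.mk' _ ⟨g, c, hc⟩
    rw [QuotientGroup.mk'_eq_mk']
    refine ⟨⟨sg⁻¹, ?_⟩, ?_, ?_⟩
    · refine ⟨su⁻¹ * su⁻¹, fun v => ?_⟩
      have e : ((sg⁻¹ : GL ι F) : Matrix ι ι F) = ((su⁻¹ : Fˣ) : F) • (1 : Matrix ι ι F) := by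
        have : sg⁻¹ = Matrix.GeneralLinearGroup.scalar ι su⁻¹ := by
          show (Matrix.GeneralLinearGroup.scalar ι su)⁻¹ = _
          rw [← map_inv]
        rw [this, Matrix.GeneralLinearGroup.coe_scalar, Matrix.smul_one_eq_diagonal]
        rfl
      rw [e, Matrix.smul_mulVec, Matrix.one_mulVec, hQ, Units.val_mul, pow_two]
    · rw [Subgroup.mem_subgroupOf, Cfsg.Geo.mem_scalars_iff]
      refine ⟨su⁻¹, ?_⟩
      show ((sg⁻¹ : GL ι F) : Matrix ι ι F) = _
      have : sg⁻¹ = Matrix.GeneralLinearGroup.scalar ι su⁻¹ := by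
        show (Matrix.GeneralLinearGroup.scalar ι su)⁻¹ = _
        rw [← map_inv]
      rw [this, Matrix.GeneralLinearGroup.coe_scalar, Matrix.smul_one_eq_diagonal]
      rfl
    · apply Subtype.ext
      show sg * g * sg⁻¹ = g
      have hcomm : sg * g = g * sg := by
        apply Units.ext
        rw [Units.val_mul, Units.val_mul, hsg, Matrix.smul_mul, Matrix.mul_smul, Matrix.one_mul,
          Matrix.mul_one]
      rw [hcomm, mul_inv_cancel_right]
  exact ⟨MulEquiv.ofBijective f ⟨hinj, hsurj⟩⟩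

end general

section symp

variable {m : ℕ}

/-- block embedding `A ↦ diag(1, A)` -/
def emb (A : Matrix (Fin m ⊕ Fin m) (Fin m ⊕ Fin m) F) :
    Matrix (Unit ⊕ (Fin m ⊕ Fin m)) (Unit ⊕ (Fin m ⊕ Fin m)) F :=
  Matrix.fromBlocks 1 0 0 A

theorem emb_mul (A B : Matrix (Fin m ⊕ Fin m) (Fin m ⊕ Fin m) F) : emb A * emb B = emb (A * B) := by
  unfold emb
  rw [Matrix.fromBlocks_multiply]
  simp

theorem emb_one : emb (1 : Matrix (Fin m ⊕ Fin m) (Fin m ⊕ Fin m) F) = 1 :=
  Matrix.fromBlocks_one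

theorem emb_transpose (A : Matrix (Fin m ⊕ Fin m) (Fin m ⊕ Fin m) F) : (emb A)ᵀ = emb Aᵀ := by
  unfold emb
  rw [Matrix.fromBlocks_transpose]
  simp

/-- `emb` as a monoid hom -/
def embHom : Matrix (Fin m ⊕ Fin m) (Fin m ⊕ Fin m) F →*
    Matrix (Unit ⊕ (Fin m ⊕ Fin m)) (Unit ⊕ (Fin m ⊕ Fin m)) F where
  toFun := emb
  map_one' := emb_one
  map_mul' A B := (emb_mul A B).symm

/-- the symmetric matrix `diag(1, J)` (symmetric in characteristic two) -/
def Dm (m : ℕ) (F : Type*) [Field F] : Matrix (Unit ⊕ (Fin m ⊕ Fin m)) (Unit ⊕ (Fin m ⊕ Fin m)) F :=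
  emb (Matrix.J (Fin m) F)

theorem alt_J (x : Fin m ⊕ Fin m → F) : x ⬝ᵥ (Matrix.J (Fin m) F *ᵥ x) = 0 := by
  unfold Matrix.J
  rw [Matrix.fromBlocks_mulVec]
  unfold dotProduct
  rw [Fintype.sum_sum_type]
  simp only [Sum.elim_inl, Sum.elim_inr, Matrix.zero_mulVec, Matrix.neg_mulVec, Matrix.one_mulVec,
    zero_add, add_zero, Function.comp_apply, Pi.neg_apply]
  rw [← Finset.sum_add_distrib]
  apply Finset.sum_eq_zero
  intro i _
  ring

theorem tmul_apply {α β γ δ : Type} [Fintype β] [Fintype γ] (M : Matrix β α F) (G : Matrix β γ F)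
    (N : Matrix γ δ F) (i : α) (j : δ) :
    (Mᵀ * G * N) i j = (fun k => M k i) ⬝ᵥ (G *ᵥ (fun k => N k j)) := by
  simp only [Matrix.mul_apply, Matrix.transpose_apply, dotProduct, Matrix.mulVec, Finset.sum_mul,
    Finset.mul_sum]
  rw [Finset.sum_comm]
  apply Finset.sum_congr rfl
  intro k _
  apply Finset.sum_congr rfl
  intro l _
  ring

theorem Dm_transpose [CharP F 2] : (Dm m F)ᵀ = Dm m F := by
  unfold Dm
  rw [emb_transpose, Matrix.J_transpose]
  congr 1
  ext i j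
  rw [Matrix.neg_apply, CharTwo.neg_eq]

theorem det_Dm : (Dm m F).det ≠ 0 := by
  unfold Dm emb
  rw [Matrix.det_fromBlocks_zero₂₁, Matrix.det_one, one_mul]
  exact (Matrix.isUnit_det_J (Fin m) F).ne_zero

theorem Dm_nonalt : ∃ x : Unit ⊕ (Fin m ⊕ Fin m) → F, x ⬝ᵥ (Dm m F *ᵥ x) ≠ 0 := by
  refine ⟨Pi.single (Sum.inl ()) 1, ?_⟩
  rw [← entry_eq']
  unfold Dm emb
  simp

/-- Block analysis of the similarities of `diag(1, J)` in characteristic two. -/
theorem sim_Dm [CharP F 2] (h : Matrix (Unit ⊕ (Fin m ⊕ Fin m)) (Unit ⊕ (Fin m ⊕ Fin m)) F) (t : F)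
    (ht : t ≠ 0) (e : hᵀ * Dm m F * h = t • Dm m F) :
    ∃ (s : F) (A : Matrix (Fin m ⊕ Fin m) (Fin m ⊕ Fin m) F), s ≠ 0 ∧
      A ∈ Matrix.symplecticGroup (Fin m) F ∧ h = s • emb A := by
  set a := h.toBlocks₁₁ with ha
  set b := h.toBlocks₁₂ with hb
  set c := h.toBlocks₂₁ with hc
  set d := h.toBlocks₂₂ with hd
  have hh : h = Matrix.fromBlocks a b c d := (Matrix.fromBlocks_toBlocks h).symm
  have e' : Matrix.fromBlocks (aᵀ * a + cᵀ * Matrix.J (Fin m) F * c) (aᵀ * b + cᵀ * Matrix.J (Fin m) F * d)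
      (bᵀ * a + dᵀ * Matrix.J (Fin m) F * c) (bᵀ * b + dᵀ * Matrix.J (Fin m) F * d)
      = Matrix.fromBlocks (t • (1 : Matrix Unit Unit F)) 0 0 (t • Matrix.J (Fin m) F) := by
    have e2 := e
    rw [hh] at e2
    unfold Dm emb at e2
    rw [Matrix.fromBlocks_transpose, Matrix.fromBlocks_multiply, Matrix.fromBlocks_multiply,
      Matrix.fromBlocks_smul] at e2
    simpa using e2
  rw [Matrix.fromBlocks_inj] at e'
  obtain ⟨E1, E2, -, E4⟩ := e'
  -- the corner entry
  have hs2 : a () () ^ 2 = t := by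
    have := congrFun (congrFun E1 ()) ()
    rw [Matrix.add_apply, tmul_apply, alt_J, add_zero, Matrix.mul_apply] at this
    simp only [Finset.univ_unique, Finset.sum_singleton, Matrix.transpose_apply, Matrix.smul_apply,
      Matrix.one_apply_eq, smul_eq_mul, mul_one] at this
    rw [pow_two]
    exact this
  have hs0 : a () () ≠ 0 := by
    intro h0
    rw [h0] at hs2
    exact ht (by rw [← hs2]; ring)
  -- b = 0
  have hJd : ∀ i, Matrix.J (Fin m) F i i = 0 := by
    intro i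
    rw [entry_eq' (Matrix.J (Fin m) F) i i]
    exact alt_J _
  have hb0 : b = 0 := by
    ext u i
    have := congrFun (congrFun E4 i) i
    rw [Matrix.add_apply, tmul_apply, alt_J, add_zero, Matrix.mul_apply, Matrix.smul_apply, hJd,
      smul_zero] at this
    simp only [Finset.univ_unique, Finset.sum_singleton, Matrix.transpose_apply] at this
    have h0 : b () i = 0 := by
      rcases mul_eq_zero.1 this with h | h <;> exact h
    exact h0
  rw [hb0, Matrix.transpose_zero, Matrix.zero_mul, zero_add] at E4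
  rw [hb0, Matrix.mul_zero, zero_add] at E2
  -- d invertible
  have hdet : IsUnit d.det := by
    have := congrArg Matrix.det E4
    rw [Matrix.det_mul, Matrix.det_mul, Matrix.det_transpose, Matrix.det_smul] at this
    have hJ : (Matrix.J (Fin m) F).det ≠ 0 := (Matrix.isUnit_det_J (Fin m) F).ne_zero
    rw [isUnit_iff_ne_zero]
    intro h0
    rw [h0] at this
    simp only [zero_mul, mul_zero] at this
    exact mul_ne_zero (pow_ne_zero _ ht) hJ this.symm
  have hc0 : c = 0 := by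
    have h1 : cᵀ * Matrix.J (Fin m) F = 0 := by
      have := congrArg (fun X => X * d⁻¹) E2
      simp only [Matrix.zero_mul] at this
      rw [Matrix.mul_assoc, Matrix.mul_nonsing_inv d hdet, Matrix.mul_one] at this
      exact this
    have h2 : cᵀ = 0 := by
      have := congrArg (fun X => X * Matrix.J (Fin m) F) h1
      simp only [Matrix.zero_mul] at this
      rw [Matrix.mul_assoc, Matrix.J_squared, Matrix.mul_neg, Matrix.mul_one, neg_eq_zero] at this
      exact this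
    have := congrArg Matrix.transpose h2
    rw [Matrix.transpose_transpose, Matrix.transpose_zero] at this
    exact this
  refine ⟨a () (), (a () ())⁻¹ • d, hs0, ?_, ?_⟩
  · rw [SymplecticGroup.mem_iff', Matrix.transpose_smul, Matrix.smul_mul, Matrix.smul_mul, Matrix.mul_smul,
      E4, smul_smul, smul_smul, ← hs2]
    have : (a () ())⁻¹ * (a () ())⁻¹ * a () () ^ 2 = 1 := by
      field_simp
    rw [this, one_smul]
  · rw [hh, hb0, hc0]
    unfold emb
    rw [Matrix.fromBlocks_smul, smul_zero, smul_zero, smul_smul, mul_inv_cancel₀ hs0, one_smul]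
    congr 1
    ext i j
    rw [Matrix.smul_apply, Matrix.one_apply_eq, smul_eq_mul, mul_one]

/-- Characteristic two: the projective similarity group of the bilinear form with Gram matrix
`diag(1, J)` is the symplectic group. -/
theorem symp_equiv [CharP F 2] :
    Nonempty (↥(Matrix.symplecticGroup (Fin m) F) ≃*
      Cfsg.projQuot (Cfsg.Geo.similarityGroup (F := F)
        (fun u v : Unit ⊕ (Fin m ⊕ Fin m) → F => u ⬝ᵥ (Dm m F *ᵥ v)))) := by
  let S := Cfsg.Geo.similarityGroup (F := F)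
    (fun u v : Unit ⊕ (Fin m ⊕ Fin m) → F => u ⬝ᵥ (Dm m F *ᵥ v))
  let ψ : ↥(Matrix.symplecticGroup (Fin m) F) →* GL (Unit ⊕ (Fin m ⊕ Fin m)) F :=
    (embHom.comp (Matrix.symplecticGroup (Fin m) F).subtype).toHomUnits
  have hψ : ∀ A : ↥(Matrix.symplecticGroup (Fin m) F),
      ((ψ A : GL (Unit ⊕ (Fin m ⊕ Fin m)) F) : Matrix (Unit ⊕ (Fin m ⊕ Fin m)) (Unit ⊕ (Fin m ⊕ Fin m)) F)
        = emb (A : Matrix (Fin m ⊕ Fin m) (Fin m ⊕ Fin m) F) := fun A => rfl
  have hmem : ∀ A, ψ A ∈ S := by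
    intro A
    show ψ A ∈ Cfsg.Geo.similarityGroup (F := F)
      (fun u v : Unit ⊕ (Fin m ⊕ Fin m) → F => u ⬝ᵥ (Dm m F *ᵥ v))
    rw [mem_bsim_iff']
    refine ⟨1, ?_⟩
    rw [hψ, Units.val_one, one_smul]
    unfold Dm
    rw [emb_transpose, emb_mul, emb_mul, (SymplecticGroup.mem_iff'.1 A.2)]
  let f₀ : ↥(Matrix.symplecticGroup (Fin m) F) →* ↥S :=
    { toFun := fun A => ⟨ψ A, hmem A⟩
      map_one' := Subtype.ext (map_one ψ)
      map_mul' := fun A B => Subtype.ext (map_mul ψ A B) }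
  let f : ↥(Matrix.symplecticGroup (Fin m) F) →* Cfsg.projQuot S := (QuotientGroup.mk' _).comp f₀
  have hinj : Function.Injective f := by
    rw [injective_iff_map_eq_one]
    intro A hA
    have hA' : (QuotientGroup.mk' _ (f₀ A)) = 1 := hA
    rw [QuotientGroup.mk'_apply, QuotientGroup.eq_one_iff, Subgroup.mem_subgroupOf,
      Cfsg.Geo.mem_scalars_iff] at hA'
    obtain ⟨s, hs⟩ := hA'
    have hs' : emb (A : Matrix (Fin m ⊕ Fin m) (Fin m ⊕ Fin m) F)
        = (s : F) • (1 : Matrix (Unit ⊕ (Fin m ⊕ Fin m)) (Unit ⊕ (Fin m ⊕ Fin m)) F) := hs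
    have h1 := congrFun (congrFun hs' (Sum.inl ())) (Sum.inl ())
    have hs1 : (s : F) = 1 := by
      unfold emb at h1
      simpa using h1.symm
    rw [hs1, one_smul, ← emb_one] at hs'
    unfold emb at hs'
    rw [Matrix.fromBlocks_inj] at hs'
    exact Subtype.ext hs'.2.2.2
  have hsurj : Function.Surjective f := by
    intro y
    obtain ⟨⟨h, hh⟩, rfl⟩ := QuotientGroup.mk_surjective y
    obtain ⟨t, ht⟩ := (mem_bsim_iff' _ h).1 hh
    obtain ⟨s, A, hs0, hA, e⟩ := sim_Dm (h : Matrix (Unit ⊕ (Fin m ⊕ Fin m)) (Unit ⊕ (Fin m ⊕ Fin m)) F)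
      (t : F) t.ne_zero ht
    let su : Fˣ := Units.mk0 s hs0
    let sg : GL (Unit ⊕ (Fin m ⊕ Fin m)) F := Matrix.GeneralLinearGroup.scalar _ su
    have hsg : (sg : Matrix (Unit ⊕ (Fin m ⊕ Fin m)) (Unit ⊕ (Fin m ⊕ Fin m)) F)
        = s • (1 : Matrix (Unit ⊕ (Fin m ⊕ Fin m)) (Unit ⊕ (Fin m ⊕ Fin m)) F) := by
      show ((Matrix.GeneralLinearGroup.scalar _ su : GL (Unit ⊕ (Fin m ⊕ Fin m)) F)
        : Matrix (Unit ⊕ (Fin m ⊕ Fin m)) (Unit ⊕ (Fin m ⊕ Fin m)) F) = _
      rw [Matrix.GeneralLinearGroup.coe_scalar, Matrix.smul_one_eq_diagonal]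
      rfl
    have hsgS : sg ∈ S := by
      show sg ∈ Cfsg.Geo.similarityGroup (F := F)
        (fun u v : Unit ⊕ (Fin m ⊕ Fin m) → F => u ⬝ᵥ (Dm m F *ᵥ v))
      rw [mem_bsim_iff']
      refine ⟨su * su, ?_⟩
      rw [hsg, Matrix.transpose_smul, Matrix.transpose_one, Matrix.smul_mul, Matrix.one_mul,
        Matrix.mul_smul, Matrix.mul_one, smul_smul, Units.val_mul]
      rfl
    refine ⟨⟨A, hA⟩, ?_⟩
    show QuotientGroup.mk' _ (f₀ ⟨A, hA⟩) = QuotientGroup.mk' _ ⟨h, hh⟩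
    rw [QuotientGroup.mk'_eq_mk']
    refine ⟨⟨sg, hsgS⟩, ?_, ?_⟩
    · rw [Subgroup.mem_subgroupOf, Cfsg.Geo.mem_scalars_iff]
      exact ⟨su, hsg⟩
    · apply Subtype.ext
      apply Units.ext
      show emb A * (sg : Matrix (Unit ⊕ (Fin m ⊕ Fin m)) (Unit ⊕ (Fin m ⊕ Fin m)) F) = h
      rw [hsg, Matrix.mul_smul, Matrix.mul_one, e]
  exact ⟨MulEquiv.ofBijective f ⟨hinj, hsurj⟩⟩

end symp

end Cfsg.Agent.Lib.Helper45.GraphChar2
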