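import Mathlib
import Cfsg.Prelude.Def_LieTypeDatum
import Cfsg.Agent.Lib.Helper45.GraphChar2
import Cfsg.Agent.S0304

set_option autoImplicit false

/-!
Involutory graph automorphisms `cτ * cGL g` of `PSL_n(F)`, `n = 2m+1` odd, `F` finite:
the centralizer in `Inndiag` is `PGO` of the form `x₀² + Σ xᵢ yᵢ`, in every characteristic, and
any two are `Inndiag`-conjugate.
-/

namespace Cfsg.Agent.Lib.Helper45.GraphOdd

open Matrix Cfsg.Agent.Lib.Helper43.PSLnBasic Cfsg.Agent.Lib.Helper43.PSLnAuts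
  Cfsg.Agent.Lib.Helper45.GraphCent Cfsg.Agent.Lib.Helper45.GraphInv
  Cfsg.Agent.Lib.Helper45.PGOCongr Cfsg.Agent.Lib.Helper45.GraphReps
  Cfsg.Agent.Lib.Helper45.SymCong Cfsg.Agent.Lib.Helper45.SymChar2
  Cfsg.Agent.Lib.Helper45.GraphChar2

variable {F : Type*} [Field F]

theorem isUnit_det_coe {n : ℕ} (g : GL (Fin n) F) :
    IsUnit (g : Matrix (Fin n) (Fin n) F).det :=
  (Matrix.isUnit_iff_isUnit_det _).1 g.isUnit

/-- conjugacy from a congruence up to a scalar -/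
theorem conj_of_cong {n : ℕ} (hn : 2 ≤ n) (g g' : GL (Fin n) F)
    (k : Matrix (Fin n) (Fin n) F) (hk : IsUnit k.det) (t : F) (ht : t ≠ 0)
    (e : (g' : Matrix (Fin n) (Fin n) F) = t • (kᵀ * (g : Matrix (Fin n) (Fin n) F) * k)) :
    Cfsg.IsConjUnder (Cfsg.inndiagPSL n F) (cτ * cGL g) (cτ * cGL g') := by
  rw [conj_iff hn]
  exact ⟨Matrix.GeneralLinearGroup.mkOfDetNeZero k hk.ne_zero, Units.mk0 t ht, e⟩

/-- the linear map `v ↦ (k v) ∘ e.symm` -/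
noncomputable def Lk {n : ℕ} {ι : Type} [Fintype ι] [DecidableEq ι] (e : Fin n ≃ ι)
    (k : Matrix (Fin n) (Fin n) F) : (Fin n → F) →ₗ[F] (ι → F) :=
  ((LinearEquiv.funCongrLeft F F e.symm : (Fin n → F) ≃ₗ[F] (ι → F)) :
    (Fin n → F) →ₗ[F] (ι → F)).comp (Matrix.toLin' k)

theorem Lk_apply {n : ℕ} {ι : Type} [Fintype ι] [DecidableEq ι] (e : Fin n ≃ ι)
    (k : Matrix (Fin n) (Fin n) F) (v : Fin n → F) : Lk e k v = fun j => (k *ᵥ v) (e.symm j) := by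
  unfold Lk
  rw [LinearMap.comp_apply, Matrix.toLin'_apply]
  rfl

theorem Lk_injective {n : ℕ} {ι : Type} [Fintype ι] [DecidableEq ι] (e : Fin n ≃ ι)
    (k : Matrix (Fin n) (Fin n) F) (hk : IsUnit k.det) : Function.Injective (Lk e k) := by
  unfold Lk
  rw [LinearMap.coe_comp]
  apply Function.Injective.comp (LinearEquiv.injective _)
  rw [Matrix.toLin'_apply']
  exact Matrix.mulVec_injective_iff_isUnit.2 ((Matrix.isUnit_iff_isUnit_det k).2 hk)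

/-- the value of a reindexed bilinear function on `Lk` -/
theorem dot_Lk {n : ℕ} {ι : Type} [Fintype ι] [DecidableEq ι] (e : Fin n ≃ ι)
    (k : Matrix (Fin n) (Fin n) F) (M : Matrix ι ι F) (u v : Fin n → F) :
    (Lk e k u) ⬝ᵥ (M *ᵥ (Lk e k v)) = u ⬝ᵥ ((kᵀ * M.submatrix e e * k) *ᵥ v) := by
  rw [Lk_apply, Lk_apply, ← dot_submatrix, bil_conj]

section char2

variable [Fintype F] [CharP F 2]

/-- Characteristic two, `n = 2m+1`: the centralizer of `cτ * cGL g` (`g` symmetric, not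
alternating) is `PGO` of the odd-dimensional form. -/
theorem cent_char2 {n m : ℕ} (hn : 2 ≤ n) (hnm : n = 2 * m + 1) (g : GL (Fin n) F)
    (hsym : (g : Matrix (Fin n) (Fin n) F)ᵀ = g)
    (hna : ∃ x : Fin n → F, x ⬝ᵥ (g : Matrix (Fin n) (Fin n) F) *ᵥ x ≠ 0) :
    Nonempty (↥(Cfsg.inndiagPSL n F ⊓ Subgroup.centralizer {cτ * cGL g}) ≃*
      Cfsg.PGO F (Cfsg.quadFormOdd m F)) := by
  classical
  have hc : Fintype.card (Fin n) = Fintype.card (Unit ⊕ (Fin m ⊕ Fin m)) := by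
    simp [hnm]; omega
  let e : Fin n ≃ Unit ⊕ (Fin m ⊕ Fin m) := Fintype.equivOfCardEq hc
  obtain ⟨x⟩ := cent_bil hn g
  -- the reference matrix
  have hD1 : ((Dm m F).submatrix e e)ᵀ = (Dm m F).submatrix e e := by
    rw [Matrix.transpose_submatrix, Dm_transpose]
  have hD2 : IsUnit ((Dm m F).submatrix e e).det := by
    rw [Matrix.det_submatrix_equiv_self]
    exact isUnit_iff_ne_zero.2 det_Dm
  have hD3 : ∃ y : Fin n → F, y ⬝ᵥ ((Dm m F).submatrix e e) *ᵥ y ≠ 0 := by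
    obtain ⟨x₀, hx₀⟩ := Dm_nonalt (F := F) (m := m)
    refine ⟨fun i => x₀ (e i), ?_⟩
    rw [dot_submatrix]
    simpa using hx₀
  obtain ⟨k, hk, ek⟩ := cong_of_nonalt ((Dm m F).submatrix e e) (g : Matrix (Fin n) (Fin n) F)
    hD1 hsym hD2 (isUnit_det_coe g) hD3 hna
  obtain ⟨y⟩ := psim_congr (fun u v : Fin n → F => u ⬝ᵥ ((g : Matrix (Fin n) (Fin n) F) *ᵥ v))
    (fun u v : Unit ⊕ (Fin m ⊕ Fin m) → F => u ⬝ᵥ (Dm m F *ᵥ v)) (Lk e k) (Lk_injective e k hk) hc 1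
    (by
      intro u v
      rw [Units.val_one, one_mul]
      show (Lk e k u) ⬝ᵥ (Dm m F *ᵥ (Lk e k v)) = _
      rw [dot_Lk, ← ek])
  obtain ⟨z⟩ := symp_equiv (F := F) (m := m)
  obtain ⟨w⟩ := Cfsg.Agent.S0304.result (F := F) m
  obtain ⟨r⟩ := pgo_iso_char2 (F := F) (Cfsg.quadFormOdd m F)
    (by
      intro c v
      unfold Cfsg.quadFormOdd
      simp only [Pi.smul_apply, smul_eq_mul]
      rw [mul_add, Finset.mul_sum]
      congr 1
      · ring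
      · apply Finset.sum_congr rfl
        intro i _
        ring)
    ⟨Pi.single (Sum.inl ()) 1, by simp [Cfsg.quadFormOdd]⟩
  exact ⟨x.trans (y.trans (z.symm.trans (w.symm.trans r)))⟩

/-- Characteristic two: two non-alternating symmetric `g`, `g'` give conjugate automorphisms. -/
theorem conj_char2 {n : ℕ} (hn : 2 ≤ n) (g g' : GL (Fin n) F)
    (hsym : (g : Matrix (Fin n) (Fin n) F)ᵀ = g) (hsym' : (g' : Matrix (Fin n) (Fin n) F)ᵀ = g')
    (hna : ∃ x : Fin n → F, x ⬝ᵥ (g : Matrix (Fin n) (Fin n) F) *ᵥ x ≠ 0)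
    (hna' : ∃ x : Fin n → F, x ⬝ᵥ (g' : Matrix (Fin n) (Fin n) F) *ᵥ x ≠ 0) :
    Cfsg.IsConjUnder (Cfsg.inndiagPSL n F) (cτ * cGL g) (cτ * cGL g') := by
  obtain ⟨k, hk, ek⟩ := cong_of_nonalt (g : Matrix (Fin n) (Fin n) F) (g' : Matrix (Fin n) (Fin n) F)
    hsym hsym' (isUnit_det_coe g) (isUnit_det_coe g') hna hna'
  exact conj_of_cong hn g g' k hk 1 one_ne_zero (by rw [one_smul]; exact ek)

end char2

section odd

/-- Gram matrix of the polar form of `x₀² + Σ xᵢ yᵢ` -/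
def M0 (m : ℕ) (F : Type*) [Field F] : Matrix (Unit ⊕ (Fin m ⊕ Fin m)) (Unit ⊕ (Fin m ⊕ Fin m)) F :=
  Matrix.fromBlocks ((2 : F) • (1 : Matrix Unit Unit F)) 0 0 (Mplus m)

theorem M0_transpose (m : ℕ) : (M0 m F)ᵀ = M0 m F := by
  unfold M0
  rw [Matrix.fromBlocks_transpose, Mplus_transpose]
  simp

theorem det_M0 (m : ℕ) : (M0 m F).det = 2 * (-1) ^ m := by
  unfold M0
  rw [Matrix.det_fromBlocks_zero₂₁, det_Mplus]
  simp

theorem dot_M0 (m : ℕ) (v : Unit ⊕ (Fin m ⊕ Fin m) → F) :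
    v ⬝ᵥ (M0 m F *ᵥ v) = 2 * Cfsg.quadFormOdd m F v := by
  unfold M0 Cfsg.quadFormOdd
  rw [Matrix.fromBlocks_mulVec]
  have e1 : ∀ x : Unit ⊕ (Fin m ⊕ Fin m) → F, v ⬝ᵥ x
      = (v ∘ Sum.inl) ⬝ᵥ (x ∘ Sum.inl) + (v ∘ Sum.inr) ⬝ᵥ (x ∘ Sum.inr) := by
    intro x
    unfold dotProduct
    rw [Fintype.sum_sum_type]
    rfl
  rw [e1]
  simp only [Sum.elim_comp_inl, Sum.elim_comp_inr, Matrix.zero_mulVec, zero_add, add_zero]
  rw [dot_Mplus]
  unfold Cfsg.quadFormPlus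
  simp [dotProduct, Matrix.mulVec]
  ring

variable [Fintype F]

/-- Odd characteristic, `n = 2m+1`: any two symmetric invertible matrices are congruent up to a
scalar. -/
theorem cong_scalar (h2 : (2 : F) ≠ 0) {n m : ℕ} (hnm : n = 2 * m + 1)
    (g g' : Matrix (Fin n) (Fin n) F) (hg : gᵀ = g) (hg' : g'ᵀ = g') (hd : IsUnit g.det)
    (hd' : IsUnit g'.det) :
    ∃ (k : Matrix (Fin n) (Fin n) F) (t : F), IsUnit k.det ∧ t ≠ 0 ∧ g' = t • (kᵀ * g * k) := by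
  have hg0 : g.det ≠ 0 := isUnit_iff_ne_zero.1 hd
  have hg0' : g'.det ≠ 0 := isUnit_iff_ne_zero.1 hd'
  set t := g.det * g'.det with ht
  have ht0 : t ≠ 0 := mul_ne_zero hg0 hg0'
  have hdet : (t⁻¹ • g').det = (t⁻¹) ^ n * g'.det := by
    rw [Matrix.det_smul, Fintype.card_fin]
  obtain ⟨k, hk, ek⟩ := cong_of_det h2 g (t⁻¹ • g') hg
    (by rw [Matrix.transpose_smul, hg'])
    hd (by rw [hdet]; exact isUnit_iff_ne_zero.2 (mul_ne_zero (pow_ne_zero _ (inv_ne_zero ht0)) hg0'))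
    (by
      rw [hdet]
      refine ⟨(t⁻¹) ^ m, ?_⟩
      have hp : (t⁻¹) ^ n = (t⁻¹) ^ m * (t⁻¹) ^ m * t⁻¹ := by
        rw [hnm, pow_succ, two_mul, pow_add]
      rw [hp]
      have h1 : g.det * g'.det * t⁻¹ = 1 := by rw [← ht]; exact mul_inv_cancel₀ ht0
      linear_combination (t⁻¹ ^ m * t⁻¹ ^ m) * h1)
  refine ⟨k, t, hk, ht0, ?_⟩
  rw [← ek, smul_smul, mul_inv_cancel₀ ht0, one_smul]

/-- Odd characteristic, `n = 2m+1`: the centralizer of `cτ * cGL g` (`g` symmetric) is `PGO` of the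
odd-dimensional form. -/
theorem cent_odd (h2 : (2 : F) ≠ 0) {n m : ℕ} (hn : 2 ≤ n) (hnm : n = 2 * m + 1) (g : GL (Fin n) F)
    (hsym : (g : Matrix (Fin n) (Fin n) F)ᵀ = g) :
    Nonempty (↥(Cfsg.inndiagPSL n F ⊓ Subgroup.centralizer {cτ * cGL g}) ≃*
      Cfsg.PGO F (Cfsg.quadFormOdd m F)) := by
  classical
  have hc : Fintype.card (Fin n) = Fintype.card (Unit ⊕ (Fin m ⊕ Fin m)) := by
    simp [hnm]; omega
  let e : Fin n ≃ Unit ⊕ (Fin m ⊕ Fin m) := Fintype.equivOfCardEq hc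
  obtain ⟨x⟩ := cent_equiv hn h2 g hsym
  have hG1 : ((M0 m F).submatrix e e)ᵀ = (M0 m F).submatrix e e := by
    rw [Matrix.transpose_submatrix, M0_transpose]
  have hG2 : IsUnit ((M0 m F).submatrix e e).det := by
    rw [Matrix.det_submatrix_equiv_self, det_M0]
    exact isUnit_iff_ne_zero.2 (mul_ne_zero h2 (pow_ne_zero _ (neg_ne_zero.2 one_ne_zero)))
  obtain ⟨k, t, hk, ht0, ek⟩ := cong_scalar h2 hnm ((M0 m F).submatrix e e)
    (g : Matrix (Fin n) (Fin n) F) hG1 hsym hG2 (isUnit_det_coe g)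
  obtain ⟨y⟩ := pgo_congr (fun v : Fin n → F => v ⬝ᵥ ((g : Matrix (Fin n) (Fin n) F) *ᵥ v))
    (Cfsg.quadFormOdd m F) (Lk e k) (Lk_injective e k hk) hc
    (Units.mk0 ((2 * t)⁻¹) (inv_ne_zero (mul_ne_zero h2 ht0)))
    (by
      intro v
      show Cfsg.quadFormOdd m F (Lk e k v) = (2 * t)⁻¹ * _
      have h1 : (2 : F) * Cfsg.quadFormOdd m F (Lk e k v)
          = v ⬝ᵥ ((kᵀ * (M0 m F).submatrix e e * k) *ᵥ v) := by
        rw [← dot_M0, dot_Lk]
      rw [ek, Matrix.smul_mulVec, dotProduct_smul, smul_eq_mul, ← h1]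
      field_simp)
  exact ⟨x.trans y⟩

/-- Odd characteristic, `n` odd: two symmetric `g`, `g'` give conjugate automorphisms. -/
theorem conj_odd (h2 : (2 : F) ≠ 0) {n m : ℕ} (hn : 2 ≤ n) (hnm : n = 2 * m + 1) (g g' : GL (Fin n) F)
    (hsym : (g : Matrix (Fin n) (Fin n) F)ᵀ = g) (hsym' : (g' : Matrix (Fin n) (Fin n) F)ᵀ = g') :
    Cfsg.IsConjUnder (Cfsg.inndiagPSL n F) (cτ * cGL g) (cτ * cGL g') := by
  obtain ⟨k, t, hk, ht0, ek⟩ := cong_scalar h2 hnm (g : Matrix (Fin n) (Fin n) F)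
    (g' : Matrix (Fin n) (Fin n) F) hsym hsym' (isUnit_det_coe g) (isUnit_det_coe g')
  exact conj_of_cong hn g g' k hk t ht0 ek

omit [Fintype F] in
/-- an invertible skew-symmetric matrix of odd size does not exist when `2 ≠ 0` -/
theorem not_skew_odd (h2 : (2 : F) ≠ 0) {n m : ℕ} (hnm : n = 2 * m + 1)
    (g : Matrix (Fin n) (Fin n) F) (hd : IsUnit g.det) (hs : gᵀ = -g) : False := by
  have h1 := congrArg Matrix.det hs
  have hp : (-1 : F) ^ n = -1 := by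
    rw [hnm, pow_succ, pow_mul]
    simp
  rw [Matrix.det_transpose, Matrix.det_neg, Fintype.card_fin, hp] at h1
  have h3 : (2 : F) * g.det = 0 := by linear_combination h1
  rcases mul_eq_zero.1 h3 with h | h
  · exact h2 h
  · exact (isUnit_iff_ne_zero.1 hd) h

end odd

end Cfsg.Agent.Lib.Helper45.GraphOdd
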