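import Mathlib
import Cfsg.Prelude.Def_LieTypeDatum
import Cfsg.Agent.Lib.Helper45.GraphOdd
import Cfsg.Agent.Lib.Helper13.SympMat

set_option autoImplicit false

/-!
Characteristic two, even dimension `n = 2m`: the two classes of involutory graph automorphisms of
`PSL_n(F)`, given by the alternating matrix `J` and the non-alternating matrix `J + a aᵀ`;
their centralizers are `Sp_{2m}(F)` and the centralizer of a transvection in `Sp_{2m}(F)`.
-/

namespace Cfsg.Agent.Lib.Helper45.GraphEven2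

open Matrix Cfsg.Agent.Lib.Helper43.PSLnBasic Cfsg.Agent.Lib.Helper43.PSLnAuts
  Cfsg.Agent.Lib.Helper45.GraphCent Cfsg.Agent.Lib.Helper45.GraphInv
  Cfsg.Agent.Lib.Helper45.PGOCongr Cfsg.Agent.Lib.Helper45.GraphReps
  Cfsg.Agent.Lib.Helper45.SymCong Cfsg.Agent.Lib.Helper45.SymChar2
  Cfsg.Agent.Lib.Helper45.GraphChar2 Cfsg.Agent.Lib.Helper45.GraphOdd
  Cfsg.Agent.Lib.Helper13.SympMat

variable {F : Type*} [Field F]

section general

variable {ι : Type} [Fintype ι] [DecidableEq ι]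

omit [DecidableEq ι] in
theorem vmv_mulVec (u v w : ι → F) : vecMulVec u v *ᵥ w = (v ⬝ᵥ w) • u := by
  rw [Matrix.vecMulVec_mulVec]
  simp

theorem rank_pos_of_ne_zero (A : Matrix ι ι F) (hA : A ≠ 0) : 0 < A.rank := by
  by_contra h
  have h0 : A.rank = 0 := by omega
  apply hA
  have hr : LinearMap.range A.mulVecLin = ⊥ := by
    apply Submodule.finrank_eq_zero.1
    exact h0
  have h1 : A.mulVecLin = 0 := LinearMap.range_eq_bot.1 hr
  ext i j
  have h2 := congrFun (LinearMap.congr_fun h1 (Pi.single j 1)) i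
  simpa using h2

theorem rank_vecMulVec_eq_one (a lam : ι → F) (ha : a ≠ 0) (hl : lam ≠ 0) :
    (vecMulVec a lam).rank = 1 := by
  have h1 := Matrix.rank_vecMulVec_le a lam
  have h2 := rank_pos_of_ne_zero (vecMulVec a lam) (Matrix.vecMulVec_ne_zero ha hl)
  omega

/-- a group mapping onto a subgroup of `GL` up to scalars, injectively modulo scalars, is the
projective quotient -/
theorem proj_equiv_of {G : Type*} [Group G] (S : Subgroup (GL ι F)) (ψ : G →* GL ι F)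
    (hmem : ∀ g, ψ g ∈ S)
    (hinj : ∀ g, ψ g ∈ Cfsg.Geo.scalars ι F → g = 1)
    (hsurj : ∀ h ∈ S, ∃ (s : Fˣ) (g : G),
      (h : Matrix ι ι F) = (s : F) • ((ψ g : GL ι F) : Matrix ι ι F)) :
    Nonempty (G ≃* Cfsg.projQuot S) := by
  let f₀ : G →* ↥S :=
    { toFun := fun g => ⟨ψ g, hmem g⟩
      map_one' := Subtype.ext (map_one ψ)
      map_mul' := fun a b => Subtype.ext (map_mul ψ a b) }
  let f : G →* Cfsg.projQuot S := (QuotientGroup.mk' _).comp f₀
  have hi : Function.Injective f := by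
    rw [injective_iff_map_eq_one]
    intro g hg
    have hg' : (QuotientGroup.mk' _ (f₀ g)) = 1 := hg
    rw [QuotientGroup.mk'_apply, QuotientGroup.eq_one_iff, Subgroup.mem_subgroupOf] at hg'
    exact hinj g hg'
  have hs : Function.Surjective f := by
    intro y
    obtain ⟨⟨h, hh⟩, rfl⟩ := QuotientGroup.mk_surjective y
    obtain ⟨s, g, e⟩ := hsurj h hh
    refine ⟨g, ?_⟩
    show QuotientGroup.mk' _ (f₀ g) = QuotientGroup.mk' _ ⟨h, hh⟩
    rw [QuotientGroup.mk'_eq_mk']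
    refine ⟨(f₀ g)⁻¹ * ⟨h, hh⟩, ?_, mul_inv_cancel_left _ _⟩
    rw [Subgroup.mem_subgroupOf, Cfsg.Geo.mem_scalars_iff]
    refine ⟨s, ?_⟩
    show (((ψ g)⁻¹ * h : GL ι F) : Matrix ι ι F) = _
    rw [Units.val_mul, e, Matrix.mul_smul, ← Units.val_mul, inv_mul_cancel, Units.val_one]
  exact ⟨MulEquiv.ofBijective f ⟨hi, hs⟩⟩

end general

section symp

variable {m : ℕ}

theorem J_sq [CharP F 2] : Matrix.J (Fin m) F * Matrix.J (Fin m) F = 1 := by
  rw [Matrix.J_squared]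
  ext i j
  rw [Matrix.neg_apply, CharTwo.neg_eq]

theorem J_tr [CharP F 2] : (Matrix.J (Fin m) F)ᵀ = Matrix.J (Fin m) F := by
  rw [Matrix.J_transpose]
  ext i j
  rw [Matrix.neg_apply, CharTwo.neg_eq]

theorem dot_J_self (x : Fin m ⊕ Fin m → F) : (Matrix.J (Fin m) F *ᵥ x) ⬝ᵥ x = 0 := by
  rw [dotProduct_comm]
  exact alt_J x

/-- the non-alternating symmetric matrix `J + (J b)(J b)ᵀ` -/
def Em (b : Fin m ⊕ Fin m → F) : Matrix (Fin m ⊕ Fin m) (Fin m ⊕ Fin m) F :=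
  Matrix.J (Fin m) F + vecMulVec (Matrix.J (Fin m) F *ᵥ b) (Matrix.J (Fin m) F *ᵥ b)

theorem Em_eq (b : Fin m ⊕ Fin m → F) : Em b = Matrix.J (Fin m) F * Cfsg.sympTransvection m b 1 := by
  unfold Em Cfsg.sympTransvection
  rw [Matrix.mul_add, Matrix.mul_one, one_smul, Matrix.mul_vecMulVec]

theorem det_Em (b : Fin m ⊕ Fin m → F) : IsUnit (Em b).det := by
  rw [Em_eq, Matrix.det_mul]
  exact (Matrix.isUnit_det_J (Fin m) F).mul (SymplecticGroup.symplectic_det (transvection_mem m b 1))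

theorem Em_transpose [CharP F 2] (b : Fin m ⊕ Fin m → F) : (Em b)ᵀ = Em b := by
  unfold Em
  rw [Matrix.transpose_add, J_tr, Matrix.transpose_vecMulVec]

theorem dot_Em (b x : Fin m ⊕ Fin m → F) :
    x ⬝ᵥ (Em b *ᵥ x) = ((Matrix.J (Fin m) F *ᵥ b) ⬝ᵥ x) ^ 2 := by
  unfold Em
  rw [Matrix.add_mulVec, dotProduct_add, alt_J, zero_add, vmv_mulVec, dotProduct_smul, smul_eq_mul,
    dotProduct_comm x, pow_two]

theorem av_ne [CharP F 2] (b : Fin m ⊕ Fin m → F) (hb : b ≠ 0) : Matrix.J (Fin m) F *ᵥ b ≠ 0 := by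
  intro h
  apply hb
  have : Matrix.J (Fin m) F *ᵥ (Matrix.J (Fin m) F *ᵥ b) = b := by
    rw [Matrix.mulVec_mulVec, J_sq, Matrix.one_mulVec]
  rw [← this, h, Matrix.mulVec_zero]

theorem Em_nonalt [CharP F 2] (b : Fin m ⊕ Fin m → F) (hb : b ≠ 0) :
    ∃ x : Fin m ⊕ Fin m → F, x ⬝ᵥ (Em b *ᵥ x) ≠ 0 := by
  have ha := av_ne b hb
  obtain ⟨j, hj⟩ : ∃ j, (Matrix.J (Fin m) F *ᵥ b) j ≠ 0 := by
    by_contra hcon
    apply ha
    funext j
    by_contra hj
    exact hcon ⟨j, hj⟩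
  refine ⟨Pi.single j 1, ?_⟩
  rw [dot_Em, dotProduct_single_one]
  exact pow_ne_zero _ hj

/-- a symplectic matrix commuting with the transvection along `b` preserves `Em b` -/
theorem em_of_comm [CharP F 2] (b : Fin m ⊕ Fin m → F) (hb : b ≠ 0)
    (A : Matrix (Fin m ⊕ Fin m) (Fin m ⊕ Fin m) F) (hA : A ∈ Matrix.symplecticGroup (Fin m) F)
    (hc : A * Cfsg.sympTransvection m b 1 = Cfsg.sympTransvection m b 1 * A) :
    Aᵀ * Em b * A = Em b := by
  set a := Matrix.J (Fin m) F *ᵥ b with ha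
  have ha0 : a ≠ 0 := av_ne b hb
  have h1 : vecMulVec (A *ᵥ b) a = vecMulVec b (a ᵥ* A) := by
    unfold Cfsg.sympTransvection at hc
    rw [Matrix.mul_add, Matrix.add_mul, Matrix.mul_one, Matrix.one_mul, one_smul, Matrix.mul_vecMulVec,
      Matrix.vecMulVec_mul] at hc
    exact add_left_cancel hc
  obtain ⟨j, hj⟩ : ∃ j, a j ≠ 0 := by
    by_contra hcon
    apply ha0
    funext j
    by_contra hj
    exact hcon ⟨j, hj⟩
  obtain ⟨i, hi⟩ : ∃ i, b i ≠ 0 := by
    by_contra hcon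
    apply hb
    funext i
    by_contra hi
    exact hcon ⟨i, hi⟩
  set lam := (a ᵥ* A) j / a j with hlam
  have hAb : A *ᵥ b = lam • b := by
    funext k
    have := congrFun (congrFun h1 k) j
    rw [Matrix.vecMulVec_apply, Matrix.vecMulVec_apply] at this
    rw [Pi.smul_apply, smul_eq_mul, hlam]
    field_simp
    linear_combination this
  have haA : a ᵥ* A = lam • a := by
    funext k
    have := congrFun (congrFun h1 i) k
    rw [Matrix.vecMulVec_apply, Matrix.vecMulVec_apply, hAb, Pi.smul_apply, smul_eq_mul] at this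
    rw [Pi.smul_apply, smul_eq_mul]
    have h2 : b i * (lam * a k) = b i * (a ᵥ* A) k := by linear_combination this
    exact (mul_left_cancel₀ hi h2).symm
  have hS := SymplecticGroup.mem_iff'.1 hA
  have h3 : lam • (lam • a) = a := by
    have h4 : (Aᵀ * Matrix.J (Fin m) F * A) *ᵥ b = Matrix.J (Fin m) F *ᵥ b := by rw [hS]
    rw [← Matrix.mulVec_mulVec, ← Matrix.mulVec_mulVec, hAb, Matrix.mulVec_smul, ← ha, Matrix.mulVec_smul,
      Matrix.mulVec_transpose, haA] at h4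
    exact h4
  have hl1 : lam = 1 := by
    have h5 := congrFun h3 j
    rw [Pi.smul_apply, Pi.smul_apply, smul_eq_mul, smul_eq_mul] at h5
    have h6 : lam ^ 2 = 1 ^ 2 := by
      rw [one_pow]
      have : (lam ^ 2 - 1) * a j = 0 := by linear_combination h5
      rcases mul_eq_zero.1 this with h | h
      · linear_combination h
      · exact absurd h hj
    exact sq_inj h6
  rw [hl1, one_smul] at haA
  have hR : Aᵀ * vecMulVec a a * A = vecMulVec a a := by
    rw [Matrix.mul_vecMulVec, Matrix.vecMulVec_mul, haA, Matrix.mulVec_transpose, haA]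
  unfold Em
  rw [Matrix.mul_add, Matrix.add_mul, hS, ← ha, hR]

/-- block-free analysis of the similarities of `Em b` in characteristic two -/
theorem sim_Em [Finite F] [CharP F 2] (b : Fin m ⊕ Fin m → F)
    (h : Matrix (Fin m ⊕ Fin m) (Fin m ⊕ Fin m) F) (τ : F) (hτ : τ ≠ 0)
    (e : hᵀ * Em b * h = τ • Em b) :
    ∃ (s : F) (A : Matrix (Fin m ⊕ Fin m) (Fin m ⊕ Fin m) F), s ≠ 0 ∧
      A ∈ Matrix.symplecticGroup (Fin m) F ∧
      A * Cfsg.sympTransvection m b 1 = Cfsg.sympTransvection m b 1 * A ∧ h = s • A := by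
  set a := Matrix.J (Fin m) F *ᵥ b with ha
  have hq : ∀ x, (a ⬝ᵥ (h *ᵥ x)) ^ 2 = τ * (a ⬝ᵥ x) ^ 2 := by
    intro x
    have h1 : x ⬝ᵥ ((hᵀ * Em b * h) *ᵥ x) = x ⬝ᵥ ((τ • Em b) *ᵥ x) := by rw [e]
    rw [← bil_conj', dot_Em, Matrix.smul_mulVec, dotProduct_smul, smul_eq_mul, dot_Em] at h1
    exact h1
  obtain ⟨s, hs⟩ := exists_sqrt (F := F) τ
  have hs0 : s ≠ 0 := by
    rintro rfl
    rw [zero_pow two_ne_zero] at hs
    exact hτ hs.symm
  have hlin : ∀ x, a ⬝ᵥ (h *ᵥ x) = s * (a ⬝ᵥ x) := fun x => sq_inj (by rw [hq, mul_pow, hs])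
  set A := s⁻¹ • h with hAdef
  have hA1 : ∀ x, a ⬝ᵥ (A *ᵥ x) = a ⬝ᵥ x := by
    intro x
    rw [hAdef, Matrix.smul_mulVec, dotProduct_smul, hlin, smul_eq_mul, ← mul_assoc, inv_mul_cancel₀ hs0,
      one_mul]
  have hA2 : a ᵥ* A = a := by
    funext j
    have h1 := hA1 (Pi.single j 1)
    rw [Matrix.dotProduct_mulVec, dotProduct_single_one, dotProduct_single_one] at h1
    exact h1
  have hA3 : Aᵀ * Em b * A = Em b := by
    rw [hAdef, Matrix.transpose_smul, Matrix.smul_mul, Matrix.smul_mul, Matrix.mul_smul, e, smul_smul,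
      smul_smul]
    have h1 : s⁻¹ * s⁻¹ * τ = 1 := by
      rw [← hs]
      field_simp
    rw [h1, one_smul]
  have hA4 : Aᵀ * vecMulVec a a * A = vecMulVec a a := by
    rw [Matrix.mul_vecMulVec, Matrix.vecMulVec_mul, hA2, Matrix.mulVec_transpose, hA2]
  have hA5 : Aᵀ * Matrix.J (Fin m) F * A = Matrix.J (Fin m) F := by
    have h1 := hA3
    unfold Em at h1
    rw [← ha, Matrix.mul_add, Matrix.add_mul, hA4] at h1
    exact add_right_cancel h1
  have hAmem : A ∈ Matrix.symplecticGroup (Fin m) F := SymplecticGroup.mem_iff'.2 hA5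
  have hm := SymplecticGroup.mem_iff.1 hAmem
  have hAb : A *ᵥ b = b := by
    have h1 : b = Matrix.J (Fin m) F *ᵥ a := by
      rw [ha, Matrix.mulVec_mulVec, J_sq, Matrix.one_mulVec]
    calc A *ᵥ b = A *ᵥ (Matrix.J (Fin m) F *ᵥ a) := by rw [← h1]
      _ = A *ᵥ (Matrix.J (Fin m) F *ᵥ (Aᵀ *ᵥ a)) := by rw [Matrix.mulVec_transpose, hA2]
      _ = (A * Matrix.J (Fin m) F * Aᵀ) *ᵥ a := by rw [Matrix.mulVec_mulVec, Matrix.mulVec_mulVec,
          Matrix.mul_assoc]
      _ = b := by rw [hm, ← h1]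
  refine ⟨s, A, hs0, hAmem, ?_, ?_⟩
  · unfold Cfsg.sympTransvection
    rw [Matrix.mul_add, Matrix.add_mul, Matrix.mul_one, Matrix.one_mul, one_smul, Matrix.mul_vecMulVec,
      Matrix.vecMulVec_mul, hAb, ← ha, hA2]
  · rw [hAdef, smul_smul, mul_inv_cancel₀ hs0, one_smul]

end symp

section groups

variable {m : ℕ}

/-- symplectic matrices as elements of `GL` -/
noncomputable def spGLhom (m : ℕ) (F : Type*) [Field F] :
    ↥(Matrix.symplecticGroup (Fin m) F) →* GL (Fin m ⊕ Fin m) F :=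
  (Matrix.symplecticGroup (Fin m) F).subtype.toHomUnits

theorem spGLhom_coe (A : ↥(Matrix.symplecticGroup (Fin m) F)) :
    ((spGLhom m F A : GL (Fin m ⊕ Fin m) F) : Matrix (Fin m ⊕ Fin m) (Fin m ⊕ Fin m) F) = A := rfl

/-- characteristic two: a scalar symplectic matrix is the identity -/
theorem scalar_symp [CharP F 2] (hm : 0 < m) (A : ↥(Matrix.symplecticGroup (Fin m) F))
    (h : spGLhom m F A ∈ Cfsg.Geo.scalars (Fin m ⊕ Fin m) F) : A = 1 := by
  rw [Cfsg.Geo.mem_scalars_iff] at h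
  obtain ⟨c, hc⟩ := h
  rw [spGLhom_coe] at hc
  have hS := SymplecticGroup.mem_iff'.1 A.2
  rw [hc, Matrix.transpose_smul, Matrix.transpose_one, Matrix.smul_mul, Matrix.one_mul, Matrix.mul_smul,
    Matrix.mul_one, smul_smul] at hS
  have h1 := congrFun (congrFun hS (Sum.inr ⟨0, hm⟩)) (Sum.inl ⟨0, hm⟩)
  have hJ : Matrix.J (Fin m) F (Sum.inr ⟨0, hm⟩) (Sum.inl ⟨0, hm⟩) = 1 := by
    simp [Matrix.J]
  rw [Matrix.smul_apply, hJ, smul_eq_mul, mul_one] at h1
  have h2 : (c : F) = 1 := sq_inj (by rw [one_pow, pow_two]; exact h1)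
  apply Subtype.ext
  rw [hc, h2, one_smul]
  rfl

/-- characteristic two: `PGSp_{2m}(F)` is `Sp_{2m}(F)` -/
theorem pgsp_equiv [Finite F] [CharP F 2] (hm : 0 < m) :
    Nonempty (↥(Matrix.symplecticGroup (Fin m) F) ≃* Cfsg.PGSp m F) := by
  apply proj_equiv_of (Cfsg.GSp m F) (spGLhom m F)
  · intro A
    show spGLhom m F A ∈ Cfsg.Geo.similarityGroup (F := F)
      (fun u v : Fin m ⊕ Fin m → F => u ⬝ᵥ (Matrix.J (Fin m) F *ᵥ v))
    rw [mem_bsim_iff']
    refine ⟨1, ?_⟩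
    rw [spGLhom_coe, Units.val_one, one_smul]
    exact SymplecticGroup.mem_iff'.1 A.2
  · exact scalar_symp hm
  · intro h hh
    have hh' : h ∈ Cfsg.Geo.similarityGroup (F := F)
      (fun u v : Fin m ⊕ Fin m → F => u ⬝ᵥ (Matrix.J (Fin m) F *ᵥ v)) := hh
    obtain ⟨t, ht⟩ := (mem_bsim_iff' _ h).1 hh'
    obtain ⟨s, hs⟩ := exists_sqrt (F := F) (t : F)
    have hs0 : s ≠ 0 := by
      rintro rfl
      rw [zero_pow two_ne_zero] at hs
      exact t.ne_zero hs.symm
    have hA : s⁻¹ • (h : Matrix (Fin m ⊕ Fin m) (Fin m ⊕ Fin m) F) ∈ Matrix.symplecticGroup (Fin m) F := by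
      rw [SymplecticGroup.mem_iff', Matrix.transpose_smul, Matrix.smul_mul, Matrix.smul_mul, Matrix.mul_smul,
        ht, smul_smul, smul_smul]
      have h1 : s⁻¹ * s⁻¹ * (t : F) = 1 := by
        rw [← hs]
        field_simp
      rw [h1, one_smul]
    refine ⟨Units.mk0 s hs0, ⟨_, hA⟩, ?_⟩
    rw [spGLhom_coe]
    show (h : Matrix (Fin m ⊕ Fin m) (Fin m ⊕ Fin m) F) = s • (s⁻¹ • (h : Matrix (Fin m ⊕ Fin m) (Fin m ⊕ Fin m) F))
    rw [smul_smul, mul_inv_cancel₀ hs0, one_smul]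

/-- the transvection along `b` as an element of the symplectic group -/
noncomputable def tv (b : Fin m ⊕ Fin m → F) : ↥(Matrix.symplecticGroup (Fin m) F) :=
  ⟨Cfsg.sympTransvection m b 1, transvection_mem m b 1⟩

theorem tv_isTransvection [CharP F 2] (b : Fin m ⊕ Fin m → F) (hb : b ≠ 0) :
    Cfsg.IsTransvection ((tv b : ↥(Matrix.symplecticGroup (Fin m) F)) :
      Matrix (Fin m ⊕ Fin m) (Fin m ⊕ Fin m) F) := by
  show Cfsg.IsTransvection (Cfsg.sympTransvection m b 1)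
  unfold Cfsg.sympTransvection
  constructor
  · rw [add_sub_cancel_left, one_smul]
    exact rank_vecMulVec_eq_one b _ hb (av_ne b hb)
  · rw [add_sub_cancel_left, one_smul, Matrix.vecMulVec_mul_vecMulVec, dot_J_self, zero_smul,
      Matrix.vecMulVec_zero]

/-- characteristic two: the projective similarity group of `Em b` is the centralizer of the
transvection along `b` in `Sp_{2m}(F)` -/
theorem cent_transv_equiv [Finite F] [CharP F 2] (hm : 0 < m) (b : Fin m ⊕ Fin m → F) (hb : b ≠ 0) :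
    Nonempty (↥(Subgroup.centralizer ({tv b} : Set ↥(Matrix.symplecticGroup (Fin m) F))) ≃*
      Cfsg.projQuot (Cfsg.Geo.similarityGroup (F := F)
        (fun u v : Fin m ⊕ Fin m → F => u ⬝ᵥ (Em b *ᵥ v)))) := by
  apply proj_equiv_of _ ((spGLhom m F).comp (Subgroup.subtype _))
  · intro g
    rw [mem_bsim_iff']
    refine ⟨1, ?_⟩
    rw [Units.val_one, one_smul]
    have hg := g.2
    rw [Subgroup.mem_centralizer_iff] at hg
    have h1 := hg (tv b) (Set.mem_singleton _)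
    have h2 : Cfsg.sympTransvection m b 1 * ((g.1 : ↥(Matrix.symplecticGroup (Fin m) F)) :
        Matrix (Fin m ⊕ Fin m) (Fin m ⊕ Fin m) F)
        = ((g.1 : ↥(Matrix.symplecticGroup (Fin m) F)) :
        Matrix (Fin m ⊕ Fin m) (Fin m ⊕ Fin m) F) * Cfsg.sympTransvection m b 1 :=
      congrArg Subtype.val h1
    exact em_of_comm b hb _ g.1.2 h2.symm
  · intro g hg
    apply Subtype.ext
    exact scalar_symp hm g.1 hg
  · intro h hh
    obtain ⟨t, ht⟩ := (mem_bsim_iff' _ h).1 hh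
    obtain ⟨s, A, hs0, hA, hcomm, e⟩ := sim_Em b (h : Matrix (Fin m ⊕ Fin m) (Fin m ⊕ Fin m) F) (t : F)
      t.ne_zero ht
    have hmemc : (⟨A, hA⟩ : ↥(Matrix.symplecticGroup (Fin m) F)) ∈
        Subgroup.centralizer ({tv b} : Set ↥(Matrix.symplecticGroup (Fin m) F)) := by
      rw [Subgroup.mem_centralizer_iff]
      intro x hx
      rw [Set.mem_singleton_iff] at hx
      subst hx
      exact Subtype.ext hcomm.symm
    exact ⟨Units.mk0 s hs0, ⟨⟨A, hA⟩, hmemc⟩, e⟩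

variable [Fintype F] [CharP F 2]

/-- centralizer of the graph automorphism of the (reindexed) alternating matrix `J` -/
theorem cent_J {n : ℕ} (hn : 2 ≤ n) (hm : 0 < m) (e : Fin n ≃ Fin m ⊕ Fin m) (g : GL (Fin n) F)
    (hg : (g : Matrix (Fin n) (Fin n) F) = (Matrix.J (Fin m) F).submatrix e e) :
    Nonempty (↥(Cfsg.inndiagPSL n F ⊓ Subgroup.centralizer {cτ * cGL g}) ≃*
      ↥(Matrix.symplecticGroup (Fin m) F)) := by
  obtain ⟨x⟩ := cent_symp hn m e g hg
  obtain ⟨y⟩ := pgsp_equiv (F := F) hm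
  exact ⟨x.trans y.symm⟩

/-- centralizer of the graph automorphism of the (reindexed) non-alternating matrix `Em b` -/
theorem cent_E {n : ℕ} (hn : 2 ≤ n) (hm : 0 < m) (e : Fin n ≃ Fin m ⊕ Fin m)
    (b : Fin m ⊕ Fin m → F) (hb : b ≠ 0) (g : GL (Fin n) F)
    (hg : (g : Matrix (Fin n) (Fin n) F) = (Em b).submatrix e e) :
    Nonempty (↥(Cfsg.inndiagPSL n F ⊓ Subgroup.centralizer {cτ * cGL g}) ≃*
      ↥(Subgroup.centralizer ({tv b} : Set ↥(Matrix.symplecticGroup (Fin m) F)))) := by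
  obtain ⟨x⟩ := cent_bil hn g
  obtain ⟨y⟩ := psim_reindex (fun u v : Fin n → F => u ⬝ᵥ ((g : Matrix (Fin n) (Fin n) F) *ᵥ v))
    (fun u v : Fin m ⊕ Fin m → F => u ⬝ᵥ (Em b *ᵥ v)) e (by
      intro u v
      rw [hg, dot_submatrix])
  obtain ⟨z⟩ := cent_transv_equiv (F := F) hm b hb
  exact ⟨x.trans (y.trans z.symm)⟩

end groups

end Cfsg.Agent.Lib.Helper45.GraphEven2
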