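import Mathlib
import Cfsg.Agent.Lib.Helper45.GraphOdd
import Cfsg.Agent.Lib.Helper43.PSLnSplit
import Cfsg.Agent.Lib.Helper43.CycIndex
import Cfsg.Agent.Lib.Helper45.OmegaAutMain

/-!
# Splitting of the `Inndiag`-classes of involutory graph automorphisms of `PSL_n`

`simPairs A` : the pairs `(t, det c)` for the similitudes `cᵀ A c = t • A`; its invariance under
congruence and reindexing; its value for the symplectic form and for symmetric forms; the
resulting split counts.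
-/

set_option autoImplicit false

namespace Cfsg.Agent.Lib.Helper45.GraphSplit

open Matrix Cfsg.Agent.Lib.Helper43.PSLnBasic Cfsg.Agent.Lib.Helper43.PSLnAuts
  Cfsg.Agent.Lib.Helper45.GraphCent Cfsg.Agent.Lib.Helper45.GraphInv
  Cfsg.Agent.Lib.Helper45.SymCong Cfsg.Agent.Lib.Helper45.SymChar2
  Cfsg.Agent.Lib.Helper45.GraphOdd

variable {F : Type*} [Field F]

section general

variable {ι κ : Type*} [Fintype ι] [DecidableEq ι] [Fintype κ] [DecidableEq κ]

/-- the pairs (multiplier, determinant) of the similitudes of the bilinear form `A` -/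
def simPairs (A : Matrix ι ι F) : Set (F × F) :=
  {p | ∃ c : Matrix ι ι F, IsUnit c.det ∧ cᵀ * A * c = p.1 • A ∧ c.det = p.2}

theorem simPairs_cong_le (A A' k : Matrix ι ι F) (hk : IsUnit k.det) (e : A' = kᵀ * A * k) :
    simPairs A ⊆ simPairs A' := by
  rintro ⟨t, d⟩ ⟨c, hc, h1, h2⟩
  have hkk : k * k⁻¹ = 1 := Matrix.mul_nonsing_inv k hk
  have hkk' : k⁻¹ * k = 1 := Matrix.nonsing_inv_mul k hk
  have hkT : (k⁻¹)ᵀ * kᵀ = 1 := by rw [← Matrix.transpose_mul, hkk, Matrix.transpose_one]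
  refine ⟨k⁻¹ * c * k, ?_, ?_, ?_⟩
  · rw [Matrix.det_mul, Matrix.det_mul]
    exact ((Matrix.isUnit_nonsing_inv_det k hk).mul hc).mul hk
  · show (k⁻¹ * c * k)ᵀ * A' * (k⁻¹ * c * k) = t • A'
    rw [e, Matrix.transpose_mul, Matrix.transpose_mul]
    calc kᵀ * (cᵀ * (k⁻¹)ᵀ) * (kᵀ * A * k) * (k⁻¹ * c * k)
        = kᵀ * cᵀ * ((k⁻¹)ᵀ * kᵀ) * A * (k * k⁻¹) * c * k := by simp only [Matrix.mul_assoc]
      _ = kᵀ * (cᵀ * A * c) * k := by
          rw [hkT, hkk]; simp only [Matrix.mul_assoc, Matrix.mul_one]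
      _ = t • (kᵀ * A * k) := by
          rw [h1, Matrix.mul_smul, Matrix.smul_mul, Matrix.mul_assoc]
  · show (k⁻¹ * c * k).det = d
    rw [Matrix.det_mul, Matrix.det_mul, mul_comm, ← mul_assoc, ← Matrix.det_mul, hkk,
      Matrix.det_one, one_mul]
    exact h2

theorem simPairs_cong (A A' k : Matrix ι ι F) (hk : IsUnit k.det) (e : A' = kᵀ * A * k) :
    simPairs A' = simPairs A := by
  apply Set.Subset.antisymm
  · apply simPairs_cong_le A' A k⁻¹ (Matrix.isUnit_nonsing_inv_det k hk)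
    have hkk : k * k⁻¹ = 1 := Matrix.mul_nonsing_inv k hk
    have hkT : (k⁻¹)ᵀ * kᵀ = 1 := by rw [← Matrix.transpose_mul, hkk, Matrix.transpose_one]
    rw [e]
    calc A = ((k⁻¹)ᵀ * kᵀ) * A * (k * k⁻¹) := by rw [hkT, hkk, Matrix.one_mul, Matrix.mul_one]
      _ = (k⁻¹)ᵀ * (kᵀ * A * k) * k⁻¹ := by simp only [Matrix.mul_assoc]
  · exact simPairs_cong_le A A' k hk e

theorem simPairs_reindex_le (A : Matrix ι ι F) (e : κ ≃ ι) :
    simPairs A ⊆ simPairs (A.submatrix e e) := by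
  rintro ⟨t, d⟩ ⟨c, hc, h1, h2⟩
  refine ⟨c.submatrix e e, ?_, ?_, ?_⟩
  · rw [Matrix.det_submatrix_equiv_self]; exact hc
  · show (c.submatrix e e)ᵀ * A.submatrix e e * c.submatrix e e = t • A.submatrix e e
    rw [Matrix.transpose_submatrix, Matrix.submatrix_mul_equiv, Matrix.submatrix_mul_equiv, h1,
      Matrix.submatrix_smul]
    rfl
  · show (c.submatrix e e).det = d
    rw [Matrix.det_submatrix_equiv_self]; exact h2

theorem simPairs_reindex (A : Matrix ι ι F) (e : κ ≃ ι) :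
    simPairs (A.submatrix e e) = simPairs A := by
  apply Set.Subset.antisymm
  · have h := simPairs_reindex_le (A.submatrix e e) e.symm
    have h' : (A.submatrix e e).submatrix e.symm e.symm = A := by
      ext i j
      simp
    rwa [h'] at h
  · exact simPairs_reindex_le A e

theorem simPairs_mul (A : Matrix ι ι F) {p p' : F × F} (hp : p ∈ simPairs A)
    (hp' : p' ∈ simPairs A) : (p.1 * p'.1, p.2 * p'.2) ∈ simPairs A := by
  obtain ⟨c, hc, h1, h2⟩ := hp
  obtain ⟨c', hc', h1', h2'⟩ := hp'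
  refine ⟨c * c', ?_, ?_, ?_⟩
  · rw [Matrix.det_mul]; exact hc.mul hc'
  · show (c * c')ᵀ * A * (c * c') = (p.1 * p'.1) • A
    calc (c * c')ᵀ * A * (c * c') = c'ᵀ * (cᵀ * A * c) * c' := by
          rw [Matrix.transpose_mul]; simp only [Matrix.mul_assoc]
      _ = (p.1 * p'.1) • A := by
          rw [h1, Matrix.mul_smul, Matrix.smul_mul, h1', smul_smul]
  · show (c * c').det = p.2 * p'.2
    rw [Matrix.det_mul, h2, h2']

theorem det_sq_of_sim (g c : Matrix ι ι F) (t : F) (hg : IsUnit g.det)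
    (h : cᵀ * g * c = t • g) : c.det ^ 2 = t ^ Fintype.card ι := by
  have h1 := congrArg Matrix.det h
  rw [Matrix.det_mul, Matrix.det_mul, Matrix.det_transpose, Matrix.det_smul] at h1
  apply mul_right_cancel₀ hg.ne_zero
  linear_combination h1

end general

section symp

variable (m : ℕ)

theorem symp_pair (x : F) (hx : x ≠ 0) : (x, x ^ m) ∈ simPairs (Matrix.J (Fin m) F) := by
  have hdet : (Matrix.fromBlocks (x • (1 : Matrix (Fin m) (Fin m) F)) 0 0 (1 : Matrix (Fin m) (Fin m) F)).det = x ^ m := by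
    rw [Matrix.det_fromBlocks_zero₂₁, Matrix.det_smul, Matrix.det_one, mul_one,
      mul_one, Fintype.card_fin]
  refine ⟨Matrix.fromBlocks (x • (1 : Matrix (Fin m) (Fin m) F)) 0 0 (1 : Matrix (Fin m) (Fin m) F), ?_, ?_, hdet⟩
  · rw [hdet]
    exact (pow_ne_zero _ hx).isUnit
  · show (Matrix.fromBlocks (x • (1 : Matrix (Fin m) (Fin m) F)) 0 0 (1 : Matrix (Fin m) (Fin m) F))ᵀ * Matrix.J (Fin m) F
      * Matrix.fromBlocks (x • (1 : Matrix (Fin m) (Fin m) F)) 0 0 (1 : Matrix (Fin m) (Fin m) F) = x • Matrix.J (Fin m) F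
    rw [Matrix.J, Matrix.fromBlocks_transpose, Matrix.fromBlocks_multiply,
      Matrix.fromBlocks_multiply, Matrix.fromBlocks_smul]
    simp

theorem symp_det (t d : F) (ht : t ≠ 0) (h : (t, d) ∈ simPairs (Matrix.J (Fin m) F)) :
    d = t ^ m := by
  obtain ⟨c, hc, h2, h3⟩ := simPairs_mul _ h (symp_pair m t⁻¹ (inv_ne_zero ht))
  simp only at h2 h3
  rw [mul_inv_cancel₀ ht, one_smul] at h2
  have h4 : c ∈ Matrix.symplecticGroup (Fin m) F := SymplecticGroup.mem_iff'.2 h2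
  have h5 := SymplecticGroup.det_eq_one h4
  rw [h3, inv_pow] at h5
  have ht' : t ^ m ≠ 0 := pow_ne_zero _ ht
  field_simp at h5
  exact h5

end symp

section sym

open Cfsg.Agent.Lib.Helper45.OmegaAutMain Cfsg.Agent.Lib.Helper45.OmegaAut

theorem refl_pair [Fintype F] (h2 : (2 : F) ≠ 0) {N : ℕ} (hN : 0 < N) (g : Matrix (Fin N) (Fin N) F)
    (hg : gᵀ = g) (hd : IsUnit g.det) : ((1 : F), (-1 : F)) ∈ simPairs g := by
  classical
  have hg0 : g ≠ 0 := by
    rintro rfl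
    have : Nonempty (Fin N) := ⟨⟨0, hN⟩⟩
    rw [Matrix.det_zero] at hd
    exact not_isUnit_zero hd
  have hv : ∃ v : Fin N → F, v ⬝ᵥ g *ᵥ v ≠ 0 := by
    by_contra hcon
    apply hg0
    apply eq_zero_of_forall_dot h2 g hg
    intro v
    by_contra hv
    exact hcon ⟨v, hv⟩
  obtain ⟨v, hv⟩ := hv
  have hQv : qf g v ≠ 0 := by rw [qf_apply]; exact hv
  set r : GL (Fin N) F :=
    ((rfl' (qf g) v : ↥(Cfsg.Geo.quadSimilarityGroup (F := F) ⇑(qf g))) : GL (Fin N) F) with hr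
  have hiso : ∀ x, (qf g) ((r : Matrix (Fin N) (Fin N) F) *ᵥ x) = qf g x :=
    (mem_iso_iff' _ _).1 (rfl'_mem_iso (qf g) v)
  have hdet : (r : Matrix (Fin N) (Fin N) F).det = -1 := by
    have h3 := congrArg (fun t : Fˣ => (t : F)) (det_rfl' (qf g) hQv)
    simpa [Matrix.GeneralLinearGroup.val_det_apply] using h3
  refine ⟨(r : Matrix (Fin N) (Fin N) F), ?_, ?_, hdet⟩
  · rw [hdet]; exact isUnit_one.neg
  · show (r : Matrix (Fin N) (Fin N) F)ᵀ * g * (r : Matrix (Fin N) (Fin N) F) = (1 : F) • g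
    rw [one_smul]
    have hsymm : ((r : Matrix (Fin N) (Fin N) F)ᵀ * g * (r : Matrix (Fin N) (Fin N) F) - g)ᵀ
        = (r : Matrix (Fin N) (Fin N) F)ᵀ * g * (r : Matrix (Fin N) (Fin N) F) - g := by
      rw [Matrix.transpose_sub, Matrix.transpose_mul, Matrix.transpose_mul,
        Matrix.transpose_transpose, hg, Matrix.mul_assoc]
    have h0 := eq_zero_of_forall_dot h2 _ hsymm (fun x => by
      rw [Matrix.sub_mulVec, dotProduct_sub, ← dot_conj, ← qf_apply, ← qf_apply, hiso, sub_self])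
    exact sub_eq_zero.1 h0

theorem sym_pairs [Fintype F] (h2 : (2 : F) ≠ 0) {N m : ℕ} (hNm : N = 2 * m) (hm : 0 < m)
    (g : Matrix (Fin N) (Fin N) F) (hg : gᵀ = g) (hd : IsUnit g.det) (x : F) (hx : x ≠ 0) :
    (x, x ^ m) ∈ simPairs g ∧ (x, -x ^ m) ∈ simPairs g := by
  have hd' : IsUnit (x • g).det := by
    rw [Matrix.det_smul]
    exact ((pow_ne_zero _ hx).isUnit).mul hd
  have hxN : x ^ N = x ^ m * x ^ m := by rw [hNm, two_mul, pow_add]
  have hsq : IsSquare (g.det * (x • g).det) :=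
    ⟨x ^ m * g.det, by rw [Matrix.det_smul, Fintype.card_fin, hxN]; ring⟩
  obtain ⟨k, hk, e⟩ := cong_of_det h2 g (x • g) hg (by rw [Matrix.transpose_smul, hg]) hd hd' hsq
  have hmem : (x, k.det) ∈ simPairs g := ⟨k, hk, e.symm, rfl⟩
  have hsqk := det_sq_of_sim g k x hd e.symm
  rw [Fintype.card_fin, hxN, ← pow_two] at hsqk
  have hrefl := refl_pair h2 (by omega) g hg hd
  have hneg : (x, -k.det) ∈ simPairs g := by
    have h3 := simPairs_mul g hmem hrefl
    simpa using h3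
  rcases sq_eq_sq_iff_eq_or_eq_neg.1 hsqk with h | h
  · rw [h] at hmem hneg
    exact ⟨hmem, hneg⟩
  · rw [h] at hmem hneg
    rw [neg_neg] at hneg
    exact ⟨hneg, hmem⟩

end sym

section counts

variable {n : ℕ}

theorem scalar_pair {ι : Type*} [Fintype ι] [DecidableEq ι] (g : Matrix ι ι F) (s : F)
    (hs : s ≠ 0) : (s * s, s ^ Fintype.card ι) ∈ simPairs g := by
  have hdet : (s • (1 : Matrix ι ι F)).det = s ^ Fintype.card ι := by
    rw [Matrix.det_smul, Matrix.det_one, mul_one]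
  refine ⟨s • 1, ?_, ?_, hdet⟩
  · rw [hdet]; exact (pow_ne_zero _ hs).isUnit
  · show (s • (1 : Matrix ι ι F))ᵀ * g * (s • 1) = (s * s) • g
    rw [Matrix.transpose_smul, Matrix.transpose_one, Matrix.smul_mul, Matrix.one_mul,
      Matrix.mul_smul, Matrix.mul_one, smul_smul]

/-- the split count of `cτ * cGL g` through the determinants of the similitudes of `g` -/
theorem count_of (hn : 2 ≤ n) (g : GL (Fin n) F) (N : Subgroup Fˣ)
    (h1 : ∀ t d : Fˣ, ((t : F), (d : F)) ∈ simPairs (g : Matrix (Fin n) (Fin n) F) → d ∈ N)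
    (h2 : ∀ u ∈ N, ∃ t : Fˣ, ((t : F), (u : F)) ∈ simPairs (g : Matrix (Fin n) (Fin n) F)) :
    Cfsg.splitClassCount (Cfsg.inndiagPSL n F)
      (Cfsg.Inn (Matrix.ProjectiveSpecialLinearGroup (Fin n) F)) (cτ * cGL g) = N.index := by
  apply Cfsg.Agent.Lib.Helper43.PSLnSplit.splitCount_eq hn
  · intro c hc
    obtain ⟨t, ht⟩ := (commute_iff hn g c).1 hc.eq
    exact h1 t _ ⟨c, isUnit_det_coe c, ht, (Matrix.GeneralLinearGroup.val_det_apply c).symm⟩
  · intro u hu
    obtain ⟨t, c, hc, h3, h4⟩ := h2 u hu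
    refine ⟨Matrix.GeneralLinearGroup.mkOfDetNeZero c hc.ne_zero,
      (commute_iff hn g _).2 ⟨t, h3⟩, Units.ext ?_⟩
    rw [Matrix.GeneralLinearGroup.val_det_apply]
    exact h4

theorem root_odd (hodd : Odd n) (d t : Fˣ) (h : d ^ 2 = t ^ n) : ∃ s : Fˣ, d = s ^ n := by
  obtain ⟨k, hk⟩ := hodd
  set s₀ : Fˣ := d / t ^ k with hs₀
  have h1 : s₀ ^ 2 = t := by
    rw [hs₀, div_pow, h, hk, ← pow_mul, pow_succ, mul_comm k 2]
    exact mul_div_cancel_left _ _
  have h2 : ((d : F)) ^ 2 = ((s₀ : F) ^ n) ^ 2 := by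
    rw [← pow_mul, mul_comm, pow_mul, ← Units.val_pow_eq_pow_val, ← Units.val_pow_eq_pow_val,
      ← Units.val_pow_eq_pow_val, h1, h]
  rcases sq_eq_sq_iff_eq_or_eq_neg.1 h2 with h3 | h3
  · exact ⟨s₀, Units.ext (by rw [h3, Units.val_pow_eq_pow_val])⟩
  · refine ⟨-s₀, Units.ext ?_⟩
    rw [h3, Units.val_pow_eq_pow_val, Units.val_neg, Odd.neg_pow ⟨k, hk⟩]

theorem root_char2 [Finite F] [CharP F 2] (d t : Fˣ) (h : d ^ 2 = t ^ n) :
    ∃ s : Fˣ, d = s ^ n := by
  obtain ⟨s, hs⟩ := exists_sqrt (t : F)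
  have hs0 : s ≠ 0 := by
    rintro rfl
    rw [zero_pow two_ne_zero] at hs
    exact t.ne_zero hs.symm
  refine ⟨Units.mk0 s hs0, Units.ext ?_⟩
  rw [Units.val_pow_eq_pow_val, Units.val_mk0]
  apply sq_inj
  rw [← Units.val_pow_eq_pow_val, h, Units.val_pow_eq_pow_val, ← hs]
  ring

/-- no restriction: the count is `gcd(n, q - 1)` -/
theorem count_general [Finite F] (hn : 2 ≤ n) (g : GL (Fin n) F)
    (hroot : ∀ d t : Fˣ, d ^ 2 = t ^ n → ∃ s : Fˣ, d = s ^ n) :
    Cfsg.splitClassCount (Cfsg.inndiagPSL n F)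
      (Cfsg.Inn (Matrix.ProjectiveSpecialLinearGroup (Fin n) F)) (cτ * cGL g)
      = Nat.gcd (Nat.card Fˣ) n := by
  rw [← IsCyclic.index_powMonoidHom_range]
  apply count_of hn g
  · intro t d h
    obtain ⟨c, hc, h3, h4⟩ := h
    have h5 := det_sq_of_sim _ c (t : F) (isUnit_det_coe g) h3
    rw [Fintype.card_fin] at h5
    simp only at h4
    rw [h4] at h5
    obtain ⟨s, hs⟩ := hroot d t (Units.ext (by
      rw [Units.val_pow_eq_pow_val, Units.val_pow_eq_pow_val]; exact h5))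
    exact ⟨s, hs.symm⟩
  · rintro u ⟨s, rfl⟩
    refine ⟨s * s, ?_⟩
    have h3 := scalar_pair (g : Matrix (Fin n) (Fin n) F) (s : F) s.ne_zero
    rw [Fintype.card_fin] at h3
    rw [powMonoidHom_apply, Units.val_mul, Units.val_pow_eq_pow_val]
    exact h3

/-- symplectic type: the count is `gcd(m, q - 1)` -/
theorem count_skew [Finite F] (h2 : (2 : F) ≠ 0) {m : ℕ} (hn : 2 ≤ n) (hnm : n = 2 * m)
    (g : GL (Fin n) F)
    (hs : (g : Matrix (Fin n) (Fin n) F)ᵀ = -(g : Matrix (Fin n) (Fin n) F)) :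
    Cfsg.splitClassCount (Cfsg.inndiagPSL n F)
      (Cfsg.Inn (Matrix.ProjectiveSpecialLinearGroup (Fin n) F)) (cτ * cGL g)
      = Nat.gcd (Nat.card Fˣ) m := by
  classical
  have hc : Fintype.card (Fin n) = Fintype.card (Fin m ⊕ Fin m) := by
    simp [hnm]; omega
  let e : Fin n ≃ Fin m ⊕ Fin m := Fintype.equivOfCardEq hc
  have hJs : ((Matrix.J (Fin m) F).submatrix e e)ᵀ = -((Matrix.J (Fin m) F).submatrix e e) := by
    rw [Matrix.transpose_submatrix, Matrix.J_transpose]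
    rfl
  have hJd : IsUnit ((Matrix.J (Fin m) F).submatrix e e).det := by
    rw [Matrix.det_submatrix_equiv_self]
    exact Matrix.isUnit_det_J (Fin m) F
  obtain ⟨k, hk, ek⟩ := skew_cong h2 _ _ hJs hs hJd (isUnit_det_coe g)
  have hP : simPairs (g : Matrix (Fin n) (Fin n) F) = simPairs (Matrix.J (Fin m) F) := by
    rw [simPairs_cong _ _ k hk ek, simPairs_reindex]
  rw [← IsCyclic.index_powMonoidHom_range]
  apply count_of hn g
  · intro t d h
    rw [hP] at h
    have h3 := symp_det m (t : F) (d : F) t.ne_zero h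
    exact ⟨t, Units.ext (by rw [powMonoidHom_apply, Units.val_pow_eq_pow_val, h3])⟩
  · rintro u ⟨s, rfl⟩
    refine ⟨s, ?_⟩
    rw [hP, powMonoidHom_apply, Units.val_pow_eq_pow_val]
    exact symp_pair m (s : F) s.ne_zero

/-- orthogonal type: the count is `gcd(m, (q - 1)/2)` -/
theorem count_sym [Fintype F] (h2 : (2 : F) ≠ 0) {m M : ℕ} (hn : 2 ≤ n) (hnm : n = 2 * m)
    (hM : 2 * M = Nat.card Fˣ) (g : GL (Fin n) F)
    (hs : (g : Matrix (Fin n) (Fin n) F)ᵀ = (g : Matrix (Fin n) (Fin n) F)) :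
    Cfsg.splitClassCount (Cfsg.inndiagPSL n F)
      (Cfsg.Inn (Matrix.ProjectiveSpecialLinearGroup (Fin n) F)) (cτ * cGL g)
      = Nat.gcd m M := by
  have hm : 0 < m := by omega
  have hcard : Nat.card (Subgroup.zpowers (-1 : Fˣ)) * M = Nat.card Fˣ := by
    rw [Nat.card_zpowers]
    have : Fact (Nat.Prime 2) := ⟨Nat.prime_two⟩
    have ho : orderOf (-1 : Fˣ) = 2 := by
      apply orderOf_eq_prime
      · exact neg_one_sq
      · intro h
        have h3 := congrArg (fun t : Fˣ => (t : F)) h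
        simp only [Units.val_neg, Units.val_one] at h3
        apply h2
        linear_combination -h3
    rw [ho, hM]
  rw [← Cfsg.Agent.Lib.Helper43.CycIndex.index_sup_pow m M (Subgroup.zpowers (-1 : Fˣ)) hcard]
  apply count_of hn g
  · intro t d h
    obtain ⟨c, hc, h3, h4⟩ := h
    have h5 := det_sq_of_sim _ c (t : F) (isUnit_det_coe g) h3
    simp only at h4
    rw [Fintype.card_fin, h4, hnm, pow_mul'] at h5
    rcases sq_eq_sq_iff_eq_or_eq_neg.1 h5 with h6 | h6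
    · apply Subgroup.mem_sup_left
      exact ⟨t, Units.ext (by rw [powMonoidHom_apply, Units.val_pow_eq_pow_val, h6])⟩
    · have : d = t ^ m * (-1) := Units.ext (by
        rw [Units.val_mul, Units.val_pow_eq_pow_val, Units.val_neg, Units.val_one, h6]; ring)
      rw [this]
      exact Subgroup.mul_mem_sup ⟨t, rfl⟩ (Subgroup.mem_zpowers _)
  · intro u hu
    obtain ⟨y, ⟨x, rfl⟩, z, hz, rfl⟩ := Subgroup.mem_sup.1 hu
    obtain ⟨j, rfl⟩ := Subgroup.mem_zpowers_iff.1 hz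
    have hp := sym_pairs h2 hnm hm (g : Matrix (Fin n) (Fin n) F) hs (isUnit_det_coe g) (x : F) x.ne_zero
    refine ⟨x, ?_⟩
    rcases Int.even_or_odd j with hj | hj
    · rw [hj.neg_one_zpow, mul_one, powMonoidHom_apply, Units.val_pow_eq_pow_val]
      exact hp.1
    · rw [hj.neg_one_zpow, powMonoidHom_apply, Units.val_mul, Units.val_pow_eq_pow_val,
        Units.val_neg, Units.val_one, mul_neg, mul_one]
      exact hp.2

end counts

end Cfsg.Agent.Lib.Helper45.GraphSplit
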