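import Mathlib
import Cfsg.Agent.Lib.Helper45.MAutStmt
import Cfsg.Agent.Lib.Helper45.SplitOut
import Cfsg.Agent.Lib.Helper45.SemiAut

set_option autoImplicit false

/-! Assembly for S0818 (`|Aut(PΩ⁻_{2m}(q))|`) from the pieces of `MAutStmt`. -/

namespace Cfsg.Agent.Lib.Helper45.MAut

open Matrix
open Cfsg.Agent.Lib.Helper45.OmegaAut Cfsg.Agent.Lib.Helper45.SemiAut
open Cfsg.Agent.Lib.Helper44.MFld0 Cfsg.Agent.Lib.Helper44.MFldStmt
open Cfsg.Agent.Lib.Helper45.MAutStmt Cfsg.Agent.Lib.Helper45.SplitOut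

universe u

/-- counting a finite group by a transversal of a subgroup `P` and a subgroup `I ≤ P` -/
theorem count {A : Type*} [Group A] [Finite A] (I P : Subgroup A) {X : Type*} (t : X → A)
    (hIP : I ≤ P) (hcov : ∀ β : A, ∃ x, β * (t x)⁻¹ ∈ P)
    (hsep : ∀ x y, t x * (t y)⁻¹ ∈ P → x = y) :
    Nat.card A = Nat.card X * I.relIndex P * Nat.card I := by
  have hidx : P.index = Nat.card X := by
    unfold Subgroup.index
    symm
    apply Nat.card_congr
    refine Equiv.ofBijective (fun x => (QuotientGroup.mk (t x)⁻¹ : A ⧸ P)) ⟨?_, ?_⟩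
    · intro x y hxy
      have h1 := QuotientGroup.eq.mp hxy
      rw [inv_inv] at h1
      exact hsep x y h1
    · intro q
      induction q using QuotientGroup.induction_on with
      | H β =>
        obtain ⟨x, hx⟩ := hcov β⁻¹
        refine ⟨x, ?_⟩
        apply QuotientGroup.eq.mpr
        have h1 := P.inv_mem hx
        simpa using h1
  have h1 : P.index * Nat.card P = Nat.card A := Subgroup.index_mul_card P
  have h2 : (I.subgroupOf P).index * Nat.card (I.subgroupOf P) = Nat.card P :=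
    Subgroup.index_mul_card _
  have h3 : Nat.card (I.subgroupOf P) = Nat.card I :=
    Nat.card_congr (Subgroup.subgroupOfEquivOfLe hIP).toEquiv
  have h4 : I.relIndex P = (I.subgroupOf P).index := rfl
  rw [← h1, hidx, ← h2, h3, h4]
  ring

theorem arith (m q : ℕ) (hq : Odd q) (hm : 1 ≤ m) :
    (if Even (m - 1) ∧ q % 4 = 3 then 8 else 4) = (if Even (m * (q - 1) / 2) then 4 else 8) := by
  obtain ⟨k, rfl⟩ := hq
  have e : m * (2 * k + 1 - 1) / 2 = m * k := by
    rw [Nat.add_sub_cancel, ← mul_assoc, mul_comm m 2, mul_assoc,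
      Nat.mul_div_cancel_left _ (by norm_num : 0 < 2)]
  have key : Even (m * (2 * k + 1 - 1) / 2) ↔ (m % 2 = 0 ∨ k % 2 = 0) := by
    rw [e, Nat.even_mul, Nat.even_iff, Nat.even_iff]
  have key2 : (Even (m - 1) ∧ (2 * k + 1) % 4 = 3) ↔ (m % 2 = 1 ∧ k % 2 = 1) := by
    rw [Nat.even_iff]
    omega
  simp only [key, key2]
  split_ifs with h1 h2 <;> omega

theorem assembly (hGS : GammaSemi.{u}) (hSS : SemiSame.{u}) (hSU : SemiUniq.{u})
    (hSE : SemiExists.{u}) (hIso : IsoMinus.{u}) (hKP : KerPhiMinus.{u}) (hIC : InnCard.{u})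
    (hIO : IndexOdd.{u}) (hI2 : IndexTwo.{u})
    {F : Type u} [Field F] [Fintype F] (p f : ℕ) [Fact p.Prime] (hf : 1 ≤ f)
    (hF : Fintype.card F = p ^ f) (m : ℕ) (hm : 4 ≤ m) (a b : F) (hab : Aniso a b)
    (hΓ : Cfsg.gammaPOmega F (Cfsg.quadFormMinus (m - 1) F a b) = ⊤) :
    Nat.card (MulAut (Cfsg.POmega F (Cfsg.quadFormMinus (m - 1) F a b))) =
      (if p = 2 then 2 else (if Even (m * (p ^ f - 1) / 2) then 4 else 8)) * f *
        Nat.card (Cfsg.POmega F (Cfsg.quadFormMinus (m - 1) F a b)) := by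
  have hm3 : 3 ≤ m - 1 := by omega
  choose gσ hgσ using hSE hIso F (m - 1) a b hab
  have hcov : ∀ β : MulAut (Cfsg.POmega F (Cfsg.quadFormMinus (m - 1) F a b)),
      ∃ σ : F ≃+* F, β * (semiP (gσ σ) σ (hgσ σ))⁻¹ ∈
        (Phi (Cfsg.quadFormMinus (m - 1) F a b)).range := by
    intro β
    obtain ⟨g, σ, h, rfl⟩ := hGS F _ (Cfsg.quadFormMinus (m - 1) F a b) β (by rw [hΓ]; trivial)
    exact ⟨σ, hSS F _ _ g (gσ σ) σ h (hgσ σ)⟩
  have hsep : ∀ σ σ' : F ≃+* F, semiP (gσ σ) σ (hgσ σ) * (semiP (gσ σ') σ' (hgσ σ'))⁻¹ ∈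
      (Phi (Cfsg.quadFormMinus (m - 1) F a b)).range → σ = σ' :=
    fun σ σ' h => hSU F (m - 1) hm3 a b hab _ _ σ σ' _ _ h
  obtain ⟨-, hcardA⟩ := ringAut_cyclic_card' (F := F) hf hF
  haveI : Finite (MulAut (Cfsg.POmega F (Cfsg.quadFormMinus (m - 1) F a b))) := inferInstance
  have hc := count (Cfsg.Inn (Cfsg.POmega F (Cfsg.quadFormMinus (m - 1) F a b)))
    (Phi (Cfsg.quadFormMinus (m - 1) F a b)).range
    (fun σ : F ≃+* F => semiP (gσ σ) σ (hgσ σ)) inn_le hcov hsep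
  have hcardA' : Nat.card (F ≃+* F) = f := hcardA
  rw [hc, hcardA', hIC hKP F (m - 1) hm3 a b hab]
  have hκ : (Cfsg.Inn (Cfsg.POmega F (Cfsg.quadFormMinus (m - 1) F a b))).relIndex
      (Phi (Cfsg.quadFormMinus (m - 1) F a b)).range =
      (if p = 2 then 2 else (if Even (m * (p ^ f - 1) / 2) then 4 else 8)) := by
    by_cases hp : p = 2
    · rw [if_pos hp]
      have h2 : (2 : F) = 0 := by
        haveI : CharP F p := charP_of_card' hf hF
        have h0 := CharP.cast_eq_zero F p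
        rw [hp] at h0
        exact_mod_cast h0
      exact hI2 hKP F (m - 1) hm3 a b hab h2
    · rw [if_neg hp]
      have hpodd : Odd p := (Fact.out : p.Prime).odd_of_ne_two hp
      have hq : Odd (Fintype.card F) := by rw [hF]; exact hpodd.pow
      rw [hIO F (m - 1) hm3 a b hab hq, hF]
      exact arith m (p ^ f) hpodd.pow (by omega)
  rw [hκ]
  ring

end Cfsg.Agent.Lib.Helper45.MAut
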