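import Mathlib
import Cfsg.Prelude.Def_Classical
import Cfsg.Prelude.Def_GeometricClasses
import Cfsg.Agent.Lib.Helper37.HypStmt
import Cfsg.Agent.Lib.Helper94.OPStmt
import Cfsg.Agent.Lib.Helper45.OMiStmt

/-!
# S5991: final assembly from the pieces of `OMiStmt`.
-/

set_option autoImplicit false

universe u

open scoped Matrix

namespace Cfsg.Agent.Lib.Helper45.OMiAsm

open Cfsg.Agent.Lib.Helper37.HypStmt (cc)
open Cfsg.Agent.Lib.Helper45.OMiStmt

/-- `2 ≠ 0` in a finite field of odd order -/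
theorem two_ne_zero_m {F : Type u} [Field F] [Fintype F] (hq : Odd (Fintype.card F)) :
    (2 : F) ≠ 0 := by
  intro h
  have h1 : ringChar F ∣ 2 := (ringChar.spec F 2).mp (by exact_mod_cast h)
  have h3 : ringChar F = 2 := by
    rcases (Nat.dvd_prime Nat.prime_two).mp h1 with h4 | h4
    · exfalso
      exact CharP.ringChar_ne_one h4
    · exact h4
  have h5 := FiniteField.even_card_of_char_two h3
  rcases hq with ⟨k, hk⟩
  omega

theorem ringChar_ne_two_m {F : Type u} [Field F] [Fintype F] (hq : Odd (Fintype.card F)) :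
    ringChar F ≠ 2 := by
  intro h3
  have h5 := FiniteField.even_card_of_char_two h3
  rcases hq with ⟨k, hk⟩
  omega

theorem one_ne_neg_one_m {F : Type u} [Field F] (h2 : (2 : F) ≠ 0) {d : ℕ} :
    (1 : Matrix (M d) (M d) F) ≠ -1 := by
  intro h
  have h1 := congrFun (congrFun h (Sum.inr 0)) (Sum.inr 0)
  rw [Matrix.neg_apply, Matrix.one_apply_eq] at h1
  apply h2
  have : (2 : F) = 1 + 1 := by norm_num
  rw [this]
  nth_rewrite 1 [h1]
  ring

/-- an element of prime order `n ≠ 2` of the isometry group is not scalar -/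
theorem nonscalar_of_order_m (hScal : ScalM.{u}) {F : Type u} [Field F] [Fintype F] {d : ℕ}
    (a b : F) (x : Matrix.GeneralLinearGroup (M d) F)
    (hxi : x ∈ Cfsg.isometryGroup F (Cfsg.quadFormMinus (d - 1) F a b)) {n : ℕ}
    (hn : orderOf x = n) (hnp : n.Prime) (hn2 : n ≠ 2) :
    ∀ z : F, (x : Matrix (M d) (M d) F) ≠ z • (1 : Matrix (M d) (M d) F) := by
  intro z hz
  rcases hScal F d a b x hxi z hz with rfl | rfl
  · have hx1 : x = 1 := Units.ext (by rw [hz, one_smul]; rfl)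
    rw [hx1, orderOf_one] at hn
    exact hnp.one_lt.ne hn
  · have hx2 : x ^ 2 = 1 := by
      apply Units.ext
      rw [Units.val_pow_eq_pow_val, hz]
      simp
    have h3 := orderOf_dvd_of_pow_eq_one hx2
    rw [hn] at h3
    exact hn2 ((Nat.prime_dvd_prime_iff_eq hnp Nat.prime_two).mp h3)

theorem thm_of (hInv : InvolM.{u}) (hScal : ScalM.{u}) (hNR : NegRedM.{u})
    (hNF : NegSqNoFixM.{u}) (hNE : NegSqExM.{u}) (hNA : NegSqNonAM.{u}) (hNB : NegSqNonBM.{u})
    (hPA : PEltAM.{u}) (hPB : PEltBM.{u}) (hPC : PEltCM.{u})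
    (hFA : PFixAM.{u}) (hFB : PFixBM.{u}) (hFC : PFixCM.{u})
    (hC1 : Cls1.{u}) (hC2 : Cls2.{u})
    (hB1 : B1M.{u}) (hB2 : B2M.{u}) (hND : NDivM.{u})
    {F : Type u} [Field F] [Fintype F] {p : ℕ} [Fact p.Prime] [CharP F p]
    (hodd : Odd (Fintype.card F)) (d m : ℕ) (hd : 4 ≤ d) (hm : Odd m) (hmd : m < d)
    (a b : F) (hab : ∀ x y : F, x ^ 2 + a * x * y + b * y ^ 2 = 0 → x = 0 ∧ y = 0)
    (W₀ : Submodule F ((Fin (d - 1) ⊕ Fin (d - 1)) ⊕ Fin 2 → F))
    (hW₀ : Module.finrank F ↥W₀ = m ∧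
      Cfsg.Geo.IsNondegenerateOn (QuadraticMap.polar (Cfsg.quadFormMinus (d - 1) F a b)) W₀)
    (r : ℕ) [Fact r.Prime]
    (hrΩ : r ∣ Nat.card {W : Submodule F ((Fin (d - 1) ⊕ Fin (d - 1)) ⊕ Fin 2 → F) //
      Module.finrank F ↥W = m ∧
      Cfsg.Geo.IsNondegenerateOn (QuadraticMap.polar (Cfsg.quadFormMinus (d - 1) F a b)) W ∧
      Cfsg.Geo.AreIsometricFor (Cfsg.quadFormMinus (d - 1) F a b) W W₀})
    (i c : ℕ) (hi : i = orderOf ((Fintype.card F : ℕ) : ZMod r))
    (hc : c = if Even i then i else 2 * i) :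
    (∀ x : Matrix.GeneralLinearGroup ((Fin (d - 1) ⊕ Fin (d - 1)) ⊕ Fin 2) F,
      x ∈ Cfsg.Geo.omegaGL (Cfsg.quadFormMinus (d - 1) F a b) →
      (∃ z : F, ((x ^ r : Matrix.GeneralLinearGroup ((Fin (d - 1) ⊕ Fin (d - 1)) ⊕ Fin 2) F) :
        Matrix ((Fin (d - 1) ⊕ Fin (d - 1)) ⊕ Fin 2) ((Fin (d - 1) ⊕ Fin (d - 1)) ⊕ Fin 2) F) =
          z • (1 : Matrix ((Fin (d - 1) ⊕ Fin (d - 1)) ⊕ Fin 2)
            ((Fin (d - 1) ⊕ Fin (d - 1)) ⊕ Fin 2) F)) →
      (∀ z : F, (x : Matrix ((Fin (d - 1) ⊕ Fin (d - 1)) ⊕ Fin 2)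
          ((Fin (d - 1) ⊕ Fin (d - 1)) ⊕ Fin 2) F) ≠
        z • (1 : Matrix ((Fin (d - 1) ⊕ Fin (d - 1)) ⊕ Fin 2)
          ((Fin (d - 1) ⊕ Fin (d - 1)) ⊕ Fin 2) F)) →
      ∃ W : Submodule F ((Fin (d - 1) ⊕ Fin (d - 1)) ⊕ Fin 2 → F), (Module.finrank F ↥W = m ∧
        Cfsg.Geo.IsNondegenerateOn (QuadraticMap.polar (Cfsg.quadFormMinus (d - 1) F a b)) W ∧
        Cfsg.Geo.AreIsometricFor (Cfsg.quadFormMinus (d - 1) F a b) W W₀) ∧
        W.map (Matrix.toLin' (x : Matrix ((Fin (d - 1) ⊕ Fin (d - 1)) ⊕ Fin 2)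
          ((Fin (d - 1) ⊕ Fin (d - 1)) ⊕ Fin 2) F)) ≤ W) ↔
    ((r = 2 ∧ (Even d ∨ Fintype.card F % 8 ≠ 7)) ∨
     (r ≠ p ∧ 2 < r ∧ Odd i ∧ ((2 * d) % c = 0 ∨ (c ≤ m ∧ 0 < m % c ∧ m % c < (2 * d) % c))) ∨
     (r ≠ p ∧ 2 < r ∧ Even i ∧ (((2 * d) % c = 0 ∧ Even ((2 * d) / i)) ∨
       (0 < (2 * d) % c ∧ i ≤ m ∧ 0 < m % c ∧ m % c < (2 * d) % c)))) := by
  have hcc : c = cc i := hc
  subst hcc
  subst hi
  have hA : Aniso a b := hab
  have hrpr : r.Prime := Fact.out
  have hppr : p.Prime := Fact.out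
  have hd1 : 1 ≤ d := by omega
  have h2 : (2 : F) ≠ 0 := two_ne_zero_m hodd
  have hp2 : p ≠ 2 := by
    intro h
    apply h2
    have := CharP.cast_eq_zero F p
    rw [h] at this
    exact_mod_cast this
  have hiso : ∀ x : Matrix.GeneralLinearGroup (M d) F,
      x ∈ Cfsg.Geo.omegaGL (Cfsg.quadFormMinus (d - 1) F a b) →
      x ∈ Cfsg.isometryGroup F (Cfsg.quadFormMinus (d - 1) F a b) := by
    intro x hx
    obtain ⟨y, -, rfl⟩ := hx
    exact y.2
  by_cases hr2 : r = 2
  · subst hr2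
    constructor
    · intro hL
      left
      refine ⟨rfl, ?_⟩
      by_contra hcon
      have hdo : Odd d := by
        by_contra hde
        exact hcon (Or.inl (Nat.not_odd_iff_even.mp hde))
      have h7 : Fintype.card F % 8 = 7 := by
        by_contra h8
        exact hcon (Or.inr h8)
      obtain ⟨x, hxΩ, hxx⟩ := hNE F h7 d hdo a b hA
      have hxi := hiso x hxΩ
      have hsq : ((x ^ 2 : Matrix.GeneralLinearGroup (M d) F) : Matrix (M d) (M d) F) =
          (-1 : F) • (1 : Matrix (M d) (M d) F) := by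
        rw [Units.val_pow_eq_pow_val, pow_two, hxx]
        simp
      have hns : ∀ z : F, (x : Matrix (M d) (M d) F) ≠ z • (1 : Matrix (M d) (M d) F) := by
        intro z hz
        have hzz : (1 : Matrix (M d) (M d) F) = -1 := by
          rw [← hxx, hz]
          rcases hScal F d a b x hxi z hz with rfl | rfl <;> simp
        exact one_ne_neg_one_m h2 hzz
      obtain ⟨W, hW, hS⟩ := hL x hxΩ ⟨-1, hsq⟩ hns
      exact hNF F hodd d m a b hm x hxi hxx W hW.1 hW.2.1 hS
    · rintro (⟨-, hE⟩ | ⟨-, h, -⟩ | ⟨-, h, -⟩)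
      · intro x hxΩ ⟨z, hz⟩ hns
        have hxi := hiso x hxΩ
        have hx2i : x ^ 2 ∈ Cfsg.isometryGroup F (Cfsg.quadFormMinus (d - 1) F a b) :=
          Subgroup.pow_mem _ hxi 2
        rcases hScal F d a b (x ^ 2) hx2i z hz with rfl | rfl
        · have hxx : (x : Matrix (M d) (M d) F) * (x : Matrix (M d) (M d) F) = 1 := by
            rw [← pow_two, ← Units.val_pow_eq_pow_val, hz, one_smul]
          obtain ⟨W, hW, hS⟩ := hInv F hodd d m hd1 a b hA hm hmd W₀ hW₀.1 hW₀.2 x hxi hxx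
          exact ⟨W, hW, hS⟩
        · exfalso
          have hxx : (x : Matrix (M d) (M d) F) * (x : Matrix (M d) (M d) F) = -1 := by
            rw [← pow_two, ← Units.val_pow_eq_pow_val, hz]
            simp
          by_cases hA' : Even d ∨ Fintype.card F % 4 = 1
          · exact hNA F hodd d hd1 hA' a b hA x hxΩ hxx
          · have hdo : Odd d := by
              by_contra hde
              exact hA' (Or.inl (Nat.not_odd_iff_even.mp hde))
            have h3 : Fintype.card F % 8 = 3 := by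
              have h41 : ¬ Fintype.card F % 4 = 1 := fun h => hA' (Or.inr h)
              have h87 : Fintype.card F % 8 ≠ 7 := by
                rcases hE with hde | h87
                · exfalso
                  exact (Nat.not_even_iff_odd.mpr hdo) hde
                · exact h87
              obtain ⟨t, ht⟩ := hodd
              omega
            exact hNB F h3 d hd1 hdo a b hA x hxΩ hxx
      · omega
      · omega
  · have h2r : 2 < r := by
      have := hrpr.two_le
      omega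
    by_cases hrp : r = p
    · constructor
      · intro hL
        exfalso
        rcases Nat.even_or_odd d with hde | hdo
        · -- `d` even: two elements of type `J_3 + J_1 + J_2 ^ (d - 2)` with different `Q u₁`
          obtain ⟨ν, hν⟩ := FiniteField.exists_nonsquare (ringChar_ne_two_m hodd)
          have hν0 : ν ≠ 0 := by
            rintro rfl
            exact hν ⟨0, by ring⟩
          obtain ⟨x₁, hx₁Ω, hx₁p, u₁, hu₁F, hu₁Q, hu₁le, hu₁rk⟩ :=
            hPC F p hodd d (by omega) hde a b hA 1 one_ne_zero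
          obtain ⟨x₂, hx₂Ω, hx₂p, u₂, hu₂F, hu₂Q, hu₂le, hu₂rk⟩ :=
            hPC F p hodd d (by omega) hde a b hA ν hν0
          have hmem : ∀ x : Matrix.GeneralLinearGroup (M d) F,
              x ∈ Cfsg.Geo.omegaGL (Cfsg.quadFormMinus (d - 1) F a b) → orderOf x = p →
              ∃ W : Submodule F (M d → F), MemM d F a b m W₀ W ∧
                StabM (x : Matrix (M d) (M d) F) W := by
            intro x hxΩ hxp
            have hxr : x ^ r = 1 := by
              rw [hrp, ← hxp]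
              exact pow_orderOf_eq_one x
            have hsc : ∃ z : F, ((x ^ r : Matrix.GeneralLinearGroup (M d) F) :
                Matrix (M d) (M d) F) = z • (1 : Matrix (M d) (M d) F) :=
              ⟨1, by rw [hxr, one_smul]; rfl⟩
            obtain ⟨W, hW, hS⟩ := hL x hxΩ hsc
              (nonscalar_of_order_m hScal a b x (hiso x hxΩ) hxp hppr hp2)
            exact ⟨W, hW, hS⟩
          obtain ⟨W₁, hW₁, hS₁⟩ := hmem x₁ hx₁Ω hx₁p
          obtain ⟨W₂, hW₂, hS₂⟩ := hmem x₂ hx₂Ω hx₂p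
          have hQ1 : Cfsg.quadFormMinus (d - 1) F a b u₁ ≠ 0 := by
            rw [hu₁Q]
            exact one_ne_zero
          have hQ2 : Cfsg.quadFormMinus (d - 1) F a b u₂ ≠ 0 := by
            rw [hu₂Q]
            exact hν0
          have k1 := hFC F hodd d m hd1 a b hA hm x₁ (hiso x₁ hx₁Ω) u₁ hu₁F hQ1 hu₁le hu₁rk
            W₁ hW₁.1 hW₁.2.1 hS₁
          have k2 := hFC F hodd d m hd1 a b hA hm x₂ (hiso x₂ hx₂Ω) u₂ hu₂F hQ2 hu₂le hu₂rk
            W₂ hW₂.1 hW₂.2.1 hS₂
          rw [hu₁Q] at k1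
          rw [hu₂Q] at k2
          have hsq : IsSquare ((1 : F) * ν) := by
            obtain ⟨t, ht⟩ := hde
            obtain ⟨s, hs⟩ := hm
            rcases k1 with ⟨h41, hc1⟩ | ⟨h43, hc1⟩
            · rcases k2 with ⟨-, hc2⟩ | ⟨h43', -⟩
              · exact hC1 F hodd d m hd1 a b hA W₀ W₁ W₂ hW₁ hW₂ 1 ν hc1 hc2
              · omega
            · rcases k2 with ⟨h41', -⟩ | ⟨-, hc2⟩
              · omega
              · exact hC2 F hodd d m hd1 (by omega) a b hA W₀ W₁ W₂ hW₁ hW₂ 1 ν hc1 hc2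
          rw [one_mul] at hsq
          exact hν hsq
        · have key : ∃ x : Matrix.GeneralLinearGroup (M d) F,
              x ∈ Cfsg.Geo.omegaGL (Cfsg.quadFormMinus (d - 1) F a b) ∧ orderOf x = p ∧
              ∀ W : Submodule F (M d → F), Module.finrank F ↥W = m → NDegM d F a b W →
                ¬ StabM (x : Matrix (M d) (M d) F) W := by
            by_cases hm4 : m % 4 = 3
            · have hde1 : Even (d - 1) := by
                obtain ⟨t, ht⟩ := hdo
                exact ⟨t, by omega⟩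
              obtain ⟨x, hxΩ, hxp, hle, hrk⟩ :=
                hPA F p hodd d (d - 1) a b hA hde1 (by omega) le_rfl
              refine ⟨x, hxΩ, hxp, fun W hWm hWnd hS => ?_⟩
              have h5 := (hFA F hodd d m hd1 a b hA hm x (hiso x hxΩ) hle W hWm hWnd hS).2 hrk
              omega
            · obtain ⟨x, hxΩ, hxp, hle, hN3', hrk⟩ := hPB F p hodd d (by omega) hdo a b hA
              refine ⟨x, hxΩ, hxp, fun W hWm hWnd hS => ?_⟩
              exact hm4 (hFB F hodd d m hd1 a b hA hm x (hiso x hxΩ) hle hN3' hrk W hWm hWnd hS)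
          obtain ⟨x, hxΩ, hxp, hxW⟩ := key
          have hxr : x ^ r = 1 := by
            rw [hrp, ← hxp]
            exact pow_orderOf_eq_one x
          have hsc : ∃ z : F, ((x ^ r : Matrix.GeneralLinearGroup (M d) F) :
              Matrix (M d) (M d) F) = z • (1 : Matrix (M d) (M d) F) :=
            ⟨1, by rw [hxr, one_smul]; rfl⟩
          obtain ⟨W, hW, hS⟩ := hL x hxΩ hsc
            (nonscalar_of_order_m hScal a b x (hiso x hxΩ) hxp hppr hp2)
          exact hxW W hW.1 hW.2.1 hS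
      · rintro (⟨h, -⟩ | ⟨h, -⟩ | ⟨h, -⟩)
        · exact absurd h hr2
        · exact absurd hrp h
        · exact absurd hrp h
    · have hrodd : Odd r := hrpr.odd_of_ne_two hr2
      constructor
      · intro hL
        by_contra hR
        have hcond : ¬ CondM d m (orderOf ((Fintype.card F : ℕ) : ZMod r)) := by
          intro hC
          apply hR
          rcases hC with h | h
          · exact Or.inr (Or.inl ⟨hrp, h2r, h⟩)
          · exact Or.inr (Or.inr ⟨hrp, h2r, h⟩)
        have hk := hND F p hodd d m hd a b hA hm hmd W₀ hW₀.1 hW₀.2 r hr2 hrp hrΩ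
        obtain ⟨x, hxΩ, hxr, hxW⟩ :=
          hB2 F p hodd d m hd a b hA hm hmd W₀ hW₀.1 hW₀.2 r hr2 hrp hk hcond
        have hxr1 : x ^ r = 1 := by
          rw [← hxr]
          exact pow_orderOf_eq_one x
        have hsc : ∃ z : F, ((x ^ r : Matrix.GeneralLinearGroup (M d) F) :
            Matrix (M d) (M d) F) = z • (1 : Matrix (M d) (M d) F) :=
          ⟨1, by rw [hxr1, one_smul]; rfl⟩
        obtain ⟨W, hW, hS⟩ := hL x hxΩ hsc
          (nonscalar_of_order_m hScal a b x (hiso x hxΩ) hxr hrpr hr2)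
        exact hxW W hW hS
      · intro hR x hxΩ ⟨z, hz⟩ hns
        have hC : CondM d m (orderOf ((Fintype.card F : ℕ) : ZMod r)) := by
          rcases hR with ⟨h, -⟩ | ⟨-, -, h⟩ | ⟨-, -, h⟩
          · exact absurd h hr2
          · exact Or.inl h
          · exact Or.inr h
        have hxi := hiso x hxΩ
        have hxri : x ^ r ∈ Cfsg.isometryGroup F (Cfsg.quadFormMinus (d - 1) F a b) :=
          Subgroup.pow_mem _ hxi r
        rcases hScal F d a b (x ^ r) hxri z hz with rfl | rfl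
        · have hxr1 : x ^ r = 1 := Units.ext (by rw [hz, one_smul]; rfl)
          obtain ⟨W, hW, hS⟩ :=
            hB1 F p hodd d m hd a b hA hm hmd W₀ hW₀.1 hW₀.2 r hr2 hrp hC x hxi hxr1
          exact ⟨W, hW, hS⟩
        · have hneg : ((x ^ r : Matrix.GeneralLinearGroup (M d) F) : Matrix (M d) (M d) F)
              = -1 := by
            rw [hz]
            simp
          obtain ⟨y, hyi, hyr, hyS⟩ := hNR F d a b r hrodd x hxi hneg
          obtain ⟨W, hW, hS⟩ :=
            hB1 F p hodd d m hd a b hA hm hmd W₀ hW₀.1 hW₀.2 r hr2 hrp hC y hyi hyr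
          exact ⟨W, hW, (hyS W).mp hS⟩

end Cfsg.Agent.Lib.Helper45.OMiAsm
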