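import Mathlib
import Cfsg.Prelude.Def_LieTypeDatum
import Cfsg.Agent.Lib.Helper45.OrthCard
import Cfsg.Agent.Lib.Helper45.OmegaAutSim
import Cfsg.Agent.Lib.Helper43.SpGSp
import Cfsg.Agent.Lib.Helper5.SpCard

/-!
# Orders of projective conformal groups

`|PGSp_{2m}(q)| = |Sp_{2m}(q)|`, `|PGO(Q)| = |O(Q)|` (given a similarity with non-square
multiplier), and `PGO^±_{2m}(q) ≇ PGSp_{2m}(q)` for `q` odd.
-/

set_option autoImplicit false

namespace Cfsg.Agent.Lib.Helper45.ProjCard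

open Matrix
open Cfsg.Agent.Lib.Helper44.QSpace Cfsg.Agent.Lib.Helper44.NegPairs
open Cfsg.Agent.Lib.Helper45.OmegaAut Cfsg.Agent.Lib.Helper45.OmegaAutPsi
  Cfsg.Agent.Lib.Helper45.OmegaAutMain Cfsg.Agent.Lib.Helper45.OmegaAutSim

variable {F : Type*} [Field F] [Fintype F] {ι : Type} [Fintype ι] [DecidableEq ι]

theorem card_scalars [Nonempty ι] : Nat.card (Cfsg.Geo.scalars ι F) = Fintype.card F - 1 := by
  unfold Cfsg.Geo.scalars
  have hinj : Function.Injective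
      (Units.map (Matrix.scalar ι : F →+* Matrix ι ι F).toMonoidHom) := by
    apply Units.map_injective
    exact fun a b h => Matrix.scalar_inj.1 h
  rw [← Nat.card_congr (MonoidHom.ofInjective hinj).toEquiv, Nat.card_units,
    Nat.card_eq_fintype_card]

theorem card_projQuot [Nonempty ι] (S : Subgroup (GL ι F)) (hS : Cfsg.Geo.scalars ι F ≤ S) :
    Nat.card (Cfsg.projQuot S) * (Fintype.card F - 1) = Nat.card S := by
  rw [Subgroup.card_eq_card_quotient_mul_card_subgroup ((Cfsg.Geo.scalars ι F).subgroupOf S),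
    Nat.card_congr (Subgroup.subgroupOfEquivOfLe hS).toEquiv, card_scalars]

theorem card_of_mult {G : Type*} [Group G] (μ : G →* Fˣ) (hμ : Function.Surjective μ) :
    Nat.card G = Nat.card μ.ker * (Fintype.card F - 1) := by
  rw [← Subgroup.card_mul_index μ.ker, Subgroup.index_ker, MonoidHom.range_eq_top.2 hμ,
    Subgroup.card_top, Nat.card_units, Nat.card_eq_fintype_card (α := F)]

/-- a projective conformal group has the order of the kernel of its multiplier -/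
theorem card_projQuot_eq [Nonempty ι] (S : Subgroup (GL ι F)) (hS : Cfsg.Geo.scalars ι F ≤ S)
    (μ : S →* Fˣ) (hμ : Function.Surjective μ) : Nat.card (Cfsg.projQuot S) = Nat.card μ.ker := by
  have h1 := card_projQuot S hS
  rw [card_of_mult μ hμ] at h1
  have hq : 0 < Fintype.card F - 1 := by
    have := Fintype.one_lt_card (α := F)
    omega
  exact Nat.eq_of_mul_eq_mul_right hq h1

section symp

open Cfsg.Agent.Lib.Helper43.SpGSp Cfsg.Agent.Lib.Helper43.SpAuts Cfsg.Agent.Lib.Helper43.SpFrame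

/-- `|PGSp_{2m}(q)| = |Sp_{2m}(q)|` -/
theorem card_pgsp {m : ℕ} (hm : 1 ≤ m) :
    Nat.card (Cfsg.PGSp m F) = Nat.card (Matrix.symplecticGroup (Fin m) F) := by
  have : Nonempty (Fin m ⊕ Fin m) := ⟨Sum.inl ⟨0, hm⟩⟩
  have hS : Cfsg.Geo.scalars (Fin m ⊕ Fin m) F ≤ Cfsg.GSp m F := by
    intro g hg
    obtain ⟨c, hc⟩ := (Cfsg.Geo.mem_scalars_iff g).1 hg
    have : g = ((scalarGSp c : ↥(Cfsg.GSp m F)) : GL (Fin m ⊕ Fin m) F) := by
      apply Units.ext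
      rw [hc, scalarGSp_mat]
    rw [this]
    exact (scalarGSp c).2
  have hsurj : Function.Surjective (mult (F := F) hm) := by
    intro l
    exact ⟨dg (fun _ => 1) l, multU_dg hm _ l⟩
  show Nat.card (Cfsg.projQuot (Cfsg.GSp m F)) = _
  rw [card_projQuot_eq (Cfsg.GSp m F) hS (mult hm) hsurj]
  symm
  apply Nat.card_congr
  refine Equiv.ofBijective
    (fun s => ⟨toGSp s, by rw [MonoidHom.mem_ker, mult_apply]; exact multU_toGSp hm s⟩) ⟨?_, ?_⟩
  · intro s s' h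
    have h1 := congrArg (fun x : ↥(mult (F := F) hm).ker =>
      (((x : ↥(Cfsg.GSp m F)) : GL (Fin m ⊕ Fin m) F) :
        Matrix (Fin m ⊕ Fin m) (Fin m ⊕ Fin m) F)) h
    simp only [toGSp_coe] at h1
    exact Subtype.ext h1
  · rintro ⟨g, hg⟩
    rw [MonoidHom.mem_ker, mult_apply] at hg
    obtain ⟨s, hs⟩ := exists_sp_of_mult g 1 (by rw [hg, mul_one])
    refine ⟨s, Subtype.ext ?_⟩
    show toGSp s = g
    rw [hs, map_one, one_mul]

end symp

section orth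

variable (Q : QuadraticForm F (ι → F))

omit [Fintype F] in
theorem scalars_le_GO : Cfsg.Geo.scalars ι F ≤ Cfsg.Geo.quadSimilarityGroup (F := F) ⇑Q := by
  intro g hg
  obtain ⟨c, hc⟩ := (Cfsg.Geo.mem_scalars_iff g).1 hg
  refine ⟨c * c, fun v => ?_⟩
  rw [hc, Matrix.smul_mulVec, Matrix.one_mulVec, QuadraticMap.map_smul, smul_eq_mul,
    Units.val_mul]

/-- `|PGO(Q)| = |O(Q)|` -/
theorem card_pgo {v₀ : ι → F} (hv₀ : Q v₀ ≠ 0)
    (hδ : ∃ g : ↥(Cfsg.Geo.quadSimilarityGroup (F := F) ⇑Q), ¬ IsSquare (mu Q g)) :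
    Nat.card (Cfsg.PGO F ⇑Q) = Nat.card (Cfsg.isometryGroup F ⇑Q) := by
  have hne : Nonempty ι := by
    by_contra hcon
    rw [not_nonempty_iff] at hcon
    apply hv₀
    rw [Subsingleton.elim v₀ 0, map_zero]
  obtain ⟨δ, hδ⟩ := hδ
  have hsurj : Function.Surjective (muHom Q hv₀) := by
    intro u
    have hsq : ∀ w : Fˣ, IsSquare (w : F) → ∃ g, muHom Q hv₀ g = w := by
      rintro w ⟨r, hr⟩
      have hr0 : r ≠ 0 := by
        rintro rfl
        rw [mul_zero] at hr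
        exact w.ne_zero hr
      refine ⟨⟨sc (Units.mk0 r hr0), sc_mem Q _⟩, ?_⟩
      rw [muHom_apply]
      apply mu_unique Q hv₀
      intro v
      rw [sc_mulVec, QuadraticMap.map_smul, smul_eq_mul, Units.val_mk0, hr]
    by_cases hu : IsSquare (u : F)
    · exact hsq u hu
    · have hδ' : ¬ IsSquare ((mu Q δ : Fˣ) : F) := by
        rintro ⟨r, hr⟩
        apply hδ
        have hr0 : r ≠ 0 := by
          rintro rfl
          rw [mul_zero] at hr
          exact (mu Q δ).ne_zero hr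
        exact ⟨Units.mk0 r hr0, Units.ext (by rw [hr, Units.val_mul, Units.val_mk0])⟩
      have h3 : IsSquare (((u * (mu Q δ)⁻¹ : Fˣ) : F)) := by
        have h4 : ¬ IsSquare (((mu Q δ)⁻¹ : Fˣ) : F) := by
          rintro ⟨r, hr⟩
          apply hδ'
          refine ⟨r⁻¹, ?_⟩
          rw [← mul_inv, ← hr, Units.val_inv_eq_inv_val, inv_inv]
        rw [Units.val_mul]
        exact Cfsg.Agent.Lib.Helper44.FinSq.isSquare_mul_of_not_of_not hu h4
      obtain ⟨g, hg⟩ := hsq _ h3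
      refine ⟨g * δ, ?_⟩
      rw [map_mul, hg, muHom_apply, inv_mul_cancel_right]
  show Nat.card (Cfsg.projQuot (Cfsg.Geo.quadSimilarityGroup (F := F) ⇑Q)) = _
  rw [card_projQuot_eq _ (scalars_le_GO Q) (muHom Q hv₀) hsurj]
  symm
  apply Nat.card_congr
  refine Equiv.ofBijective
    (fun s => ⟨⟨(s : GL ι F), iso_le_GO _ s.2⟩, by
      rw [MonoidHom.mem_ker, muHom_apply]; exact mu_iso Q hv₀ _ s.2⟩) ⟨?_, ?_⟩
  · intro s s' h
    have h1 := congrArg (fun x : ↥(muHom Q hv₀).ker =>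
      ((x : ↥(Cfsg.Geo.quadSimilarityGroup (F := F) ⇑Q)) : GL ι F)) h
    exact Subtype.ext h1
  · rintro ⟨g, hg⟩
    rw [MonoidHom.mem_ker, muHom_apply] at hg
    have hmem : (g : GL ι F) ∈ Cfsg.isometryGroup F ⇑Q := by
      rw [mem_iso_iff']
      intro v
      rw [mu_spec Q g v, hg, Units.val_one, one_mul]
    exact ⟨⟨(g : GL ι F), hmem⟩, rfl⟩

end orth

section noniso

theorem arith_minus (A P Y : ℕ) (hA : 0 < A) (hP : 0 < P) (hY : 2 ≤ Y) :
    2 * A * Y * P < A * (Y + 1) * (P * (Y * (Y + 2))) := by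
  have hT : 0 < A * P := Nat.mul_pos hA hP
  have h1 : 2 * Y < (Y + 1) * (Y * (Y + 2)) := by
    have a1 : Y * 4 ≤ Y * (Y + 2) := Nat.mul_le_mul_left _ (by omega)
    have a2 : 3 * (Y * 4) ≤ (Y + 1) * (Y * (Y + 2)) := Nat.mul_le_mul (by omega) a1
    linarith
  calc 2 * A * Y * P = (A * P) * (2 * Y) := by ring
    _ < (A * P) * ((Y + 1) * (Y * (Y + 2))) := Nat.mul_lt_mul_of_pos_left h1 hT
    _ = A * (Y + 1) * (P * (Y * (Y + 2))) := by ring

theorem arith_plus (A P Y : ℕ) (hA : 0 < A) (hP : 0 < P) (hY : 2 ≤ Y) :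
    2 * A * (Y + 2) * P < A * (Y + 1) * (P * (Y * (Y + 2))) := by
  have hT : 0 < A * P := Nat.mul_pos hA hP
  have h1 : 2 * (Y + 2) < (Y + 1) * (Y * (Y + 2)) := by
    have a1 : 2 * (Y + 2) ≤ Y * (Y + 2) := Nat.mul_le_mul_right _ hY
    have a2 : 3 * (2 * (Y + 2)) ≤ (Y + 1) * (Y * (Y + 2)) := Nat.mul_le_mul (by omega) a1
    linarith
  calc 2 * A * (Y + 2) * P = (A * P) * (2 * (Y + 2)) := by ring
    _ < (A * P) * ((Y + 1) * (Y * (Y + 2))) := Nat.mul_lt_mul_of_pos_left h1 hT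
    _ = A * (Y + 1) * (P * (Y * (Y + 2))) := by ring

/-- common shape of the three orders, `X = q^(k+1) = Y + 1` -/
theorem orders (h2 : (2 : F) ≠ 0) (k : ℕ) :
    ∃ A P Y : ℕ, 0 < A ∧ 0 < P ∧ 2 ≤ Y ∧
      Nat.card (Matrix.symplecticGroup (Fin (k + 1)) F) = A * (Y + 1) * (P * (Y * (Y + 2))) ∧
      Nat.card ↥(Cfsg.isometryGroup F (Cfsg.quadFormPlus (k + 1) F)) = 2 * A * Y * P ∧
      ∀ (a b : F), (∀ z₁ z₂ : F, z₁ ^ 2 + a * z₁ * z₂ + b * z₂ ^ 2 = 0 → z₁ = 0 ∧ z₂ = 0) →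
        Nat.card ↥(Cfsg.isometryGroup F (Cfsg.quadFormMinus k F a b)) = 2 * A * (Y + 2) * P := by
  have hq3 : 3 ≤ Fintype.card F := by
    have h1 := Fintype.one_lt_card (α := F)
    by_contra hcon
    have h3 : Fintype.card F = 2 := by omega
    apply h2
    have h4 : ((Fintype.card F : ℕ) : F) = 0 := Nat.cast_card_eq_zero F
    rw [h3] at h4
    exact_mod_cast h4
  set q := Fintype.card F with hq
  have hX : 3 ≤ q ^ (k + 1) := by
    calc 3 ≤ q := hq3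
      _ = q ^ 1 := (pow_one q).symm
      _ ≤ q ^ (k + 1) := Nat.pow_le_pow_right (by omega) (by omega)
  obtain ⟨Y, hY⟩ : ∃ Y, q ^ (k + 1) = Y + 1 := ⟨q ^ (k + 1) - 1, by omega⟩
  have hP : 0 < ∏ i ∈ Finset.range k, (q ^ (2 * (i + 1)) - 1) := by
    apply Finset.prod_pos
    intro i _
    have : 1 < q ^ (2 * (i + 1)) := Nat.one_lt_pow (by omega) (by omega)
    omega
  refine ⟨q ^ ((k + 1) * k), ∏ i ∈ Finset.range k, (q ^ (2 * (i + 1)) - 1), Y,
    Nat.pos_of_ne_zero (pow_ne_zero _ (by omega)), hP, by omega, ?_, ?_, ?_⟩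
  · rw [Cfsg.Agent.Lib.Helper5.SpCard.card_symplectic, ← hq, Finset.prod_range_succ]
    have e1 : q ^ ((k + 1) ^ 2) = q ^ ((k + 1) * k) * (Y + 1) := by
      rw [← hY, ← pow_add]
      congr 1
      ring
    have e2 : q ^ (2 * (k + 1)) - 1 = Y * (Y + 2) := by
      rw [mul_comm 2 (k + 1), pow_mul, hY]
      apply Nat.sub_eq_of_eq_add
      ring
    rw [e1, e2]
  · rw [Cfsg.Agent.Lib.Helper45.OrthCard.card_plus hq.symm k, hY, Nat.add_sub_cancel]
  · intro a b hab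
    rw [Cfsg.Agent.Lib.Helper45.OrthCard.card_minus hq.symm a b hab k, hY]

/-- `PGO^+_{2m}(q) ≇ PGSp_{2m}(q)` for `q` odd -/
theorem pgo_plus_not_pgsp (h2 : (2 : F) ≠ 0) {m : ℕ} (hm : 1 ≤ m) :
    ¬ Nonempty (Cfsg.PGO F (Cfsg.quadFormPlus m F) ≃* Cfsg.PGSp m F) := by
  rintro ⟨e⟩
  obtain ⟨k, rfl⟩ : ∃ k, m = k + 1 := ⟨m - 1, by omega⟩
  have hc := Nat.card_congr e.toEquiv
  rw [card_pgsp hm] at hc
  have : Nontrivial (Fin (k + 1) ⊕ Fin (k + 1) → F) := by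
    have : Nonempty (Fin (k + 1) ⊕ Fin (k + 1)) := ⟨Sum.inl 0⟩
    infer_instance
  obtain ⟨v₀, hv₀⟩ := exists_ne_zero (sep_plusQ (F := F) (k + 1))
  have h3 := card_pgo (plusQ (k + 1) F) hv₀ (plus_sim h2 (k + 1) hm)
  rw [coe_plusQ] at h3
  rw [h3] at hc
  obtain ⟨A, P, Y, hA, hP, hY, e1, e2, -⟩ := orders (F := F) h2 k
  rw [e1, e2] at hc
  exact absurd hc (Nat.ne_of_lt (arith_minus A P Y hA hP hY))

/-- `PGO^-_{2m}(q) ≇ PGSp_{2m}(q)` for `q` odd -/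
theorem pgo_minus_not_pgsp (h2 : (2 : F) ≠ 0) {m : ℕ} (hm : 1 ≤ m) (a b : F)
    (hab : ∀ z₁ z₂ : F, z₁ ^ 2 + a * z₁ * z₂ + b * z₂ ^ 2 = 0 → z₁ = 0 ∧ z₂ = 0) :
    ¬ Nonempty (Cfsg.PGO F (Cfsg.quadFormMinus (m - 1) F a b) ≃* Cfsg.PGSp m F) := by
  rintro ⟨e⟩
  obtain ⟨k, rfl⟩ : ∃ k, m = k + 1 := ⟨m - 1, by omega⟩
  rw [Nat.add_sub_cancel] at e
  have hc := Nat.card_congr e.toEquiv
  rw [card_pgsp hm] at hc
  have hS := sep_minusQ h2 k a b hab
  have : Nontrivial ((Fin k ⊕ Fin k) ⊕ Fin 2 → F) := by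
    have : Nonempty ((Fin k ⊕ Fin k) ⊕ Fin 2) := ⟨Sum.inr 0⟩
    infer_instance
  obtain ⟨v₀, hv₀⟩ := exists_ne_zero hS
  have h3 := card_pgo (minusQ k F a b) hv₀ (minus_sim h2 k a b hab)
  rw [coe_minusQ] at h3
  rw [h3] at hc
  obtain ⟨A, P, Y, hA, hP, hY, e1, -, e3⟩ := orders (F := F) h2 k
  rw [e1, e3 a b hab] at hc
  exact absurd hc (Nat.ne_of_lt (arith_plus A P Y hA hP hY))

end noniso

end Cfsg.Agent.Lib.Helper45.ProjCard
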