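import Mathlib
import Cfsg.Agent.Lib.Helper45.SingClass
import Cfsg.Agent.Lib.Helper45.OmegaAutKer

set_option autoImplicit false

/-! Parity criteria for isometries and similarities on a maximal totally singular subspace
(any field with `2 ≠ 0`), and base change of similarities along a field homomorphism. -/

namespace Cfsg.Agent.Lib.Helper45.SingClass2

open Module QuadraticMap Matrix
open Cfsg.Agent.Lib.Helper44.QSpace Cfsg.Agent.Lib.Helper44.OGroup
open Cfsg.Agent.Lib.Helper44.OMat Cfsg.Agent.Lib.Helper44.OMat2 Cfsg.Agent.Lib.Helper44.ODet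
open Cfsg.Agent.Lib.Helper44.Omega2
open Cfsg.Agent.Lib.Helper44.MaxTS Cfsg.Agent.Lib.Helper44.MaxTS2 Cfsg.Agent.Lib.Helper44.MaxTS3
open Cfsg.Agent.Lib.Helper45.SingClass Cfsg.Agent.Lib.Helper45.OmegaAut

variable {K : Type*} [Field K] {ι : Type} [Fintype ι] [DecidableEq ι]
variable {Q : QuadraticForm K (ι → K)} {k : ℕ}

/-- For an isometry `g`: `gU` lies in the class of `U` iff `det g = 1`. -/
theorem parity_iso_iff (h2 : (2 : K) ≠ 0) (hS : Sep Q) (hV : Fintype.card ι = 2 * k)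
    {U : Submodule K (ι → K)} (hU : TS Q k U) (g : ↥(Cfsg.isometryGroup K ⇑Q)) :
    Even (k - finrank K ↥(U ⊓ U.map (Matrix.mulVecLin ((g : GL ι K) : Matrix ι ι K))))
      ↔ ((g : GL ι K) : Matrix ι ι K).det = 1 := by
  have hCD : CDP Q := cdp_of_two_ne_zero h2 hS
  obtain ⟨vs, hvs, hg⟩ := exists_prod_of_cdp hCD g
  have hp := parity_iso hS hV hU g vs hvs hg
  have hd := det_of_prod Q g vs hvs hg
  have hd' : ((g : GL ι K) : Matrix ι ι K).det = (-1) ^ vs.length := by
    rw [← Matrix.GeneralLinearGroup.val_det_apply, hd]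
    simp
  have hne : (-1 : K) ≠ 1 := by
    intro h
    apply h2
    linear_combination -h
  rw [hd', neg_one_pow_eq_one_iff_even hne, Nat.even_iff, Nat.even_iff, hp]

/-- For similarities `g`, `d` with the same multiplier, `d` fixing `U`: `gU` lies in the class of
`U` iff `det g = det d`. -/
theorem parity_sim_iff (h2 : (2 : K) ≠ 0) (hS : Sep Q) (hV : Fintype.card ι = 2 * k)
    {U : Submodule K (ι → K)} (hU : TS Q k U) (g d : GL ι K) {c : K} (hc : c ≠ 0)
    (hg : ∀ v, Q ((g : Matrix ι ι K) *ᵥ v) = c * Q v)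
    (hd : ∀ v, Q ((d : Matrix ι ι K) *ᵥ v) = c * Q v)
    (hdU : U.map (Matrix.toLin' (d : Matrix ι ι K)) ≤ U) :
    Even (k - finrank K ↥(U ⊓ U.map (Matrix.toLin' (g : Matrix ι ι K))))
      ↔ (g : Matrix ι ι K).det = (d : Matrix ι ι K).det := by
  -- the isometry `h = d⁻¹ g`
  have hdinv : ∀ w, Q (((d⁻¹ : GL ι K) : Matrix ι ι K) *ᵥ w) = c⁻¹ * Q w := by
    intro w
    have h1 := hd (((d⁻¹ : GL ι K) : Matrix ι ι K) *ᵥ w)
    rw [Matrix.mulVec_mulVec, ← Units.val_mul, mul_inv_cancel, Units.val_one,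
      Matrix.one_mulVec] at h1
    rw [h1, ← mul_assoc, inv_mul_cancel₀ hc, one_mul]
  have hiso : d⁻¹ * g ∈ Cfsg.isometryGroup K ⇑Q := by
    rw [mem_iso_iff']
    intro v
    rw [Units.val_mul, ← Matrix.mulVec_mulVec, hdinv, hg, ← mul_assoc, inv_mul_cancel₀ hc, one_mul]
  have key := parity_iso_iff h2 hS hV hU ⟨d⁻¹ * g, hiso⟩
  have hdU' : U.map (glEquiv d : (ι → K) →ₗ[K] (ι → K)) = U := by
    apply Submodule.eq_of_le_of_finrank_le
    · rw [← toLin'_eq]; exact hdU
    · rw [LinearEquiv.finrank_map_eq]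
  have hgd : g = d * (d⁻¹ * g) := by rw [mul_inv_cancel_left]
  have hfin : finrank K ↥(U ⊓ U.map (Matrix.toLin' (g : Matrix ι ι K)))
      = finrank K ↥(U ⊓ U.map (Matrix.mulVecLin ((d⁻¹ * g : GL ι K) : Matrix ι ι K))) := by
    have e1 : U.map (Matrix.toLin' (g : Matrix ι ι K))
        = (U.map (Matrix.mulVecLin ((d⁻¹ * g : GL ι K) : Matrix ι ι K))).map
          (glEquiv d : (ι → K) →ₗ[K] (ι → K)) := by
      rw [← Submodule.map_comp]
      congr 1
      apply LinearMap.ext
      intro x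
      rw [Matrix.toLin'_apply, LinearMap.comp_apply, Matrix.mulVecLin_apply]
      show _ = glEquiv d _
      rw [glEquiv_apply, Matrix.mulVec_mulVec, ← Units.val_mul, ← hgd]
    rw [e1]
    have h5 := finrank_map_inf (glEquiv d) U
      (U.map (Matrix.mulVecLin ((d⁻¹ * g : GL ι K) : Matrix ι ι K)))
    rw [hdU'] at h5
    exact h5
  rw [hfin]
  have hkey : Even (k - finrank K ↥(U ⊓ U.map (Matrix.mulVecLin
        ((d⁻¹ * g : GL ι K) : Matrix ι ι K)))) ↔
      ((d⁻¹ * g : GL ι K) : Matrix ι ι K).det = 1 := key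
  rw [hkey]
  have hdetg : (g : Matrix ι ι K).det
      = (d : Matrix ι ι K).det * ((d⁻¹ * g : GL ι K) : Matrix ι ι K).det := by
    conv_lhs => rw [hgd]
    rw [Units.val_mul, Matrix.det_mul]
  have hd0 : (d : Matrix ι ι K).det ≠ 0 := by
    have h1 : (d : Matrix ι ι K).det * ((d⁻¹ : GL ι K) : Matrix ι ι K).det = 1 := by
      rw [← Matrix.det_mul, ← Units.val_mul, mul_inv_cancel, Units.val_one, Matrix.det_one]
    intro h0
    rw [h0, zero_mul] at h1
    exact zero_ne_one h1
  rw [hdetg]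
  constructor
  · intro h1
    rw [h1, mul_one]
  · intro h1
    exact mul_left_cancel₀ hd0 (h1.trans (mul_one _).symm)

section BaseChange

variable {F : Type*} [Field F]

/-- Base change of a similarity along a ring homomorphism of fields. -/
theorem sim_map (f : F →+* K) (P : QuadraticForm F (ι → F)) (hQ : ∀ v : ι → F, Q (f ∘ v) = f (P v))
    (h2 : (2 : K) ≠ 0) (M : Matrix ι ι F) (c : F) (hM : ∀ v, P (M *ᵥ v) = c * P v) :
    ∀ w : ι → K, Q (M.map f *ᵥ w) = f c * Q w := by
  have hpol : ∀ u v : ι → F, polar Q (f ∘ u) (f ∘ v) = f (polar P u v) := by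
    intro u v
    unfold polar
    have e : (f ∘ u) + (f ∘ v) = f ∘ (u + v) := by
      funext i
      simp
    rw [e, hQ, hQ, hQ, map_sub, map_sub]
  have hmul : ∀ v : ι → F, M.map f *ᵥ (f ∘ v) = f ∘ (M *ᵥ v) := by
    intro v
    funext i
    exact (RingHom.map_mulVec f M v i).symm
  have hsingle : ∀ i : ι, (Pi.single i (1 : K) : ι → K) = f ∘ (Pi.single i (1 : F) : ι → F) := by
    intro i
    funext j
    by_cases h : j = i
    · subst h; simp
    · simp [Pi.single_apply, h]
  let B₁ : LinearMap.BilinForm K (ι → K) :=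
    (polarBilin Q).compl₁₂ (Matrix.toLin' (M.map f)) (Matrix.toLin' (M.map f))
  let B₂ : LinearMap.BilinForm K (ι → K) := f c • polarBilin Q
  have hB : B₁ = B₂ := by
    apply LinearMap.ext_basis (Pi.basisFun K ι) (Pi.basisFun K ι)
    intro i j
    show polar Q (Matrix.toLin' (M.map f) (Pi.basisFun K ι i))
        (Matrix.toLin' (M.map f) (Pi.basisFun K ι j))
      = f c * polar Q (Pi.basisFun K ι i) (Pi.basisFun K ι j)
    rw [Pi.basisFun_apply, Pi.basisFun_apply, Matrix.toLin'_apply, Matrix.toLin'_apply, hsingle,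
      hsingle, hmul, hmul, hpol, hpol, Cfsg.Agent.Lib.Helper45.OmegaAutKer.polar_sim P hM, map_mul]
  intro w
  have h1 : B₁ w w = B₂ w w := by rw [hB]
  have h3 : polar Q (M.map f *ᵥ w) (M.map f *ᵥ w) = f c * polar Q w w := by
    have : B₁ w w = polar Q (Matrix.toLin' (M.map f) w) (Matrix.toLin' (M.map f) w) := rfl
    rw [this, Matrix.toLin'_apply] at h1
    exact h1
  rw [QuadraticMap.polar_self, QuadraticMap.polar_self] at h3
  have h4 : (2 : K) * Q (M.map f *ᵥ w) = 2 * (f c * Q w) := by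
    have e1 : (2 : K) * Q (M.map f *ᵥ w) = 2 • Q (M.map f *ᵥ w) := by rw [two_smul, two_mul]
    have e2 : (2 : K) * (f c * Q w) = f c * (2 • Q w) := by rw [two_smul, two_mul, mul_add]
    rw [e1, e2]
    exact h3
  exact mul_left_cancel₀ h2 h4

end BaseChange

end Cfsg.Agent.Lib.Helper45.SingClass2
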