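import Mathlib
import Cfsg.Prelude.Def_Classical
import Cfsg.Prelude.Def_ClassicalGeometry
import Cfsg.Prelude.Def_SporadicB
import Cfsg.Agent.Lib.Helper44.OMat2
import Cfsg.Agent.Lib.Helper45.OmegaRank

set_option autoImplicit false

/-! Over the field with two elements, the orthogonal transvections (isometries `g` with `g - 1` of
rank one) form a generating conjugacy class of 3-transpositions of the isometry group. -/

namespace Cfsg.Agent.Lib.Helper45.Transp3

open Module QuadraticMap Matrix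
open Cfsg.Agent.Lib.Helper44.QSpace Cfsg.Agent.Lib.Helper44.OGroup
open Cfsg.Agent.Lib.Helper44.OMat Cfsg.Agent.Lib.Helper44.OMat2 Cfsg.Agent.Lib.Helper44.Omega2
open Cfsg.Agent.Lib.Helper44.CD2a Cfsg.Agent.Lib.Helper44.Parity
open Cfsg.Agent.Lib.Helper44.Spinor
open Cfsg.Agent.Lib.Helper45.OmegaRank

variable {ι : Type} [Fintype ι] [DecidableEq ι]

theorem zmod2_cases (c : ZMod 2) : c = 0 ∨ c = 1 := by
  revert c; decide

theorem zmod2_eq_one {c : ZMod 2} (h : c ≠ 0) : c = 1 :=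
  (zmod2_cases c).resolve_left h

variable (Q : QuadraticForm (ZMod 2) (ι → ZMod 2))

/-- The reflection in `u` as an element of the matrix isometry group. -/
noncomputable def R (u : ι → ZMod 2) : ↥(Cfsg.isometryGroup (ZMod 2) ⇑Q) :=
  (isoEquiv Q).symm (refl Q u)

theorem iso_R (u : ι → ZMod 2) : isoEquiv Q (R Q u) = refl Q u :=
  MulEquiv.apply_symm_apply _ _

theorem R_mulVec (u x : ι → ZMod 2) :
    (((R Q u : ↥(Cfsg.isometryGroup (ZMod 2) ⇑Q)) : GL ι (ZMod 2)) : Matrix ι ι (ZMod 2)) *ᵥ x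
      = reflE Q u x :=
  isoEquiv_symm_mulVec Q (refl Q u) x

theorem reflE_two {u : ι → ZMod 2} (hu : Q u = 1) (x : ι → ZMod 2) :
    reflE Q u x = x + polar Q x u • u := by
  rw [reflE_apply, hu, inv_one, one_mul, sub_eq_add_neg]
  congr 1
  ext i
  rw [Pi.neg_apply]
  exact CharTwo.neg_eq _

theorem R_mul_self (u : ι → ZMod 2) : R Q u * R Q u = 1 := by
  unfold R
  rw [← map_mul, refl_mul_self, map_one]

/-- `R u - 1` has rank one. -/
theorem rank_R (hS : Sep Q) {u : ι → ZMod 2} (hu : Q u = 1) :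
    ((((R Q u : ↥(Cfsg.isometryGroup (ZMod 2) ⇑Q)) : GL ι (ZMod 2)) : Matrix ι ι (ZMod 2))
      - 1).rank = 1 := by
  have h := rank_sub_one_add Q (R Q u)
  rw [iso_R] at h
  have hu0 : Q u ≠ 0 := by rw [hu]; exact one_ne_zero
  have h1 := finrank_fix_refl_mul hS (g := (1 : (ι → ZMod 2) ≃ₗ[ZMod 2] (ι → ZMod 2)))
    (Subgroup.one_mem _) hu0
  rw [mul_one, fixS_one, finrank_top, Module.finrank_fintype_fun_eq_card] at h1
  have h2 : finrank (ZMod 2) (fixS (reflE Q u)) ≤ Fintype.card ι := by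
    have := Submodule.finrank_le (fixS (reflE Q u))
    rwa [Module.finrank_fintype_fun_eq_card] at this
  have h3 : finrank (ZMod 2) (fixS ((refl Q u : O Q) : (ι → ZMod 2) ≃ₗ[ZMod 2] (ι → ZMod 2)))
      = finrank (ZMod 2) (fixS (reflE Q u)) := rfl
  rw [h3] at h
  omega

/-- An isometry `g` with `g - 1` of rank one is a reflection. -/
theorem exists_of_rank_one (hS : Sep Q) (g : ↥(Cfsg.isometryGroup (ZMod 2) ⇑Q))
    (hg : (((g : GL ι (ZMod 2)) : Matrix ι ι (ZMod 2)) - 1).rank = 1) :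
    ∃ u, Q u = 1 ∧ g = R Q u := by
  set M : Matrix ι ι (ZMod 2) := ((g : GL ι (ZMod 2)) : Matrix ι ι (ZMod 2)) with hM
  rw [Matrix.rank] at hg
  obtain ⟨⟨u, hu_mem⟩, hu0, hall⟩ := finrank_eq_one_iff'.mp hg
  have hu0' : u ≠ 0 := fun h => hu0 (Subtype.ext h)
  obtain ⟨x₀, hx₀⟩ := hu_mem
  rw [Matrix.mulVecLin_apply] at hx₀
  have hN : ∀ x, (M - 1) *ᵥ x = 0 ∨ (M - 1) *ᵥ x = u := by
    intro x
    obtain ⟨c, hc⟩ := hall ⟨(M - 1) *ᵥ x, ⟨x, rfl⟩⟩
    have hc' : c • u = (M - 1) *ᵥ x := congrArg Subtype.val hc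
    rcases zmod2_cases c with h | h
    · left; rw [← hc', h, zero_smul]
    · right; rw [← hc', h, one_smul]
  have hMx : ∀ x, M *ᵥ x = x + (M - 1) *ᵥ x := by
    intro x
    rw [Matrix.sub_mulVec, Matrix.one_mulVec]; abel
  have hiso : ∀ x, Q (M *ᵥ x) = Q x := fun x => g.2 x x
  have key1 : ∀ x, (M - 1) *ᵥ x = u → polar Q x u = Q u := by
    intro x hx
    have h := hiso x
    rw [hMx, hx, q_add] at h
    have h2 : Q u + polar Q x u = 0 := by linear_combination h
    exact (CharTwo.add_eq_zero.mp h2).symm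
  have key2 : ∀ x, (M - 1) *ᵥ x = 0 → polar Q x u = 0 := by
    intro x hx
    have h := key1 (x + x₀) (by rw [Matrix.mulVec_add, hx, hx₀, zero_add])
    rw [polar_add_left, key1 x₀ hx₀] at h
    exact add_eq_right.mp h
  have hQu : Q u ≠ 0 := by
    intro h0
    apply hu0'
    apply hS
    intro y
    rw [polar_comm]
    rcases hN y with h | h
    · exact key2 y h
    · rw [key1 y h, h0]
  have hQu1 : Q u = 1 := zmod2_eq_one hQu
  refine ⟨u, hQu1, ?_⟩
  apply Subtype.ext
  apply Units.ext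
  apply matrix_ext_mulVec
  intro x
  show M *ᵥ x = _
  rw [R_mulVec, reflE_two Q hQu1, hMx]
  congr 1
  rcases hN x with h | h
  · rw [h, key2 x h, zero_smul]
  · rw [h, key1 x h, hQu1, one_smul]

/-- Products of two reflections have order at most 3. -/
theorem R_mul_R_pow {u v : ι → ZMod 2} (hu : Q u = 1) (hv : Q v = 1) :
    (R Q u * R Q v) ^ 2 = 1 ∨ (R Q u * R Q v) ^ 3 = 1 := by
  have hu0 : Q u ≠ 0 := by rw [hu]; exact one_ne_zero
  have hv0 : Q v ≠ 0 := by rw [hv]; exact one_ne_zero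
  have conj1 : ∀ a b : ι → ZMod 2, refl Q a * refl Q b * refl Q a = refl Q (reflE Q a b) := by
    intro a b
    apply Subtype.ext
    have := conj_reflE (reflE_mem Q a) b
    rw [reflE_inv] at this
    exact this
  rcases zmod2_cases (polar Q u v) with h | h
  · left
    have h1 : refl Q u * refl Q v * refl Q u = refl Q v := by
      rw [conj1, reflE_of_orth (by rw [polar_comm]; exact h)]
    have h2 : (refl Q u * refl Q v) ^ 2 = 1 := by
      rw [pow_two, ← mul_assoc, h1, refl_mul_self]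
    have h3 : (R Q u * R Q v) ^ 2 = (isoEquiv Q).symm ((refl Q u * refl Q v) ^ 2) := by
      unfold R; rw [map_pow, map_mul]
    rw [h3, h2, map_one]
  · right
    have h1 : refl Q u * refl Q v * refl Q u = refl Q (v + u) := by
      rw [conj1, reflE_two Q hu, polar_comm, h, one_smul]
    have h1' : refl Q v * refl Q u * refl Q v = refl Q (v + u) := by
      rw [conj1, reflE_two Q hv, h, one_smul, add_comm]
    have h2 : (refl Q u * refl Q v) ^ 3 = 1 := by
      have e : (refl Q u * refl Q v) ^ 3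
          = (refl Q u * refl Q v * refl Q u) * (refl Q v * refl Q u * refl Q v) := by
        rw [pow_succ, pow_two]; group
      rw [e, h1, h1', refl_mul_self]
    have h3 : (R Q u * R Q v) ^ 3 = (isoEquiv Q).symm ((refl Q u * refl Q v) ^ 3) := by
      unfold R; rw [map_pow, map_mul]
    rw [h3, h2, map_one]

/-- Conjugating a reflection. -/
theorem conj_R (g : ↥(Cfsg.isometryGroup (ZMod 2) ⇑Q)) (u : ι → ZMod 2) :
    g * R Q u * g⁻¹ = R Q ((isoEquiv Q g : (ι → ZMod 2) ≃ₗ[ZMod 2] (ι → ZMod 2)) u) := by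
  apply (isoEquiv Q).injective
  rw [map_mul, map_mul, map_inv, iso_R, iso_R]
  apply Subtype.ext
  exact conj_reflE (isoEquiv Q g).2 u

/-- **3-transpositions**: over `𝔽₂`, the isometries `g` with `g - 1` of rank one form a
generating conjugacy class of 3-transpositions. -/
theorem isThreeTranspositionClass [Nonempty ι] (hS : Sep Q) (hG : Good Q) :
    Cfsg.IsThreeTranspositionClass {g : ↥(Cfsg.isometryGroup (ZMod 2) ⇑Q) |
      (((g : GL ι (ZMod 2)) : Matrix ι ι (ZMod 2)) - 1).rank = 1} := by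
  refine ⟨⟨?_, ?_⟩, ?_, ?_⟩
  · intro d hd
    obtain ⟨u, hu, rfl⟩ := exists_of_rank_one Q hS d hd
    apply orderOf_eq_prime
    · rw [pow_two]; exact R_mul_self Q u
    · intro h1
      have hd' : ((((R Q u : ↥(Cfsg.isometryGroup (ZMod 2) ⇑Q)) : GL ι (ZMod 2))
          : Matrix ι ι (ZMod 2)) - 1).rank = 1 := hd
      rw [h1] at hd'
      simp at hd'
  · intro d hd e he
    obtain ⟨u, hu, rfl⟩ := exists_of_rank_one Q hS d hd
    obtain ⟨v, hv, rfl⟩ := exists_of_rank_one Q hS e he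
    exact R_mul_R_pow Q hu hv
  · obtain ⟨u₀, hu₀⟩ := exists_ne_zero hS
    have hu₀1 : Q u₀ = 1 := zmod2_eq_one hu₀
    refine ⟨R Q u₀, rank_R Q hS hu₀1, ?_⟩
    ext g
    show ((((g : GL ι (ZMod 2)) : Matrix ι ι (ZMod 2)) - 1).rank = 1) ↔ IsConj (R Q u₀) g
    rw [isConj_iff]
    constructor
    · intro hg
      obtain ⟨v, hv, rfl⟩ := exists_of_rank_one Q hS g hg
      obtain ⟨l, hl, hlv⟩ := exists_refl_map hS hG hu₀ (hv.trans hu₀1.symm)
      refine ⟨(isoEquiv Q).symm ((l.map (refl Q)).prod), ?_⟩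
      rw [conj_R, MulEquiv.apply_symm_apply, coe_prod_refl, hlv]
    · rintro ⟨c, rfl⟩
      rw [conj_R]
      apply rank_R Q hS
      rw [(isoEquiv Q c).2 u₀]
      exact hu₀1
  · rw [eq_top_iff]
    intro g _
    obtain ⟨vs, hvs, hg⟩ := exists_prod_of_cdp (cdp_two hS hG) g
    have hg' : g = (vs.map (R Q)).prod := by
      apply (isoEquiv Q).injective
      rw [hg, map_list_prod, List.map_map]
      congr 1
      apply List.map_congr_left
      intro v _
      exact (iso_R Q v).symm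
    rw [hg']
    apply Subgroup.list_prod_mem
    intro x hx
    obtain ⟨v, hv, rfl⟩ := List.mem_map.mp hx
    exact Subgroup.subset_closure (rank_R Q hS (zmod2_eq_one (hvs v hv)))

end Cfsg.Agent.Lib.Helper45.Transp3
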