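import Mathlib
import Cfsg.Agent.Lib.Helper40.HermAdj

set_option autoImplicit false
set_option linter.unusedSectionVars false

/-!
Matrix algebra for the descent of unitary graph involutions to the fixed field: `a` invertible with
`S' * (θ • (a * a^*)) = 1`; real similarities of `S'` give unitary matrices after conjugation by `a`
and scaling, and conversely.
-/

namespace Cfsg.Agent.Lib.Helper45.UDescAlg

open Matrix
open Cfsg.Agent.Lib.Helper40.HermAdj (adj adj_mul adj_one)

variable {F : Type*} [Field F] {m : Type*} [Fintype m] [DecidableEq m] (φ : F →+* F)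

/-- entrywise conjugation -/
def cj (M : Matrix m m F) : Matrix m m F := M.map φ

theorem cj_mul (M N : Matrix m m F) : cj φ (M * N) = cj φ M * cj φ N := Matrix.map_mul

theorem cj_smul (c : F) (M : Matrix m m F) : cj φ (c • M) = φ c • cj φ M := by
  ext i j
  simp [cj]

theorem cj_one : cj φ (1 : Matrix m m F) = 1 := Matrix.map_one φ (map_zero φ) (map_one φ)

theorem cj_cj (hinv : ∀ x, φ (φ x) = x) (M : Matrix m m F) : cj φ (cj φ M) = M := by
  ext i j
  simp [cj, hinv]

theorem cj_transpose (M : Matrix m m F) : cj φ Mᵀ = (cj φ M)ᵀ := rfl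

theorem adj_eq (M : Matrix m m F) : adj φ M = (cj φ M)ᵀ := rfl

theorem adj_smul (c : F) (M : Matrix m m F) : adj φ (c • M) = φ c • adj φ M := by
  rw [adj_eq, cj_smul, Matrix.transpose_smul]
  rfl

theorem adj_real (M : Matrix m m F) (h : cj φ M = M) : adj φ M = Mᵀ := by
  rw [adj_eq, h]

theorem adj_transpose (M : Matrix m m F) : adj φ Mᵀ = cj φ M := by
  rw [adj_eq, cj_transpose, Matrix.transpose_transpose]

theorem cj_adj (hinv : ∀ x, φ (φ x) = x) (M : Matrix m m F) : cj φ (adj φ M) = Mᵀ := by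
  rw [adj_eq, cj_transpose, cj_cj φ hinv]

/-- descent data -/
structure DD (a a' S' : Matrix m m F) (θ : F) : Prop where
  h1 : a * a' = 1
  h2 : a' * a = 1
  hS : S' * (θ • (a * adj φ a)) = 1
  hθ : θ ≠ 0

namespace DD

variable {φ} {a a' S' : Matrix m m F} {θ : F} (d : DD φ a a' S' θ)

include d

theorem ad1 : adj φ a * adj φ a' = 1 := by rw [← adj_mul, d.h2, adj_one]

theorem ad2 : adj φ a' * adj φ a = 1 := by rw [← adj_mul, d.h1, adj_one]

theorem t1 : aᵀ * a'ᵀ = 1 := by rw [← Matrix.transpose_mul, d.h2, Matrix.transpose_one]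

theorem t2 : a'ᵀ * aᵀ = 1 := by rw [← Matrix.transpose_mul, d.h1, Matrix.transpose_one]

theorem hS' : (θ • (a * adj φ a)) * S' = 1 := _root_.mul_eq_one_comm.1 d.hS

theorem P_eq : adj φ a' * a' = θ • S' := by
  have e : (a * adj φ a) * (adj φ a' * a') = 1 := by
    calc (a * adj φ a) * (adj φ a' * a') = a * ((adj φ a * adj φ a') * a') := by
          simp only [Matrix.mul_assoc]
      _ = 1 := by rw [d.ad1, Matrix.one_mul, d.h1]
  calc adj φ a' * a' = (S' * (θ • (a * adj φ a))) * (adj φ a' * a') := by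
        rw [d.hS, Matrix.one_mul]
    _ = θ • (S' * ((a * adj φ a) * (adj φ a' * a'))) := by
        rw [Matrix.mul_smul, Matrix.smul_mul, Matrix.mul_assoc]
    _ = θ • S' := by rw [e, Matrix.mul_one]

theorem Q_eq : adj φ a * (θ • S') * a = 1 := by
  rw [← d.P_eq]
  calc adj φ a * (adj φ a' * a') * a = (adj φ a * adj φ a') * (a' * a) := by
        simp only [Matrix.mul_assoc]
    _ = 1 := by rw [d.ad1, d.h2, Matrix.one_mul]

/-- real similarities give unitary matrices -/
theorem unitary (B' : Matrix m m F) (hB : cj φ B' = B') (τ c : F)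
    (hτ : B'ᵀ * S' * B' = τ • S') (hc : c * φ c = τ) (hc0 : c ≠ 0) :
    adj φ (c⁻¹ • (a' * B' * a)) * (c⁻¹ • (a' * B' * a)) = 1 := by
  have e1 : adj φ (a' * B' * a) = adj φ a * B'ᵀ * adj φ a' := by
    rw [adj_mul, adj_mul, adj_real φ B' hB, Matrix.mul_assoc]
  have e2 : (adj φ a * B'ᵀ * adj φ a') * (a' * B' * a) = τ • 1 := by
    calc (adj φ a * B'ᵀ * adj φ a') * (a' * B' * a)
        = adj φ a * (B'ᵀ * (adj φ a' * a') * B') * a := by simp only [Matrix.mul_assoc]
      _ = adj φ a * (θ • (B'ᵀ * S' * B')) * a := by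
          rw [d.P_eq, Matrix.mul_smul, Matrix.smul_mul]
      _ = τ • (adj φ a * (θ • S') * a) := by
          rw [hτ]
          simp only [Matrix.mul_smul, Matrix.smul_mul, smul_smul, mul_comm]
      _ = τ • 1 := by rw [d.Q_eq]
  have hφc : φ c ≠ 0 := (map_ne_zero φ).2 hc0
  rw [adj_smul, e1, Matrix.smul_mul, Matrix.mul_smul, smul_smul, e2, smul_smul, map_inv₀]
  have : (φ c)⁻¹ * c⁻¹ * τ = 1 := by
    rw [← hc]
    field_simp
  rw [this, one_smul]

theorem hHe (H : Matrix m m F) (κ : F) (hH : a * H * aᵀ = κ • (θ • (a * adj φ a))) :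
    H = κ • (a' * (θ • (a * adj φ a)) * a'ᵀ) := by
  calc H = (a' * a) * H * (aᵀ * a'ᵀ) := by rw [d.h2, d.t1, Matrix.one_mul, Matrix.mul_one]
    _ = a' * (a * H * aᵀ) * a'ᵀ := by simp only [Matrix.mul_assoc]
    _ = κ • (a' * (θ • (a * adj φ a)) * a'ᵀ) := by rw [hH, Matrix.mul_smul, Matrix.smul_mul]

/-- the unitary matrix attached to a real similarity commutes with the graph involution -/
theorem comm (H : Matrix m m F) (κ : F) (hH : a * H * aᵀ = κ • (θ • (a * adj φ a)))
    (B' Bi : Matrix m m F) (hBi : B' * Bi = 1) (τ : F) (hτ : B'ᵀ * S' * B' = τ • S') (c : F) :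
    (c • (a' * B' * a)) * H * (c • (a' * B' * a))ᵀ = (c * c * τ) • H := by
  have y1 : B' * (θ • (a * adj φ a)) * B'ᵀ * S' * B' = τ • B' := by
    calc B' * (θ • (a * adj φ a)) * B'ᵀ * S' * B'
        = B' * (θ • (a * adj φ a)) * (B'ᵀ * S' * B') := by simp only [Matrix.mul_assoc]
      _ = τ • (B' * ((θ • (a * adj φ a)) * S')) := by rw [hτ, Matrix.mul_smul, Matrix.mul_assoc]
      _ = τ • B' := by rw [d.hS', Matrix.mul_one]
  have y2 : B' * (θ • (a * adj φ a)) * B'ᵀ * S' = τ • 1 := by
    calc B' * (θ • (a * adj φ a)) * B'ᵀ * S'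
        = B' * (θ • (a * adj φ a)) * B'ᵀ * S' * (B' * Bi) := by rw [hBi, Matrix.mul_one]
      _ = (B' * (θ • (a * adj φ a)) * B'ᵀ * S' * B') * Bi := by simp only [Matrix.mul_assoc]
      _ = τ • 1 := by rw [y1, Matrix.smul_mul, hBi]
  have y3 : B' * (θ • (a * adj φ a)) * B'ᵀ = τ • (θ • (a * adj φ a)) := by
    calc B' * (θ • (a * adj φ a)) * B'ᵀ
        = B' * (θ • (a * adj φ a)) * B'ᵀ * (S' * (θ • (a * adj φ a))) := by
          rw [d.hS, Matrix.mul_one]
      _ = (B' * (θ • (a * adj φ a)) * B'ᵀ * S') * (θ • (a * adj φ a)) := by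
          simp only [Matrix.mul_assoc]
      _ = τ • (θ • (a * adj φ a)) := by rw [y2, Matrix.smul_mul, Matrix.one_mul]
  have h3 := d.hHe H κ hH
  calc (c • (a' * B' * a)) * H * (c • (a' * B' * a))ᵀ
      = (c * c) • (a' * (B' * (a * H * aᵀ) * B'ᵀ) * a'ᵀ) := by
        rw [Matrix.transpose_smul, Matrix.transpose_mul, Matrix.transpose_mul]
        simp only [Matrix.smul_mul, Matrix.mul_smul, smul_smul, Matrix.mul_assoc]
    _ = (c * c) • (κ • (a' * (B' * (θ • (a * adj φ a)) * B'ᵀ) * a'ᵀ)) := by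
        rw [hH]
        simp only [Matrix.smul_mul, Matrix.mul_smul]
    _ = (c * c * τ) • H := by
        rw [y3]
        conv_rhs => rw [h3]
        simp only [Matrix.smul_mul, Matrix.mul_smul, smul_smul]
        congr 1
        ring

/-- a unitary matrix commuting with the graph involution is, after conjugation and scaling, a real
similarity -/
theorem real_of_comm (hinv : ∀ x, φ (φ x) = x) (H G : Matrix m m F) (κ : F) (hκ : κ ≠ 0)
    (hH : a * H * aᵀ = κ • (θ • (a * adj φ a)))
    (hG : adj φ G * G = 1) (c' : F) (hc' : G * H * Gᵀ = c' • H) (hne : (1 : Matrix m m F) ≠ 0)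
    (hex : ∀ c' : F, c' * φ c' = 1 → ∃ c : F, c ≠ 0 ∧ φ c = c * c') :
    ∃ c : F, c ≠ 0 ∧ cj φ (c • (a * G * a')) = c • (a * G * a') ∧
      (c • (a * G * a'))ᵀ * S' * (c • (a * G * a')) = (c * φ c) • S' := by
  have hG' : G * adj φ G = 1 := _root_.mul_eq_one_comm.1 hG
  have hAi : (a * adj φ G * a') * (a * G * a') = 1 := by
    calc (a * adj φ G * a') * (a * G * a') = a * (adj φ G * ((a' * a) * G)) * a' := by
          simp only [Matrix.mul_assoc]
      _ = 1 := by rw [d.h2, Matrix.one_mul, hG, Matrix.mul_one, d.h1]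
  have hadA : adj φ (a * G * a') = adj φ a' * adj φ G * adj φ a := by
    rw [adj_mul, adj_mul, Matrix.mul_assoc]
  have s1 : (a * G * a') * (θ • (a * adj φ a)) * adj φ (a * G * a') = θ • (a * adj φ a) := by
    rw [hadA]
    calc (a * G * a') * (θ • (a * adj φ a)) * (adj φ a' * adj φ G * adj φ a)
        = θ • (a * (G * ((a' * a) * ((adj φ a * adj φ a') * adj φ G))) * adj φ a) := by
          simp only [Matrix.smul_mul, Matrix.mul_smul, Matrix.mul_assoc]
      _ = θ • (a * adj φ a) := by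
          rw [d.h2, d.ad1, Matrix.one_mul, Matrix.one_mul, hG', Matrix.mul_one]
  have s2a : (a * G * a') * (a * H * aᵀ) * (a * G * a')ᵀ = c' • (a * H * aᵀ) := by
    rw [Matrix.transpose_mul, Matrix.transpose_mul]
    calc (a * G * a') * (a * H * aᵀ) * (a'ᵀ * (Gᵀ * aᵀ))
        = a * (G * ((a' * a) * (H * ((aᵀ * a'ᵀ) * Gᵀ)))) * aᵀ := by simp only [Matrix.mul_assoc]
      _ = a * (G * H * Gᵀ) * aᵀ := by
          rw [d.h2, d.t1, Matrix.one_mul, Matrix.one_mul]
          simp only [Matrix.mul_assoc]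
      _ = c' • (a * H * aᵀ) := by rw [hc', Matrix.mul_smul, Matrix.smul_mul]
  have s2 : (a * G * a') * (θ • (a * adj φ a)) * (a * G * a')ᵀ = c' • (θ • (a * adj φ a)) := by
    rw [hH, Matrix.mul_smul, Matrix.smul_mul, smul_comm c' κ] at s2a
    exact smul_right_injective _ hκ s2a
  have e1 : S' * (a * adj φ G * a') * ((a * G * a') * (θ • (a * adj φ a)) * (a * G * a')ᵀ)
      = (a * G * a')ᵀ := by
    calc S' * (a * adj φ G * a') * ((a * G * a') * (θ • (a * adj φ a)) * (a * G * a')ᵀ)
        = S' * (((a * adj φ G * a') * (a * G * a')) * ((θ • (a * adj φ a)) * (a * G * a')ᵀ)) := by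
          simp only [Matrix.mul_assoc]
      _ = (a * G * a')ᵀ := by rw [hAi, Matrix.one_mul, ← Matrix.mul_assoc, d.hS, Matrix.one_mul]
  have e2 : S' * (a * adj φ G * a') * ((a * G * a') * (θ • (a * adj φ a)) * adj φ (a * G * a'))
      = adj φ (a * G * a') := by
    calc S' * (a * adj φ G * a') * ((a * G * a') * (θ • (a * adj φ a)) * adj φ (a * G * a'))
        = S' * (((a * adj φ G * a') * (a * G * a'))
            * ((θ • (a * adj φ a)) * adj φ (a * G * a'))) := by
          simp only [Matrix.mul_assoc]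
      _ = adj φ (a * G * a') := by
          rw [hAi, Matrix.one_mul, ← Matrix.mul_assoc, d.hS, Matrix.one_mul]
  have s3 : (a * G * a')ᵀ = c' • adj φ (a * G * a') := by
    rw [s2] at e1
    rw [s1] at e2
    rw [← e1, ← e2, Matrix.mul_smul]
  have s4 : a * G * a' = c' • cj φ (a * G * a') := by
    have := congrArg Matrix.transpose s3
    rw [Matrix.transpose_transpose, Matrix.transpose_smul, adj_eq, Matrix.transpose_transpose]
      at this
    exact this
  have hA0 : a * G * a' ≠ 0 := by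
    intro h0
    rw [h0, Matrix.mul_zero] at hAi
    exact hne hAi.symm
  have hN : c' * φ c' = 1 := by
    have e : cj φ (a * G * a') = φ c' • (a * G * a') := by
      conv_lhs => rw [s4, cj_smul, cj_cj φ hinv]
    have e2 : (c' * φ c' - 1) • (a * G * a') = 0 := by
      rw [sub_smul, one_smul, ← smul_smul, ← e, ← s4, sub_self]
    rcases smul_eq_zero.1 e2 with h | h
    · exact sub_eq_zero.1 h
    · exact absurd h hA0
  obtain ⟨c, hc0, hc⟩ := hex c' hN
  refine ⟨c, hc0, ?_, ?_⟩
  · rw [cj_smul, hc, ← smul_smul, ← s4]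
  · have w1 : (a * G * a') * (θ • (a * adj φ a)) * ((a * G * a')ᵀ * S' * (a * G * a'))
        = c' • (a * G * a') := by
      calc (a * G * a') * (θ • (a * adj φ a)) * ((a * G * a')ᵀ * S' * (a * G * a'))
          = ((a * G * a') * (θ • (a * adj φ a)) * (a * G * a')ᵀ) * (S' * (a * G * a')) := by
            simp only [Matrix.mul_assoc]
        _ = c' • (((θ • (a * adj φ a)) * S') * (a * G * a')) := by
            rw [s2, Matrix.smul_mul]
            simp only [Matrix.mul_assoc]
        _ = c' • (a * G * a') := by rw [d.hS', Matrix.one_mul]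
    have w2 : (θ • (a * adj φ a)) * ((a * G * a')ᵀ * S' * (a * G * a')) = c' • 1 := by
      calc (θ • (a * adj φ a)) * ((a * G * a')ᵀ * S' * (a * G * a'))
          = ((a * adj φ G * a') * (a * G * a'))
              * ((θ • (a * adj φ a)) * ((a * G * a')ᵀ * S' * (a * G * a'))) := by
            rw [hAi, Matrix.one_mul]
        _ = (a * adj φ G * a') * ((a * G * a') * (θ • (a * adj φ a))
              * ((a * G * a')ᵀ * S' * (a * G * a'))) := by
            simp only [Matrix.mul_assoc]
        _ = c' • 1 := by rw [w1, Matrix.mul_smul, hAi]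
    have w3 : (a * G * a')ᵀ * S' * (a * G * a') = c' • S' := by
      calc (a * G * a')ᵀ * S' * (a * G * a')
          = (S' * (θ • (a * adj φ a))) * ((a * G * a')ᵀ * S' * (a * G * a')) := by
            rw [d.hS, Matrix.one_mul]
        _ = S' * ((θ • (a * adj φ a)) * ((a * G * a')ᵀ * S' * (a * G * a'))) := by
            rw [Matrix.mul_assoc]
        _ = c' • S' := by rw [w2, Matrix.mul_smul, Matrix.mul_one]
    rw [Matrix.transpose_smul]
    calc (c • (a * G * a')ᵀ) * S' * (c • (a * G * a'))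
        = (c * c) • ((a * G * a')ᵀ * S' * (a * G * a')) := by
          simp only [Matrix.smul_mul, Matrix.mul_smul, smul_smul]
      _ = (c * φ c) • S' := by
          rw [w3, smul_smul, hc]
          congr 1
          ring

/-- congruent real forms give conjugate graph involutions -/
theorem conj {e e' S₂ : Matrix m m F} (d' : DD φ e e' S₂ θ) (H H' : Matrix m m F) (κ κ' : F)
    (hκ' : κ' ≠ 0)
    (hH : a * H * aᵀ = κ • (θ • (a * adj φ a))) (hH' : e * H' * eᵀ = κ' • (θ • (e * adj φ e)))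
    (T Ti : Matrix m m F) (hT : cj φ Ti = Ti) (hTi : T * Ti = 1) (t : F)
    (hS₂ : S₂ = t • (Tᵀ * S' * T)) (c : F) (hc : c * φ c * t = 1) :
    adj φ (c • (e' * Ti * a)) * (c • (e' * Ti * a)) = 1 ∧
    (c • (e' * Ti * a)) * H * (c • (e' * Ti * a))ᵀ = (c * c * κ * t * κ'⁻¹) • H' := by
  have hTi' : Ti * T = 1 := _root_.mul_eq_one_comm.1 hTi
  have tt1 : Tiᵀ * Tᵀ = 1 := by rw [← Matrix.transpose_mul, hTi, Matrix.transpose_one]
  constructor
  · have e1 : adj φ (e' * Ti * a) = adj φ a * Tiᵀ * adj φ e' := by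
      rw [adj_mul, adj_mul, adj_real φ Ti hT, Matrix.mul_assoc]
    have e2 : (adj φ a * Tiᵀ * adj φ e') * (e' * Ti * a) = t • 1 := by
      calc (adj φ a * Tiᵀ * adj φ e') * (e' * Ti * a)
          = adj φ a * (Tiᵀ * (adj φ e' * e') * Ti) * a := by simp only [Matrix.mul_assoc]
        _ = adj φ a * (θ • (t • ((Tiᵀ * Tᵀ) * S' * (T * Ti)))) * a := by
            rw [d'.P_eq, hS₂]
            simp only [Matrix.smul_mul, Matrix.mul_smul, Matrix.mul_assoc]
        _ = t • (adj φ a * (θ • S') * a) := by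
            rw [tt1, hTi, Matrix.one_mul, Matrix.mul_one]
            simp only [Matrix.smul_mul, Matrix.mul_smul, smul_smul, mul_comm]
        _ = t • 1 := by rw [d.Q_eq]
    rw [adj_smul, e1, Matrix.smul_mul, Matrix.mul_smul, smul_smul, e2, smul_smul]
    have : φ c * c * t = 1 := by rw [← hc]; ring
    rw [this, one_smul]
  · have z1 : Ti * (θ • (a * adj φ a)) * Tiᵀ * S₂ = t • 1 := by
      calc Ti * (θ • (a * adj φ a)) * Tiᵀ * S₂
          = t • (Ti * (((θ • (a * adj φ a)) * ((Tiᵀ * Tᵀ) * S')) * T)) := by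
            rw [hS₂]
            simp only [Matrix.mul_smul, Matrix.smul_mul, Matrix.mul_assoc]
        _ = t • 1 := by rw [tt1, Matrix.one_mul, d.hS', Matrix.one_mul, hTi']
    have z2 : Ti * (θ • (a * adj φ a)) * Tiᵀ = t • (θ • (e * adj φ e)) := by
      calc Ti * (θ • (a * adj φ a)) * Tiᵀ
          = Ti * (θ • (a * adj φ a)) * Tiᵀ * (S₂ * (θ • (e * adj φ e))) := by
            rw [d'.hS, Matrix.mul_one]
        _ = (Ti * (θ • (a * adj φ a)) * Tiᵀ * S₂) * (θ • (e * adj φ e)) := by
            simp only [Matrix.mul_assoc]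
        _ = t • (θ • (e * adj φ e)) := by rw [z1, Matrix.smul_mul, Matrix.one_mul]
    have h3 := d'.hHe H' κ' hH'
    calc (c • (e' * Ti * a)) * H * (c • (e' * Ti * a))ᵀ
        = (c * c) • (e' * (Ti * (a * H * aᵀ) * Tiᵀ) * e'ᵀ) := by
          rw [Matrix.transpose_smul, Matrix.transpose_mul, Matrix.transpose_mul]
          simp only [Matrix.smul_mul, Matrix.mul_smul, smul_smul, Matrix.mul_assoc]
      _ = (c * c) • (κ • (e' * (Ti * (θ • (a * adj φ a)) * Tiᵀ) * e'ᵀ)) := by
          rw [hH]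
          simp only [Matrix.smul_mul, Matrix.mul_smul]
      _ = (c * c * κ * t * κ'⁻¹) • H' := by
          rw [z2]
          conv_rhs => rw [h3]
          simp only [Matrix.smul_mul, Matrix.mul_smul, smul_smul]
          congr 1
          field_simp

end DD

end Cfsg.Agent.Lib.Helper45.UDescAlg
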