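import Mathlib
import Cfsg.Prelude.Def_LieTypeDatum
import Cfsg.Agent.Lib.Helper43.SUOut
import Cfsg.Agent.Lib.Helper43.FrobInv
import Cfsg.Agent.Lib.Helper43.SplitCount
import Cfsg.Agent.Lib.Helper40.HermAdj

set_option autoImplicit false

/-!
Graph automorphisms `gam D h = cGU h * cσ (q-power)` of `PSU_n(q)`: every involutory graph-class
automorphism has this form with `h` symmetric or skew-symmetric; conjugacy under `Inndiag` and
commutation in terms of `g h gᵀ`.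
-/

namespace Cfsg.Agent.Lib.Helper45.UGraph

open Matrix Cfsg.Agent.Lib.Helper43.SUBase Cfsg.Agent.Lib.Helper43.SUAuts
  Cfsg.Agent.Lib.Helper43.SUInn Cfsg.Agent.Lib.Helper43.SUOut

variable {F : Type*} [Field F] {q n : ℕ}

/-- the conjugation `x ↦ x ^ q` as a ring automorphism -/
noncomputable def s0 (D : QD F q) : RingAut F :=
  RingEquiv.ofRingHom D.φ D.φ (RingHom.ext D.inv) (RingHom.ext D.inv)

theorem s0_apply (D : QD F q) (x : F) : s0 D x = D.φ x := rfl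

theorem s0_sq (D : QD F q) : s0 D * s0 D = 1 := by
  ext x
  exact D.inv x

theorem s0_ne (D : QD F q) : s0 D ≠ 1 := by
  intro h
  obtain ⟨x, hx⟩ := D.ne
  apply hx
  rw [← s0_apply, h]
  rfl

theorem orderOf_s0 (D : QD F q) : orderOf (s0 D) = 2 := by
  haveI : Fact (Nat.Prime 2) := ⟨Nat.prime_two⟩
  exact orderOf_eq_prime (by rw [pow_two]; exact s0_sq D) (s0_ne D)

theorem gm_mem (D : QD F q) (g : ↥(Cfsg.GU n F q)) : ((gm g).map D.φ)ᵀ * gm g = 1 :=
  (Cfsg.Agent.Lib.Helper40.HermAdj.mem_GU_iff D.φ D.hφ g.1).1 g.2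

/-- a matrix with `M̄ᵀ M = 1` as an element of `GU` -/
noncomputable def ofMat (D : QD F q) (M : Matrix (Fin n) (Fin n) F)
    (hM : (M.map D.φ)ᵀ * M = 1) : ↥(Cfsg.GU n F q) :=
  Cfsg.Agent.Lib.Helper45.GUCard.mkGU D.φ D.hφ M
    ((Cfsg.Agent.Lib.Helper40.HermAdj.preserves_iff D.φ D.hφ M).2 hM)

theorem gm_ofMat (D : QD F q) (M : Matrix (Fin n) (Fin n) F)
    (hM : (M.map D.φ)ᵀ * M = 1) : gm (ofMat D M hM) = M := rfl

/-- transpose on `GU` -/
noncomputable def gT (D : QD F q) (g : ↥(Cfsg.GU n F q)) : ↥(Cfsg.GU n F q) :=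
  mapGU D (s0 D) g⁻¹

theorem gm_gT (D : QD F q) (g : ↥(Cfsg.GU n F q)) : gm (gT D g) = (gm g)ᵀ := by
  have h1 : gm (gT D g) = (gm g⁻¹).map D.φ := rfl
  have h2 := gm_mem D g⁻¹
  have h4 : ((gm g⁻¹).map D.φ)ᵀ = gm g := by
    calc ((gm g⁻¹).map D.φ)ᵀ = ((gm g⁻¹).map D.φ)ᵀ * (gm g⁻¹ * gm g) := by
          rw [gm_inv_mul, Matrix.mul_one]
      _ = gm g := by rw [← Matrix.mul_assoc, h2, Matrix.one_mul]
  rw [h1, ← h4, Matrix.transpose_transpose]

/-- the graph automorphism attached to `h ∈ GU` -/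
noncomputable def gam (D : QD F q) (h : ↥(Cfsg.GU n F q)) : MulAut (Cfsg.PSU n F q) :=
  cGU h * cσ (s0 D)

theorem cσ_mul (D : QD F q) (g : ↥(Cfsg.GU n F q)) :
    cσ (s0 D) * cGU g = cGU (gT D g⁻¹) * cσ (s0 D) := by
  rw [cσ_mul_cGU D]
  unfold gT
  rw [inv_inv]

theorem conj_gam (D : QD F q) (g h : ↥(Cfsg.GU n F q)) :
    cGU g * gam D h * (cGU g)⁻¹ = gam D (g * h * gT D g) := by
  unfold gam
  calc cGU g * (cGU h * cσ (s0 D)) * (cGU g)⁻¹ = cGU g * cGU h * (cσ (s0 D) * cGU g⁻¹) := by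
        rw [map_inv]; group
    _ = cGU g * cGU h * (cGU (gT D g) * cσ (s0 D)) := by rw [cσ_mul, inv_inv]
    _ = cGU (g * h * gT D g) * cσ (s0 D) := by rw [map_mul, map_mul]; group

theorem gam_sq (D : QD F q) (h : ↥(Cfsg.GU n F q)) :
    gam D h * gam D h = cGU (h * gT D h⁻¹) := by
  unfold gam
  calc cGU h * cσ (s0 D) * (cGU h * cσ (s0 D)) = cGU h * (cσ (s0 D) * cGU h) * cσ (s0 D) := by
        group
    _ = cGU h * (cGU (gT D h⁻¹) * cσ (s0 D)) * cσ (s0 D) := by rw [cσ_mul]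
    _ = cGU (h * gT D h⁻¹) * (cσ (s0 D) * cσ (s0 D)) := by rw [map_mul]; group
    _ = cGU (h * gT D h⁻¹) := by rw [← map_mul, s0_sq, map_one, mul_one]

theorem gm_ne_zero (hn : 1 ≤ n) (g : ↥(Cfsg.GU n F q)) : gm g ≠ 0 := by
  intro h0
  have h1 := gm_mul_inv g
  rw [h0, Matrix.zero_mul] at h1
  have h2 := congrFun (congrFun h1 ⟨0, by omega⟩) ⟨0, by omega⟩
  simp at h2

section fin

variable [Fintype F] {p f : ℕ} [Fact p.Prime] (hq : q = p ^ f) (hf : 1 ≤ f)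
  (hF : Fintype.card F = q ^ 2) (hn : 3 ≤ n)

include hq hf hF hn

/-- `cGU a = cGU b` iff the matrices differ by a scalar -/
theorem cGU_eq_iff (a b : ↥(Cfsg.GU n F q)) : cGU a = cGU b ↔ ∃ c : F, gm a = c • gm b := by
  constructor
  · intro h
    have h1 : cGU (b⁻¹ * a) = 1 := by rw [map_mul, map_inv, h, inv_mul_cancel]
    obtain ⟨c, hc⟩ := cGU_eq_one hq hf hF hn h1
    refine ⟨c, ?_⟩
    apply gm_ext
    intro x
    have h2 := hc x
    have h3 : gv a x = gv b (gv (b⁻¹ * a) x) := by rw [← gv_mul, mul_inv_cancel_left]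
    rw [Matrix.smul_mulVec]
    show gv a x = c • gv b x
    rw [h3, h2, gv_smul]
  · rintro ⟨c, hc⟩
    have h1 : cGU (b⁻¹ * a) = 1 := by
      apply cGU_scalar (c := c)
      intro x
      rw [gv_mul]
      have : gv a x = c • gv b x := by
        show gm a *ᵥ x = c • (gm b *ᵥ x)
        rw [hc, Matrix.smul_mulVec]
      rw [this, gv_smul, gv_inv_gv]
    rw [map_mul, map_inv, inv_mul_eq_one] at h1
    exact h1.symm

theorem gam_eq_iff (D : QD F q) (h h' : ↥(Cfsg.GU n F q)) :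
    gam D h = gam D h' ↔ ∃ c : F, gm h = c • gm h' := by
  unfold gam
  rw [mul_left_inj]
  exact cGU_eq_iff hq hf hF hn h h'

theorem gam_ne_one (D : QD F q) (h : ↥(Cfsg.GU n F q)) : gam D h ≠ 1 := by
  intro h1
  have h2 : cGU h⁻¹ = cσ (s0 D) := by
    rw [map_inv]
    exact (eq_inv_of_mul_eq_one_right h1).symm
  exact s0_ne D (cGU_eq_cσ hq hf hF hn h2)

/-- `cGU g` commutes with `gam D h` iff `g h gᵀ` is a scalar multiple of `h` -/
theorem commute_iff (D : QD F q) (g h : ↥(Cfsg.GU n F q)) :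
    cGU g * gam D h = gam D h * cGU g ↔ ∃ c : F, gm g * gm h * (gm g)ᵀ = c • gm h := by
  have h1 : cGU g * gam D h = gam D h * cGU g ↔ gam D (g * h * gT D g) = gam D h := by
    rw [← conj_gam]
    exact mul_inv_eq_iff_eq_mul.symm
  rw [h1, gam_eq_iff hq hf hF hn]
  simp only [gm_mul, gm_gT]

/-- conjugacy under `Inndiag` -/
theorem conj_iff (D : QD F q) (h h' : ↥(Cfsg.GU n F q)) :
    Cfsg.IsConjUnder (Cfsg.inndiagPSU n F q) (gam D h) (gam D h') ↔
      ∃ (g : ↥(Cfsg.GU n F q)) (c : F), gm h' = c • (gm g * gm h * (gm g)ᵀ) := by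
  constructor
  · rintro ⟨d, hd, e⟩
    obtain ⟨g, rfl⟩ := (mem_inndiag_iff d).1 hd
    rw [conj_gam, gam_eq_iff hq hf hF hn] at e
    obtain ⟨c, hc⟩ := e
    refine ⟨g, c, ?_⟩
    rw [hc]
    simp only [gm_mul, gm_gT]
  · rintro ⟨g, c, e⟩
    refine ⟨cGU g, cGU_mem_inndiag g, ?_⟩
    rw [conj_gam, gam_eq_iff hq hf hF hn]
    refine ⟨c, ?_⟩
    rw [e]
    simp only [gm_mul, gm_gT]

/-- `gam D h` squares to one iff `h` is symmetric or skew-symmetric -/
theorem sq_eq_one_iff (D : QD F q) (h : ↥(Cfsg.GU n F q)) :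
    gam D h * gam D h = 1 ↔ ((gm h)ᵀ = gm h ∨ (gm h)ᵀ = -gm h) := by
  have hT : (gm h⁻¹)ᵀ * (gm h)ᵀ = 1 := by
    rw [← Matrix.transpose_mul, gm_mul_inv, Matrix.transpose_one]
  have key : gam D h * gam D h = 1 ↔ ∃ c : F, gm h = c • (gm h)ᵀ := by
    rw [gam_sq, ← map_one (cGU (F := F) (n := n) (q := q)), cGU_eq_iff hq hf hF hn]
    simp only [gm_mul, gm_gT, gm_one]
    constructor
    · rintro ⟨c, hc⟩
      refine ⟨c, ?_⟩
      calc gm h = gm h * ((gm h⁻¹)ᵀ * (gm h)ᵀ) := by rw [hT, Matrix.mul_one]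
        _ = c • (gm h)ᵀ := by rw [← Matrix.mul_assoc, hc, Matrix.smul_mul, Matrix.one_mul]
    · rintro ⟨c, hc⟩
      refine ⟨c, ?_⟩
      conv_lhs => rw [hc, Matrix.smul_mul]
      have hT' : (gm h)ᵀ * (gm h⁻¹)ᵀ = 1 := by
        rw [← Matrix.transpose_mul, gm_inv_mul, Matrix.transpose_one]
      rw [hT']
  rw [key]
  have hne : gm h ≠ 0 := gm_ne_zero (by omega) h
  constructor
  · rintro ⟨t, ht⟩
    have h1 : (gm h)ᵀ = t • gm h := by
      conv_lhs => rw [ht, Matrix.transpose_smul, Matrix.transpose_transpose]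
    have h2 : (t ^ 2 - 1) • gm h = 0 := by
      have : gm h = t • (t • gm h) := by
        rw [← h1]; exact ht
      rw [sub_smul, one_smul, pow_two, ← smul_smul, ← this, sub_self]
    rcases smul_eq_zero.1 h2 with h3 | h3
    · have h4 : (t - 1) * (t + 1) = 0 := by linear_combination h3
      rcases mul_eq_zero.1 h4 with h5 | h5
      · left
        rw [h1, sub_eq_zero.1 h5, one_smul]
      · right
        rw [h1, eq_neg_of_add_eq_zero_left h5, neg_smul, one_smul]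
    · exact absurd h3 hne
  · rintro (h | h)
    · exact ⟨1, by rw [one_smul, h]⟩
    · exact ⟨-1, by rw [neg_smul, one_smul, h, neg_neg]⟩

theorem order_two_iff (D : QD F q) (h : ↥(Cfsg.GU n F q)) :
    orderOf (gam D h) = 2 ↔ ((gm h)ᵀ = gm h ∨ (gm h)ᵀ = -gm h) := by
  rw [← sq_eq_one_iff hq hf hF hn D h]
  constructor
  · intro h2
    have := pow_orderOf_eq_one (gam D h)
    rw [h2, pow_two] at this
    exact this
  · intro h2
    haveI : Fact (Nat.Prime 2) := ⟨Nat.prime_two⟩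
    exact orderOf_eq_prime (by rw [pow_two]; exact h2) (gam_ne_one hq hf hF hn D h)

omit [Fintype F] [Fact p.Prime] hq hf hF in
theorem gam_isGraph (D : QD F q) (h : ↥(Cfsg.GU n F q)) : Cfsg.IsGraphAutClassPSU (gam D h) := by
  refine ⟨hn, cGU h, cσ (s0 D), s0 D, ?_, (isInnerDiag_iff _).2 ⟨h, rfl⟩,
    (isFieldOf_iff _ _).2 rfl, rfl⟩
  rw [orderOf_s0]
  exact even_two

/-- every graph-class automorphism of order two is some `gam D h` -/
theorem graph_order_two (D : QD F q) (β : MulAut (Cfsg.PSU n F q))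
    (hβ : Cfsg.IsGraphAutClassPSU β) (h2 : orderOf β = 2) :
    ∃ h : ↥(Cfsg.GU n F q), β = gam D h := by
  obtain ⟨-, δ, φ', σ, hev, hδ, hφ', rfl⟩ := hβ
  obtain ⟨g, rfl⟩ := (isInnerDiag_iff δ).1 hδ
  rw [(isFieldOf_iff σ φ').1 hφ'] at h2 ⊢
  have hsq : cGU g * cσ σ * (cGU g * cσ σ) = 1 := by
    have := pow_orderOf_eq_one (cGU g * cσ σ)
    rw [h2, pow_two] at this
    exact this
  have h3 : cGU (g * mapGU D σ g) * cσ (σ * σ) = cGU 1 * cσ 1 := by
    rw [map_one, map_one, one_mul, ← hsq, map_mul, map_mul]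
    calc cGU g * cGU (mapGU D σ g) * (cσ σ * cσ σ)
        = cGU g * (cGU (mapGU D σ g) * cσ σ) * cσ σ := by group
      _ = cGU g * cσ σ * (cGU g * cσ σ) := by rw [← cσ_mul_cGU D]; group
  have h4 := (decomp_unique hq hf hF hn h3).1
  have hF' : Fintype.card F = p ^ (2 * f) := by rw [hF, hq, ← pow_mul, mul_comm]
  haveI : CharP F p := Cfsg.Agent.Lib.Helper43.PSLnOut.charP_of_card (by omega) hF'
  have h5 : orderOf σ = 2 := by
    have h6 : orderOf σ ∣ 2 := orderOf_dvd_of_pow_eq_one (by rw [pow_two]; exact h4)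
    rcases (Nat.dvd_prime Nat.prime_two).1 h6 with h7 | h7
    · rw [h7] at hev
      exact absurd hev (by decide)
    · exact h7
  have h8 : σ = s0 D :=
    Cfsg.Agent.Lib.Helper43.FrobInv.involution_unique p (2 * f)
      (by rw [Nat.card_eq_fintype_card, hF']) σ (s0 D) h5 (orderOf_s0 D)
  exact ⟨g, by rw [h8]; rfl⟩

end fin

end Cfsg.Agent.Lib.Helper45.UGraph
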