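import Mathlib
import Cfsg.Prelude.Def_LieTypeDatum
import Cfsg.Agent.Lib.Helper45.UGraph
import Cfsg.Agent.Lib.Helper45.UDescAlg
import Cfsg.Agent.Lib.Helper45.GraphReps
import Cfsg.Agent.Lib.Helper43.H90GL
import Cfsg.Agent.Lib.Helper43.HermClass

set_option autoImplicit false
set_option linter.unusedSectionVars false

/-!
Descent of involutory graph automorphisms `gam D h` of `PSU_n(q)` to the fixed field `F₀`:
`C_Inndiag(gam D h)` is the projective similarity group over `F₀` of a bilinear form `S`, and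
congruence of the descended forms (up to a scalar) gives conjugacy under `Inndiag`.
-/

namespace Cfsg.Agent.Lib.Helper45.UDesc

open Matrix Cfsg.Agent.Lib.Helper43.SUBase Cfsg.Agent.Lib.Helper43.SUAuts
  Cfsg.Agent.Lib.Helper43.SUInn Cfsg.Agent.Lib.Helper43.SUOut
  Cfsg.Agent.Lib.Helper45.UGraph Cfsg.Agent.Lib.Helper45.UDescAlg
open Cfsg.Agent.Lib.Helper40.HermAdj (adj adj_mul adj_one)
open Cfsg.Agent.Lib.Helper45.GraphReps (mem_bsim_iff cent_bil)

variable {F : Type*} [Field F] {q n : ℕ} {F₀ : Type*} [Field F₀]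

/-- descent data for `h ∈ GU` -/
structure Desc (D : QD F q) (ι : F₀ →+* F) (θ : F) (h : ↥(Cfsg.GU n F q))
    (k ki : Matrix (Fin n) (Fin n) F) (S : Matrix (Fin n) (Fin n) F₀) : Prop where
  dd : DD D.φ k ki (S.map ι) θ
  hh : ∃ κ : F, κ ≠ 0 ∧ k * gm h * kᵀ = κ • (θ • (k * adj D.φ k))

theorem unfold_adj (φ : F →+* F) (M : Matrix (Fin n) (Fin n) F) (h : adj φ M * M = 1) :
    (M.map φ)ᵀ * M = 1 := h

theorem cj_map (D : QD F q) (ι : F₀ →+* F) (hι : ∀ x : F, D.φ x = x ↔ x ∈ Set.range ι)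
    (S : Matrix (Fin n) (Fin n) F₀) : cj D.φ (S.map ι) = S.map ι := by
  ext i j
  exact (hι _).2 ⟨S i j, rfl⟩

theorem exists_map_eq (D : QD F q) (ι : F₀ →+* F) (hι : ∀ x : F, D.φ x = x ↔ x ∈ Set.range ι)
    (R : Matrix (Fin n) (Fin n) F) (hR : cj D.φ R = R) :
    ∃ S₀ : Matrix (Fin n) (Fin n) F₀, S₀.map ι = R := by
  have h : ∀ i j, ∃ x : F₀, ι x = R i j :=
    fun i j => (hι (R i j)).1 (congrFun (congrFun hR i) j)
  choose f hf using h
  exact ⟨Matrix.of f, by ext i j; exact hf i j⟩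

theorem map_smul_ι (ι : F₀ →+* F) (t : F₀) (S : Matrix (Fin n) (Fin n) F₀) :
    (t • S).map ι = ι t • S.map ι := by
  ext i j
  simp

theorem map_mul3 (ι : F₀ →+* F) (A B C : Matrix (Fin n) (Fin n) F₀) :
    (Aᵀ * B * C).map ι = (A.map ι)ᵀ * B.map ι * C.map ι := by
  rw [Matrix.map_mul, Matrix.map_mul]
  rfl

theorem map_one_ι (ι : F₀ →+* F) : (1 : Matrix (Fin n) (Fin n) F₀).map ι = 1 :=
  Matrix.map_one _ (map_zero ι) (map_one ι)

theorem hex (D : QD F q) (c' : F) (hc' : c' * D.φ c' = 1) :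
    ∃ c : F, c ≠ 0 ∧ D.φ c = c * c' := by
  by_cases h : 1 + D.φ c' = 0
  · obtain ⟨z, hz0, hz⟩ := D.exists_skew
    refine ⟨z, hz0, ?_⟩
    have h1 : D.φ c' = -1 := by linear_combination h
    have h2 : c' = -1 := by
      have := congrArg D.φ h1
      rw [D.inv, map_neg, map_one] at this
      exact this
    rw [hz, h2]
    ring
  · refine ⟨1 + D.φ c', h, ?_⟩
    rw [map_add, map_one, D.inv]
    linear_combination -hc'

theorem one_ne_zero' (hn : 1 ≤ n) : (1 : Matrix (Fin n) (Fin n) F) ≠ 0 := by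
  intro h0
  have := congrFun (congrFun h0 ⟨0, by omega⟩) ⟨0, by omega⟩
  simp at this

theorem det_ne_of_desc {D : QD F q} {ι : F₀ →+* F} {θ : F} {h : ↥(Cfsg.GU n F q)}
    {k ki : Matrix (Fin n) (Fin n) F} {S : Matrix (Fin n) (Fin n) F₀}
    (hd : Desc D ι θ h k ki S) : S.det ≠ 0 := by
  intro hS0
  have := congrArg Matrix.det hd.dd.hS
  rw [Matrix.det_mul, Matrix.det_one, ← RingHom.mapMatrix_apply, ← RingHom.map_det, hS0, map_zero,
    zero_mul] at this
  exact zero_ne_one this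

section main

variable [Fintype F] {p f : ℕ} [Fact p.Prime] (hq : q = p ^ f) (hf : 1 ≤ f)
  (hF : Fintype.card F = q ^ 2) (hn : 3 ≤ n)

include hq hf hF hn

/-- the centralizer of `gam D h` in `Inndiag(PSU_n(q))` is the projective similarity group of the
descended bilinear form -/
theorem cent_sim (D : QD F q) (ι : F₀ →+* F) (hι : ∀ x : F, D.φ x = x ↔ x ∈ Set.range ι)
    {θ : F} {h : ↥(Cfsg.GU n F q)} {k ki : Matrix (Fin n) (Fin n) F}
    {S : Matrix (Fin n) (Fin n) F₀} (hd : Desc D ι θ h k ki S) :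
    Nonempty (↥(Cfsg.inndiagPSU n F q ⊓ Subgroup.centralizer {gam D h}) ≃*
      Cfsg.projQuot (Cfsg.Geo.similarityGroup (F := F₀)
        (fun u v : Fin n → F₀ => u ⬝ᵥ (S *ᵥ v)))) := by
  classical
  obtain ⟨κ, hκ, hH⟩ := hd.hh
  have d := hd.dd
  let Sim := Cfsg.Geo.similarityGroup (F := F₀) (fun u v : Fin n → F₀ => u ⬝ᵥ (S *ᵥ v))
  have hτ_of : ∀ (B : ↥Sim) (t : F₀ˣ),
      ((B.1 : GL (Fin n) F₀) : Matrix (Fin n) (Fin n) F₀)ᵀ * S
        * ((B.1 : GL (Fin n) F₀) : Matrix (Fin n) (Fin n) F₀) = (t : F₀) • S →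
      (((B.1 : GL (Fin n) F₀) : Matrix (Fin n) (Fin n) F₀).map ι)ᵀ * S.map ι
        * ((B.1 : GL (Fin n) F₀) : Matrix (Fin n) (Fin n) F₀).map ι = ι (t : F₀) • S.map ι := by
    intro B t ht
    rw [← map_mul3, ht, map_smul_ι]
  have hex1 : ∀ B : ↥Sim, ∃ g : ↥(Cfsg.GU n F q), ∃ c : F, c ≠ 0 ∧
      gm g = c • (ki * ((B.1 : GL (Fin n) F₀) : Matrix (Fin n) (Fin n) F₀).map ι * k) := by
    intro B
    obtain ⟨t, ht⟩ := (mem_bsim_iff S B.1).1 B.2
    have htfix : D.φ (ι (t : F₀)) = ι (t : F₀) := (hι _).2 ⟨_, rfl⟩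
    obtain ⟨c, hc⟩ := D.nm _ htfix
    have hιt : ι (t : F₀) ≠ 0 := (map_ne_zero ι).2 t.ne_zero
    have hc0 : c ≠ 0 := by
      rintro rfl
      rw [zero_mul] at hc
      exact hιt hc.symm
    have hu := d.unitary _ (cj_map D ι hι _) (ι (t : F₀)) c (hτ_of B t ht) hc hc0
    exact ⟨ofMat D _ (unfold_adj _ _ hu), c⁻¹, inv_ne_zero hc0, rfl⟩
  choose gB cB hcB hgB using hex1
  have hcomm : ∀ B : ↥Sim,
      cGU (gB B) ∈ Cfsg.inndiagPSU n F q ⊓ Subgroup.centralizer {gam D h} := by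
    intro B
    refine ⟨cGU_mem_inndiag _, ?_⟩
    show cGU (gB B) ∈ Subgroup.centralizer {gam D h}
    rw [Subgroup.mem_centralizer_iff]
    intro x hx
    rw [Set.mem_singleton_iff] at hx
    rw [hx]
    refine ((commute_iff hq hf hF hn D (gB B) h).2 ?_).symm
    obtain ⟨t, ht⟩ := (mem_bsim_iff S B.1).1 B.2
    have hBi : ((B.1 : GL (Fin n) F₀) : Matrix (Fin n) (Fin n) F₀).map ι
        * (((B.1 : GL (Fin n) F₀)⁻¹ : GL (Fin n) F₀) : Matrix (Fin n) (Fin n) F₀).map ι = 1 := by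
      rw [← Matrix.map_mul, ← Units.val_mul, mul_inv_cancel, Units.val_one, map_one_ι]
    refine ⟨cB B * cB B * ι (t : F₀), ?_⟩
    rw [hgB B]
    exact d.comm (gm h) κ hH _ _ hBi (ι (t : F₀)) (hτ_of B t ht) (cB B)
  let Ψ : ↥Sim →* ↥(Cfsg.inndiagPSU n F q ⊓ Subgroup.centralizer {gam D h}) :=
    { toFun := fun B => ⟨cGU (gB B), hcomm B⟩
      map_one' := by
        apply Subtype.ext
        show cGU (gB 1) = 1
        rw [← map_one (cGU (F := F) (n := n) (q := q)), cGU_eq_iff hq hf hF hn]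
        refine ⟨cB 1, ?_⟩
        rw [hgB 1, gm_one]
        have : (((1 : ↥Sim).1 : GL (Fin n) F₀) : Matrix (Fin n) (Fin n) F₀).map ι = 1 := map_one_ι ι
        rw [this, Matrix.mul_one, d.h2]
      map_mul' := fun A B => by
        apply Subtype.ext
        show cGU (gB (A * B)) = cGU (gB A) * cGU (gB B)
        rw [← map_mul, cGU_eq_iff hq hf hF hn]
        refine ⟨cB (A * B) * (cB A * cB B)⁻¹, ?_⟩
        rw [hgB (A * B), gm_mul, hgB A, hgB B]
        have e : (((A * B : ↥Sim).1 : GL (Fin n) F₀) : Matrix (Fin n) (Fin n) F₀).map ι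
            = ((A.1 : GL (Fin n) F₀) : Matrix (Fin n) (Fin n) F₀).map ι
              * ((B.1 : GL (Fin n) F₀) : Matrix (Fin n) (Fin n) F₀).map ι := by
          rw [← Matrix.map_mul]
          rfl
        rw [e]
        have e2 : (cB A • (ki * ((A.1 : GL (Fin n) F₀) : Matrix (Fin n) (Fin n) F₀).map ι * k))
            * (cB B • (ki * ((B.1 : GL (Fin n) F₀) : Matrix (Fin n) (Fin n) F₀).map ι * k))
            = (cB A * cB B) • (ki * (((A.1 : GL (Fin n) F₀) : Matrix (Fin n) (Fin n) F₀).map ι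
              * ((B.1 : GL (Fin n) F₀) : Matrix (Fin n) (Fin n) F₀).map ι) * k) := by
          calc (cB A • (ki * ((A.1 : GL (Fin n) F₀) : Matrix (Fin n) (Fin n) F₀).map ι * k))
              * (cB B • (ki * ((B.1 : GL (Fin n) F₀) : Matrix (Fin n) (Fin n) F₀).map ι * k))
              = (cB A * cB B) • (ki * (((A.1 : GL (Fin n) F₀) : Matrix (Fin n) (Fin n) F₀).map ι
                * ((k * ki) * ((B.1 : GL (Fin n) F₀) : Matrix (Fin n) (Fin n) F₀).map ι)) * k) := by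
                simp only [Matrix.smul_mul, Matrix.mul_smul, smul_smul, Matrix.mul_assoc]
                rw [mul_comm (cB B) (cB A)]
            _ = _ := by rw [d.h1, Matrix.one_mul]
        rw [e2, smul_smul, inv_mul_cancel_right₀ (mul_ne_zero (hcB A) (hcB B))] }
  have hsurj : Function.Surjective Ψ := by
    rintro ⟨x, hx1, hx2⟩
    obtain ⟨g, rfl⟩ := (mem_inndiag_iff x).1 hx1
    have hx2' : cGU g ∈ Subgroup.centralizer {gam D h} := hx2
    rw [Subgroup.mem_centralizer_iff] at hx2'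
    have h3 := (hx2' _ (Set.mem_singleton _)).symm
    obtain ⟨c', hc'⟩ := (commute_iff hq hf hF hn D g h).1 h3
    obtain ⟨c, hc0, hreal, hsim⟩ := d.real_of_comm D.inv (gm h) (gm g) κ hκ hH (gm_mem D g) c' hc'
      (one_ne_zero' (by omega)) (hex D)
    obtain ⟨B₀, hB₀⟩ := exists_map_eq D ι hι _ hreal
    obtain ⟨t, ht⟩ := (hι (c * D.φ c)).1 (D.nm_fixed c)
    have ht0 : t ≠ 0 := by
      rintro rfl
      rw [map_zero] at ht
      have hφc : D.φ c ≠ 0 := (map_ne_zero D.φ).2 hc0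
      exact mul_ne_zero hc0 hφc ht.symm
    have hB1 : B₀ᵀ * S * B₀ = t • S := by
      apply Matrix.map_injective ι.injective
      show (B₀ᵀ * S * B₀).map ι = (t • S).map ι
      rw [map_mul3, map_smul_ι, hB₀, ht]
      exact hsim
    have hS0 := det_ne_of_desc hd
    have hdet : B₀.det ≠ 0 := by
      intro h0
      have := congrArg Matrix.det hB1
      rw [Matrix.det_mul, Matrix.det_mul, Matrix.det_transpose, h0, zero_mul, zero_mul,
        Matrix.det_smul] at this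
      exact (mul_ne_zero (pow_ne_zero _ ht0) hS0) this.symm
    let Bg : GL (Fin n) F₀ := Matrix.GeneralLinearGroup.mkOfDetNeZero B₀ hdet
    have hBg : (Bg : Matrix (Fin n) (Fin n) F₀) = B₀ := rfl
    have hmem : Bg ∈ Sim := (mem_bsim_iff S Bg).2 ⟨Units.mk0 t ht0, by rw [hBg]; exact hB1⟩
    refine ⟨⟨Bg, hmem⟩, ?_⟩
    apply Subtype.ext
    show cGU (gB ⟨Bg, hmem⟩) = cGU g
    rw [cGU_eq_iff hq hf hF hn]
    refine ⟨cB ⟨Bg, hmem⟩ * c, ?_⟩
    rw [hgB ⟨Bg, hmem⟩]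
    show cB ⟨Bg, hmem⟩ • (ki * B₀.map ι * k) = _
    rw [hB₀]
    calc cB ⟨Bg, hmem⟩ • (ki * (c • (k * gm g * ki)) * k)
        = (cB ⟨Bg, hmem⟩ * c) • ((ki * k) * (gm g * (ki * k))) := by
          simp only [Matrix.smul_mul, Matrix.mul_smul, smul_smul, Matrix.mul_assoc]
      _ = (cB ⟨Bg, hmem⟩ * c) • gm g := by rw [d.h2, Matrix.one_mul, Matrix.mul_one]
  have hker : Ψ.ker = (Cfsg.Geo.scalars (Fin n) F₀).subgroupOf Sim := by
    ext B
    rw [MonoidHom.mem_ker, Subgroup.mem_subgroupOf, Cfsg.Geo.mem_scalars_iff]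
    have e : Ψ B = 1 ↔ cGU (gB B) = 1 := by
      constructor
      · intro hh
        exact congrArg Subtype.val hh
      · intro hh
        exact Subtype.ext hh
    rw [e, ← map_one (cGU (F := F) (n := n) (q := q)), cGU_eq_iff hq hf hF hn, gm_one, hgB B]
    constructor
    · rintro ⟨c', hc'⟩
      have h1 : ((B.1 : GL (Fin n) F₀) : Matrix (Fin n) (Fin n) F₀).map ι
          = (c' * (cB B)⁻¹) • 1 := by
        calc ((B.1 : GL (Fin n) F₀) : Matrix (Fin n) (Fin n) F₀).map ι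
            = (cB B)⁻¹ • (k * (cB B • (ki * ((B.1 : GL (Fin n) F₀) : Matrix (Fin n) (Fin n) F₀).map ι
                * k)) * ki) := by
              have : k * (cB B • (ki * ((B.1 : GL (Fin n) F₀) : Matrix (Fin n) (Fin n) F₀).map ι
                  * k)) * ki = cB B • ((k * ki) * (((B.1 : GL (Fin n) F₀) : Matrix (Fin n) (Fin n) F₀).map ι
                  * (k * ki))) := by
                simp only [Matrix.smul_mul, Matrix.mul_smul, Matrix.mul_assoc]
              rw [this, d.h1, Matrix.one_mul, Matrix.mul_one, smul_smul, inv_mul_cancel₀ (hcB B),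
                one_smul]
          _ = (c' * (cB B)⁻¹) • 1 := by
              rw [hc']
              simp only [Matrix.smul_mul, Matrix.mul_smul, Matrix.mul_one, smul_smul, d.h1]
              congr 1
              ring
      obtain ⟨b, hb⟩ : ∃ b : F₀, b = ((B.1 : GL (Fin n) F₀) : Matrix (Fin n) (Fin n) F₀)
          ⟨0, by omega⟩ ⟨0, by omega⟩ := ⟨_, rfl⟩
      have hb1 : ι b = c' * (cB B)⁻¹ := by
        have h00 := congrFun (congrFun h1 ⟨0, by omega⟩) ⟨0, by omega⟩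
        rw [hb]
        simpa using h00
      have hBmat : ((B.1 : GL (Fin n) F₀) : Matrix (Fin n) (Fin n) F₀) = b • 1 := by
        apply Matrix.map_injective ι.injective
        show ((B.1 : GL (Fin n) F₀) : Matrix (Fin n) (Fin n) F₀).map ι = (b • (1 : Matrix (Fin n) (Fin n) F₀)).map ι
        rw [h1, map_smul_ι, map_one_ι, hb1]
      have hb0 : b ≠ 0 := by
        intro hb0
        rw [hb0, zero_smul] at hBmat
        have h2 : ((B.1 : GL (Fin n) F₀) : Matrix (Fin n) (Fin n) F₀)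
            * (((B.1 : GL (Fin n) F₀)⁻¹ : GL (Fin n) F₀) : Matrix (Fin n) (Fin n) F₀) = 1 := by
          rw [← Units.val_mul, mul_inv_cancel, Units.val_one]
        rw [hBmat, Matrix.zero_mul] at h2
        have := congrFun (congrFun h2 ⟨0, by omega⟩) ⟨0, by omega⟩
        simp at this
      exact ⟨Units.mk0 b hb0, hBmat⟩
    · rintro ⟨b, hb⟩
      refine ⟨cB B * ι (b : F₀), ?_⟩
      rw [hb, map_smul_ι, map_one_ι]
      simp only [Matrix.mul_smul, Matrix.smul_mul, Matrix.mul_one, smul_smul, d.h2]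
  obtain ⟨e⟩ := Cfsg.Agent.Lib.Helper45.PGOCongr.quot_equiv_of_surj _ Ψ hsurj hker
  exact ⟨e.symm⟩

/-- the centralizer of `gam D h` in `Inndiag(PSU_n(q))` is isomorphic to the centralizer in
`Inndiag(PSL_n(F₀))` of the graph automorphism attached to the descended form -/
theorem cent_psl (D : QD F q) (ι : F₀ →+* F) (hι : ∀ x : F, D.φ x = x ↔ x ∈ Set.range ι)
    {θ : F} {h : ↥(Cfsg.GU n F q)} {k ki : Matrix (Fin n) (Fin n) F} (Sg : GL (Fin n) F₀)
    (hd : Desc D ι θ h k ki (Sg : Matrix (Fin n) (Fin n) F₀)) :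
    Nonempty (↥(Cfsg.inndiagPSU n F q ⊓ Subgroup.centralizer {gam D h}) ≃*
      ↥(Cfsg.inndiagPSL n F₀ ⊓ Subgroup.centralizer
        {Cfsg.Agent.Lib.Helper43.PSLnAuts.cτ * Cfsg.Agent.Lib.Helper43.PSLnAuts.cGL Sg})) := by
  obtain ⟨e⟩ := cent_sim hq hf hF hn D ι hι hd
  obtain ⟨e'⟩ := cent_bil (by omega : 2 ≤ n) Sg
  exact ⟨e.trans e'.symm⟩

/-- congruent descended forms (up to a scalar) give conjugate graph automorphisms -/
theorem conj_of_cong (D : QD F q) (ι : F₀ →+* F) (hι : ∀ x : F, D.φ x = x ↔ x ∈ Set.range ι)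
    {θ : F} {h h' : ↥(Cfsg.GU n F q)} {k ki k' ki' : Matrix (Fin n) (Fin n) F}
    {S S' : Matrix (Fin n) (Fin n) F₀} (hd : Desc D ι θ h k ki S) (hd' : Desc D ι θ h' k' ki' S')
    (T : Matrix (Fin n) (Fin n) F₀) (hT : IsUnit T.det) (t : F₀) (ht : t ≠ 0)
    (e : S' = t • (Tᵀ * S * T)) :
    Cfsg.IsConjUnder (Cfsg.inndiagPSU n F q) (gam D h) (gam D h') := by
  obtain ⟨κ, hκ, hH⟩ := hd.hh
  obtain ⟨κ', hκ', hH'⟩ := hd'.hh
  have hTTi : T * T⁻¹ = 1 := Matrix.mul_nonsing_inv T hT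
  have hιt : ι t ≠ 0 := (map_ne_zero ι).2 ht
  have hfix : D.φ (ι t)⁻¹ = (ι t)⁻¹ := by rw [map_inv₀, (hι _).2 ⟨t, rfl⟩]
  obtain ⟨c, hc⟩ := D.nm _ hfix
  have hc1 : c * D.φ c * ι t = 1 := by rw [hc, inv_mul_cancel₀ hιt]
  have hc0 : c ≠ 0 := by
    rintro rfl
    rw [zero_mul, zero_mul] at hc1
    exact zero_ne_one hc1
  have hS₂ : S'.map ι = ι t • ((T.map ι)ᵀ * S.map ι * T.map ι) := by
    rw [e, map_smul_ι, map_mul3]
  obtain ⟨hu, hcj⟩ := hd.dd.conj hd'.dd (gm h) (gm h') κ κ' hκ' hH hH' (T.map ι) ((T⁻¹).map ι)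
    (cj_map D ι hι _) (by rw [← Matrix.map_mul, hTTi, map_one_ι]) (ι t) hS₂ c hc1
  rw [conj_iff hq hf hF hn D]
  refine ⟨ofMat D _ (unfold_adj _ _ hu), (c * c * κ * ι t * κ'⁻¹)⁻¹, ?_⟩
  rw [gm_ofMat, hcj, smul_smul, inv_mul_cancel₀, one_smul]
  exact mul_ne_zero (mul_ne_zero (mul_ne_zero (mul_ne_zero hc0 hc0) hκ) hιt) (inv_ne_zero hκ')

end main

end Cfsg.Agent.Lib.Helper45.UDesc
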