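import Mathlib
import Cfsg.Prelude.Def_LieTypeDatum
import Cfsg.Agent.Lib.Helper45.UDesc

set_option autoImplicit false
set_option linter.unusedSectionVars false

/-!
Existence of descent data: every `ε`-symmetric `h ∈ GU` has descent data (Hilbert 90), and every
`ε`-symmetric invertible form over the fixed field arises (classification of Hermitian forms).
-/

namespace Cfsg.Agent.Lib.Helper45.UDescEx

open Matrix Cfsg.Agent.Lib.Helper43.SUBase Cfsg.Agent.Lib.Helper43.SUAuts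
  Cfsg.Agent.Lib.Helper45.UGraph Cfsg.Agent.Lib.Helper45.UDescAlg Cfsg.Agent.Lib.Helper45.UDesc
open Cfsg.Agent.Lib.Helper40.HermAdj (adj adj_mul adj_one)

variable {F : Type*} [Field F] {q n : ℕ} {F₀ : Type*} [Field F₀]

/-- descent data from `h` -/
theorem exists_desc (D : QD F q) (ι : F₀ →+* F) (hι : ∀ x : F, D.φ x = x ↔ x ∈ Set.range ι)
    (ε θ lam : F) (hε : ε * ε = 1) (hφε : D.φ ε = ε) (hθ0 : θ ≠ 0) (hθ : D.φ θ = ε * θ)
    (hlam : lam * D.φ lam = ε) (h : ↥(Cfsg.GU n F q)) (hs : (gm h)ᵀ = ε • gm h) :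
    ∃ (k ki : Matrix (Fin n) (Fin n) F) (S : Matrix (Fin n) (Fin n) F₀),
      Desc D ι θ h k ki S ∧ (S.map ι)ᵀ = ε • S.map ι ∧ IsUnit S.det := by
  classical
  have hε0 : ε ≠ 0 := by
    rintro rfl
    rw [zero_mul] at hε
    exact zero_ne_one hε
  have hlam0 : lam ≠ 0 := by
    rintro rfl
    rw [zero_mul] at hlam
    exact hε0 hlam.symm
  have hU : adj D.φ (gm h) * gm h = 1 := gm_mem D h
  have hadj : adj D.φ (gm h) = ε • cj D.φ (gm h) := by
    rw [adj_eq, ← cj_transpose, hs, cj_smul, hφε]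
  have h1 : cj D.φ (gm h) * gm h = ε • 1 := by
    have h0 : ε • (cj D.φ (gm h) * gm h) = 1 := by rw [← Matrix.smul_mul, ← hadj, hU]
    calc cj D.φ (gm h) * gm h = (ε * ε) • (cj D.φ (gm h) * gm h) := by rw [hε, one_smul]
      _ = ε • 1 := by rw [← smul_smul, h0]
  have h2 : cj D.φ (lam • gm h) * (lam • gm h) = 1 := by
    rw [cj_smul, Matrix.smul_mul, Matrix.mul_smul, smul_smul, h1, smul_smul]
    have : D.φ lam * lam * ε = 1 := by rw [mul_comm (D.φ lam), hlam, hε]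
    rw [this, one_smul]
  have h2' : (lam • gm h) * cj D.φ (lam • gm h) = 1 := _root_.mul_eq_one_comm.1 h2
  have hG1T : (lam • gm h)ᵀ = ε • (lam • gm h) := by
    rw [Matrix.transpose_smul, hs, smul_comm]
  obtain ⟨B, hBu, hB⟩ := Cfsg.Agent.Lib.Helper43.H90GL.h90_matrix (s0 D)
    (by rw [orderOf_s0]; norm_num) (lam • gm h)
    (fun i => Nat.rec 1 (fun _ a => (lam • gm h) * a.map (s0 D)) i) rfl (fun i => rfl) (by
      rw [orderOf_s0]
      show (lam • gm h) * cj D.φ ((lam • gm h) * cj D.φ 1) = 1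
      rw [cj_one, Matrix.mul_one, h2'])
  have hB' : (lam • gm h) * cj D.φ B = B := hB
  have hBdet : IsUnit B.det := (Matrix.isUnit_iff_isUnit_det B).1 hBu
  obtain ⟨k, hk⟩ : ∃ k : Matrix (Fin n) (Fin n) F, k = B⁻¹ := ⟨_, rfl⟩
  have k1 : k * B = 1 := by rw [hk]; exact Matrix.nonsing_inv_mul B hBdet
  have k2 : B * k = 1 := by rw [hk]; exact Matrix.mul_nonsing_inv B hBdet
  -- `cj B = cj G₁ * B`
  have hcB : cj D.φ B = cj D.φ (lam • gm h) * B := by
    conv_rhs => rw [← hB', ← Matrix.mul_assoc, h2, Matrix.one_mul]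
  -- `cj k = k * G₁`
  have hck : cj D.φ k = k * (lam • gm h) := by
    have e1 : cj D.φ k * cj D.φ B = 1 := by rw [← cj_mul, k1, cj_one]
    have e2 : cj D.φ k * cj D.φ (lam • gm h) = k := by
      calc cj D.φ k * cj D.φ (lam • gm h)
          = (cj D.φ k * (cj D.φ (lam • gm h) * B)) * k := by
            rw [Matrix.mul_assoc, Matrix.mul_assoc, k2, Matrix.mul_one]
        _ = k := by rw [← hcB, e1, Matrix.one_mul]
    calc cj D.φ k = cj D.φ k * (cj D.φ (lam • gm h) * (lam • gm h)) := by rw [h2, Matrix.mul_one]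
      _ = k * (lam • gm h) := by rw [← Matrix.mul_assoc, e2]
  have hadk : adj D.φ k = (lam * ε) • (gm h * kᵀ) := by
    rw [adj_eq, hck, Matrix.transpose_mul, Matrix.transpose_smul, hs, smul_smul, Matrix.smul_mul]
  have hkk : k * adj D.φ k = (lam * ε) • (k * gm h * kᵀ) := by
    rw [hadk, Matrix.mul_smul, Matrix.mul_assoc]
  -- the real form
  have hBB : Bᵀ * cj D.φ B = ε • (adj D.φ B * B) := by
    have e1 : adj D.φ B * B = ε • (Bᵀ * cj D.φ B) := by
      rw [adj_eq]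
      conv_lhs => rw [hcB, Matrix.transpose_mul, ← cj_transpose, hG1T, cj_smul, hφε]
      rw [hcB]
      simp only [Matrix.mul_smul, Matrix.smul_mul, Matrix.mul_assoc]
    rw [e1, smul_smul, hε, one_smul]
  have hreal : cj D.φ (θ⁻¹ • (adj D.φ B * B)) = θ⁻¹ • (adj D.φ B * B) := by
    rw [cj_smul, cj_mul, cj_adj D.φ D.inv, hBB, smul_smul, map_inv₀, hθ]
    congr 1
    field_simp
  obtain ⟨S, hS⟩ := exists_map_eq D ι hι _ hreal
  have hprod : (adj D.φ B * B) * (k * adj D.φ k) = 1 := by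
    calc (adj D.φ B * B) * (k * adj D.φ k) = adj D.φ B * ((B * k) * adj D.φ k) := by
          simp only [Matrix.mul_assoc]
      _ = 1 := by rw [k2, Matrix.one_mul, ← adj_mul, k1, adj_one]
  have hSM : S.map ι * (θ • (k * adj D.φ k)) = 1 := by
    rw [hS, Matrix.smul_mul, Matrix.mul_smul, smul_smul, hprod, inv_mul_cancel₀ hθ0, one_smul]
  have hd : Desc D ι θ h k B S := by
    refine ⟨⟨k1, k2, hSM, hθ0⟩, (lam * ε * θ)⁻¹, inv_ne_zero (mul_ne_zero (mul_ne_zero hlam0 hε0) hθ0), ?_⟩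
    rw [hkk, smul_smul, smul_smul]
    have : (lam * ε * θ)⁻¹ * θ * (lam * ε) = 1 := by
      field_simp
    rw [this, one_smul]
  refine ⟨k, B, S, hd, ?_, ?_⟩
  · rw [hS, Matrix.transpose_smul, Matrix.transpose_mul, adj_eq, Matrix.transpose_transpose, hBB,
      smul_comm]
    rfl
  · exact isUnit_iff_ne_zero.2 (det_ne_of_desc hd)

/-- every `ε`-symmetric invertible form over the fixed field arises from some `h ∈ GU` -/
theorem exists_h (D : QD F q) (ι : F₀ →+* F) (hι : ∀ x : F, D.φ x = x ↔ x ∈ Set.range ι)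
    (ε θ : F) (hε : ε * ε = 1) (hφε : D.φ ε = ε) (hθ0 : θ ≠ 0) (hθ : D.φ θ = ε * θ)
    (S Si : Matrix (Fin n) (Fin n) F₀) (hSi : S * Si = 1) (hs : (S.map ι)ᵀ = ε • S.map ι) :
    ∃ (h : ↥(Cfsg.GU n F q)) (k ki : Matrix (Fin n) (Fin n) F),
      Desc D ι θ h k ki S ∧ (gm h)ᵀ = ε • gm h := by
  classical
  have hε0 : ε ≠ 0 := by
    rintro rfl
    rw [zero_mul] at hε
    exact zero_ne_one hε
  have hSS : S.map ι * Si.map ι = 1 := by rw [← Matrix.map_mul, hSi, map_one_ι]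
  have hSS' : Si.map ι * S.map ι = 1 := _root_.mul_eq_one_comm.1 hSS
  have hsi : (Si.map ι)ᵀ = ε • Si.map ι := by
    have e1 : (Si.map ι)ᵀ * (S.map ι)ᵀ = 1 := by
      rw [← Matrix.transpose_mul, hSS, Matrix.transpose_one]
    have e2 : (Si.map ι)ᵀ * S.map ι = ε • 1 := by
      rw [hs, Matrix.mul_smul] at e1
      calc (Si.map ι)ᵀ * S.map ι = (ε * ε) • ((Si.map ι)ᵀ * S.map ι) := by rw [hε, one_smul]
        _ = ε • 1 := by rw [← smul_smul, e1]
    calc (Si.map ι)ᵀ = (Si.map ι)ᵀ * (S.map ι * Si.map ι) := by rw [hSS, Matrix.mul_one]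
      _ = ε • Si.map ι := by rw [← Matrix.mul_assoc, e2, Matrix.smul_mul, Matrix.one_mul]
  have hGh : adj D.φ (θ⁻¹ • Si.map ι) = θ⁻¹ • Si.map ι := by
    rw [adj_smul, adj_real D.φ _ (cj_map D ι hι Si), hsi, smul_smul, map_inv₀, hθ]
    congr 1
    field_simp
  have hGu : IsUnit (θ⁻¹ • Si.map ι) := by
    refine ⟨⟨θ⁻¹ • Si.map ι, θ • S.map ι, ?_, ?_⟩, rfl⟩
    · rw [Matrix.smul_mul, Matrix.mul_smul, smul_smul, hSS', inv_mul_cancel₀ hθ0, one_smul]
    · rw [Matrix.smul_mul, Matrix.mul_smul, smul_smul, hSS, mul_inv_cancel₀ hθ0, one_smul]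
  have hN : ∀ t : F, t ≠ 0 → D.φ t = t → ∃ μ : F, μ ≠ 0 ∧ μ * D.φ μ = t := by
    intro t ht0 ht
    obtain ⟨c, hc⟩ := D.nm t ht
    refine ⟨c, ?_, hc⟩
    rintro rfl
    rw [zero_mul] at hc
    exact ht0 hc.symm
  obtain ⟨k, hku, hk⟩ := Cfsg.Agent.Lib.Helper43.HermClass.herm_class D.φ D.inv D.ne hN
    (θ⁻¹ • Si.map ι) hGh hGu
  have hkdet : IsUnit k.det := (Matrix.isUnit_iff_isUnit_det k).1 hku
  obtain ⟨ki, hki⟩ : ∃ ki : Matrix (Fin n) (Fin n) F, ki = k⁻¹ := ⟨_, rfl⟩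
  have k1 : k * ki = 1 := by rw [hki]; exact Matrix.mul_nonsing_inv k hkdet
  have k2 : ki * k = 1 := by rw [hki]; exact Matrix.nonsing_inv_mul k hkdet
  have hM : θ • (k * adj D.φ k) = Si.map ι := by
    rw [hk, smul_smul, mul_inv_cancel₀ hθ0, one_smul]
  have dd : DD D.φ k ki (S.map ι) θ := ⟨k1, k2, by rw [hM, hSS], hθ0⟩
  have hfix : D.φ (θ * θ)⁻¹ = (θ * θ)⁻¹ := by
    rw [map_inv₀, map_mul, hθ]
    congr 1
    linear_combination (θ * θ) * hε
  obtain ⟨κ, hκ⟩ := D.nm _ hfix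
  have hκ0 : κ ≠ 0 := by
    rintro rfl
    rw [zero_mul] at hκ
    exact (inv_ne_zero (mul_ne_zero hθ0 hθ0)) hκ.symm
  have a1 : adj D.φ (ki * Si.map ι * kiᵀ) = cj D.φ ki * (ε • Si.map ι) * adj D.φ ki := by
    rw [adj_mul, adj_mul, adj_transpose, adj_real D.φ _ (cj_map D ι hι Si), hsi, Matrix.mul_assoc]
  have a2 : cj D.φ ki * Si.map ι * kiᵀ = (ε * θ) • 1 := by
    have e : Si.map ι = (ε * θ) • (cj D.φ k * kᵀ) := by
      conv_lhs => rw [← cj_map D ι hι Si, ← hM, cj_smul, cj_mul, cj_adj D.φ D.inv, hθ]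
    rw [e]
    calc cj D.φ ki * ((ε * θ) • (cj D.φ k * kᵀ)) * kiᵀ
        = (ε * θ) • ((cj D.φ ki * cj D.φ k) * (kᵀ * kiᵀ)) := by
          simp only [Matrix.smul_mul, Matrix.mul_smul, Matrix.mul_assoc]
      _ = (ε * θ) • 1 := by rw [← cj_mul, k2, cj_one, dd.t1, Matrix.one_mul]
  have hunit : adj D.φ (κ • (ki * Si.map ι * kiᵀ)) * (κ • (ki * Si.map ι * kiᵀ)) = 1 := by
    rw [adj_smul, a1]
    calc (D.φ κ • (cj D.φ ki * (ε • Si.map ι) * adj D.φ ki)) * (κ • (ki * Si.map ι * kiᵀ))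
        = (D.φ κ * κ * ε) • (cj D.φ ki * (Si.map ι * ((adj D.φ ki * ki) * (Si.map ι * kiᵀ)))) := by
          simp only [Matrix.smul_mul, Matrix.mul_smul, smul_smul, Matrix.mul_assoc]
          congr 1
          ring
      _ = (D.φ κ * κ * ε * θ) • (cj D.φ ki * Si.map ι * kiᵀ) := by
          rw [dd.P_eq]
          simp only [Matrix.smul_mul, Matrix.mul_smul, smul_smul]
          rw [← Matrix.mul_assoc (S.map ι), hSS, Matrix.one_mul, Matrix.mul_assoc]
      _ = 1 := by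
          rw [a2, smul_smul]
          have : D.φ κ * κ * ε * θ * (ε * θ) = 1 := by
            have h3 : κ * D.φ κ * (θ * θ) = 1 := by
              rw [hκ, inv_mul_cancel₀ (mul_ne_zero hθ0 hθ0)]
            linear_combination h3 + (D.φ κ * κ * θ * θ) * hε
          rw [this, one_smul]
  refine ⟨ofMat D _ (unfold_adj _ _ hunit), k, ki, ⟨dd, κ, hκ0, ?_⟩, ?_⟩
  · rw [gm_ofMat, hM]
    calc k * (κ • (ki * Si.map ι * kiᵀ)) * kᵀ = κ • ((k * ki) * (Si.map ι * (kiᵀ * kᵀ))) := by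
          simp only [Matrix.smul_mul, Matrix.mul_smul, Matrix.mul_assoc]
      _ = κ • Si.map ι := by rw [k1, dd.t2, Matrix.one_mul, Matrix.mul_one]
  · rw [gm_ofMat, Matrix.transpose_smul, Matrix.transpose_mul, Matrix.transpose_mul,
      Matrix.transpose_transpose, hsi]
    simp only [Matrix.smul_mul, Matrix.mul_smul, smul_smul, Matrix.mul_assoc]
    congr 1
    ring

end Cfsg.Agent.Lib.Helper45.UDescEx
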