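import Mathlib
import Cfsg.Prelude.Def_LieTypeDatum
import Cfsg.Agent.Lib.Helper45.UDescEx
import Cfsg.Agent.Lib.Helper45.GUOrth
import Cfsg.Agent.Lib.Helper14.HermLines

set_option autoImplicit false

/-!
Standard data for the unitary graph-involution statements: the prime power, the embedding of the
field with `q` elements as the fixed field of `x ↦ x ^ q`.
-/

namespace Cfsg.Agent.Lib.Helper45.UStd

open Cfsg.Agent.Lib.Helper43.SUBase

variable {F : Type*} [Field F] {q : ℕ} {F₀ : Type*} [Field F₀]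

theorem exists_pf [Fintype F] (hF : Fintype.card F = q ^ 2) :
    ∃ p f : ℕ, p.Prime ∧ q = p ^ f ∧ 1 ≤ f := by
  obtain ⟨p, hp⟩ := CharP.exists F
  haveI : Fact p.Prime := ⟨CharP.char_is_prime F p⟩
  obtain ⟨k, hpk, hk⟩ := FiniteField.card F p
  have hq : q ∣ p ^ (k : ℕ) := by
    rw [← hk, hF]
    exact dvd_pow_self q two_ne_zero
  obtain ⟨f, -, rfl⟩ := (Nat.dvd_prime_pow hpk).1 hq
  refine ⟨p, f, hpk, rfl, ?_⟩
  by_contra h
  have hf0 : f = 0 := by omega
  rw [hf0, pow_zero, one_pow] at hF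
  have := Fintype.one_lt_card (α := F)
  omega

theorem exists_ι [Fintype F] [Fintype F₀] (hF : Fintype.card F = q ^ 2)
    (hF₀ : Fintype.card F₀ = q) (D : QD F q) :
    ∃ ι : F₀ →+* F, ∀ x : F, D.φ x = x ↔ x ∈ Set.range ι := by
  classical
  obtain ⟨ι⟩ := Cfsg.Agent.Lib.Helper45.GUOrth.exists_ringHom (F := F₀) (K := F)
    (by rw [hF, hF₀])
  refine ⟨ι, ?_⟩
  have hfix : ∀ y : F₀, (ι y) ^ q = ι y := by
    intro y
    rw [← map_pow, ← hF₀, FiniteField.pow_card]
  let g : F₀ → {c : F // c ^ q = c} := fun y => ⟨ι y, hfix y⟩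
  have hinj : Function.Injective g := fun a b hab => ι.injective (congrArg Subtype.val hab)
  have hle : Nat.card {c : F // c ^ q = c} ≤ Nat.card F₀ := by
    rw [Nat.card_eq_fintype_card (α := F₀), hF₀]
    exact Cfsg.Agent.Lib.Helper14.HermLines.card_fix_le hF
  have hbij := hinj.bijective_of_nat_card_le hle
  intro x
  rw [D.hφ]
  constructor
  · intro hx
    obtain ⟨y, hy⟩ := hbij.2 ⟨x, hx⟩
    exact ⟨y, congrArg Subtype.val hy⟩
  · rintro ⟨y, rfl⟩
    exact hfix y

end Cfsg.Agent.Lib.Helper45.UStd
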