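import Mathlib
import Cfsg.Prelude.Def_LieTypeDatum
import Cfsg.Agent.Lib.Helper45.UStd

set_option autoImplicit false
set_option linter.unusedSectionVars false

/-!
Symmetric / skew-symmetric packaging of the descent data for unitary graph involutions.
-/

namespace Cfsg.Agent.Lib.Helper45.UShape

open Matrix Cfsg.Agent.Lib.Helper43.SUBase Cfsg.Agent.Lib.Helper43.SUAuts
  Cfsg.Agent.Lib.Helper45.UGraph Cfsg.Agent.Lib.Helper45.UDescAlg Cfsg.Agent.Lib.Helper45.UDesc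
  Cfsg.Agent.Lib.Helper45.UDescEx

variable {F : Type*} [Field F] {q n : ℕ} {F₀ : Type*} [Field F₀]

theorem gm_det_isUnit (g : ↥(Cfsg.GU n F q)) : IsUnit (gm g).det := by
  have h := congrArg Matrix.det (gm_mul_inv g)
  rw [Matrix.det_mul, Matrix.det_one] at h
  exact IsUnit.of_mul_eq_one _ h

theorem desc_sym (D : QD F q) (ι : F₀ →+* F) (hι : ∀ x : F, D.φ x = x ↔ x ∈ Set.range ι)
    (h : ↥(Cfsg.GU n F q)) (hs : (gm h)ᵀ = gm h) :
    ∃ (k ki : Matrix (Fin n) (Fin n) F) (Sg : GL (Fin n) F₀),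
      Desc D ι 1 h k ki (Sg : Matrix (Fin n) (Fin n) F₀) ∧
      (Sg : Matrix (Fin n) (Fin n) F₀)ᵀ = Sg := by
  obtain ⟨k, ki, S, hd, hsym, hdet⟩ := exists_desc D ι hι 1 1 1 (one_mul 1) (map_one _) one_ne_zero
    (by rw [map_one, one_mul]) (by rw [map_one, one_mul]) h (by rw [one_smul]; exact hs)
  refine ⟨k, ki, Matrix.GeneralLinearGroup.mkOfDetNeZero S hdet.ne_zero, hd, ?_⟩
  show Sᵀ = S
  apply Matrix.map_injective ι.injective
  show (Sᵀ).map ι = S.map ι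
  rw [one_smul] at hsym
  exact hsym

theorem desc_skew (D : QD F q) (ι : F₀ →+* F) (hι : ∀ x : F, D.φ x = x ↔ x ∈ Set.range ι)
    (θ₀ : F) (hθ0 : θ₀ ≠ 0) (hθ : D.φ θ₀ = -θ₀)
    (h : ↥(Cfsg.GU n F q)) (hs : (gm h)ᵀ = -gm h) :
    ∃ (k ki : Matrix (Fin n) (Fin n) F) (Sg : GL (Fin n) F₀),
      Desc D ι θ₀ h k ki (Sg : Matrix (Fin n) (Fin n) F₀) ∧
      (Sg : Matrix (Fin n) (Fin n) F₀)ᵀ = -(Sg : Matrix (Fin n) (Fin n) F₀) := by
  obtain ⟨lam, hlam⟩ := D.nm (-1) (by rw [map_neg, map_one])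
  obtain ⟨k, ki, S, hd, hsym, hdet⟩ := exists_desc D ι hι (-1) θ₀ lam (by ring)
    (by rw [map_neg, map_one]) hθ0 (by rw [hθ]; ring) hlam h (by rw [neg_smul, one_smul]; exact hs)
  refine ⟨k, ki, Matrix.GeneralLinearGroup.mkOfDetNeZero S hdet.ne_zero, hd, ?_⟩
  show Sᵀ = -S
  apply Matrix.map_injective ι.injective
  show (Sᵀ).map ι = (-S).map ι
  rw [neg_smul, one_smul] at hsym
  have e : (-S).map ι = -(S.map ι) := by
    ext i j
    simp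
  rw [e]
  exact hsym

theorem h_sym (D : QD F q) (ι : F₀ →+* F) (hι : ∀ x : F, D.φ x = x ↔ x ∈ Set.range ι)
    (Sg : GL (Fin n) F₀) (hs : (Sg : Matrix (Fin n) (Fin n) F₀)ᵀ = Sg) :
    ∃ (h : ↥(Cfsg.GU n F q)) (k ki : Matrix (Fin n) (Fin n) F),
      Desc D ι 1 h k ki (Sg : Matrix (Fin n) (Fin n) F₀) ∧ (gm h)ᵀ = gm h := by
  obtain ⟨h, k, ki, hd, hh⟩ := exists_h (n := n) D ι hι 1 1 (one_mul 1) (map_one _) one_ne_zero
    (by rw [map_one, one_mul]) (Sg : Matrix (Fin n) (Fin n) F₀)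
    ((Sg⁻¹ : GL (Fin n) F₀) : Matrix (Fin n) (Fin n) F₀)
    (by rw [← Units.val_mul, mul_inv_cancel, Units.val_one])
    (by
      rw [one_smul]
      show ((Sg : Matrix (Fin n) (Fin n) F₀)ᵀ).map ι = _
      rw [hs])
  refine ⟨h, k, ki, hd, ?_⟩
  rw [one_smul] at hh
  exact hh

theorem h_skew (D : QD F q) (ι : F₀ →+* F) (hι : ∀ x : F, D.φ x = x ↔ x ∈ Set.range ι)
    (θ₀ : F) (hθ0 : θ₀ ≠ 0) (hθ : D.φ θ₀ = -θ₀)
    (Sg : GL (Fin n) F₀) (hs : (Sg : Matrix (Fin n) (Fin n) F₀)ᵀ = -(Sg : Matrix (Fin n) (Fin n) F₀)) :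
    ∃ (h : ↥(Cfsg.GU n F q)) (k ki : Matrix (Fin n) (Fin n) F),
      Desc D ι θ₀ h k ki (Sg : Matrix (Fin n) (Fin n) F₀) ∧ (gm h)ᵀ = -gm h := by
  obtain ⟨h, k, ki, hd, hh⟩ := exists_h (n := n) D ι hι (-1) θ₀ (by ring)
    (by rw [map_neg, map_one]) hθ0 (by rw [hθ]; ring) (Sg : Matrix (Fin n) (Fin n) F₀)
    ((Sg⁻¹ : GL (Fin n) F₀) : Matrix (Fin n) (Fin n) F₀)
    (by rw [← Units.val_mul, mul_inv_cancel, Units.val_one])
    (by
      rw [neg_smul, one_smul]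
      show ((Sg : Matrix (Fin n) (Fin n) F₀)ᵀ).map ι = _
      rw [hs]
      ext i j
      simp)
  refine ⟨h, k, ki, hd, ?_⟩
  rw [neg_smul, one_smul] at hh
  exact hh

section fin

variable [Fintype F] {p f : ℕ} [Fact p.Prime] (hq : q = p ^ f) (hf : 1 ≤ f)
  (hF : Fintype.card F = q ^ 2) (hn : 3 ≤ n)

include hq hf hF hn

/-- shape of an involutory graph-class automorphism -/
theorem shape (D : QD F q) (γ : MulAut (Cfsg.PSU n F q)) (hγ : Cfsg.IsGraphAutClassPSU γ)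
    (hγ2 : orderOf γ = 2) :
    ∃ h : ↥(Cfsg.GU n F q), γ = gam D h ∧ ((gm h)ᵀ = gm h ∨ (gm h)ᵀ = -gm h) := by
  obtain ⟨h, rfl⟩ := graph_order_two hq hf hF hn D γ hγ hγ2
  exact ⟨h, rfl, (order_two_iff hq hf hF hn D h).1 hγ2⟩

end fin

end Cfsg.Agent.Lib.Helper45.UShape
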