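import Mathlib
import Cfsg.Prelude.Def_LieTypeDatum
import Cfsg.Agent.Lib.Helper45.UShape

set_option autoImplicit false
set_option linter.unusedSectionVars false

/-!
Characteristic two: the alternating property of `h ∈ GU` (as a bilinear form) corresponds to the
alternating property of its descended form, and is invariant under `h ↦ c • g h gᵀ`.
-/

namespace Cfsg.Agent.Lib.Helper45.UAlt

open Matrix Cfsg.Agent.Lib.Helper43.SUBase Cfsg.Agent.Lib.Helper43.SUAuts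
  Cfsg.Agent.Lib.Helper45.UGraph Cfsg.Agent.Lib.Helper45.UDescAlg Cfsg.Agent.Lib.Helper45.UDesc
open Cfsg.Agent.Lib.Helper40.HermAdj (adj adj_mul adj_one)
open Cfsg.Agent.Lib.Helper45.SymCong (bil_conj)

variable {F : Type*} [Field F] {q n : ℕ} {F₀ : Type*} [Field F₀]

/-- a symmetric matrix with zero diagonal is alternating in characteristic two -/
theorem alt_of_diag [CharP F 2] (M : Matrix (Fin n) (Fin n) F) (hM : Mᵀ = M)
    (hd : ∀ i, M i i = 0) (y : Fin n → F) : y ⬝ᵥ M *ᵥ y = 0 := by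
  classical
  let Qf : (Fin n → F) →+ F :=
    { toFun := fun y => y ⬝ᵥ M *ᵥ y
      map_zero' := by simp
      map_add' := fun y z => by
        show (y + z) ⬝ᵥ M *ᵥ (y + z) = y ⬝ᵥ M *ᵥ y + z ⬝ᵥ M *ᵥ z
        rw [Matrix.mulVec_add, add_dotProduct, dotProduct_add, dotProduct_add]
        have hsym : z ⬝ᵥ M *ᵥ y = y ⬝ᵥ M *ᵥ z := by
          rw [Matrix.dotProduct_mulVec, ← Matrix.mulVec_transpose, hM, dotProduct_comm]
        rw [hsym]
        have := CharTwo.add_self_eq_zero (y ⬝ᵥ M *ᵥ z)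
        linear_combination this }
  have h1 : ∀ (i : Fin n) (c : F), Qf (Pi.single i c) = 0 := by
    intro i c
    show (Pi.single i c : Fin n → F) ⬝ᵥ M *ᵥ (Pi.single i c) = 0
    rw [single_dotProduct, Matrix.mulVec_single]
    simp [hd]
  have h2 : Qf y = ∑ i, Qf (Pi.single i (y i)) := by
    rw [← map_sum, Finset.univ_sum_single]
  show Qf y = 0
  rw [h2]
  exact Finset.sum_eq_zero (fun i _ => h1 i (y i))

/-- congruence and scaling preserve the alternating property -/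
theorem alt_cong' (A P : Matrix (Fin n) (Fin n) F) (c : F)
    (hA : ∀ y : Fin n → F, y ⬝ᵥ A *ᵥ y = 0) (y : Fin n → F) :
    y ⬝ᵥ (c • (Pᵀ * A * P)) *ᵥ y = 0 := by
  rw [Matrix.smul_mulVec, dotProduct_smul, ← bil_conj, hA, smul_zero]

theorem alt_cong'' (A P : Matrix (Fin n) (Fin n) F) (c : F)
    (hA : ∀ y : Fin n → F, y ⬝ᵥ A *ᵥ y = 0) (y : Fin n → F) :
    y ⬝ᵥ (c • (P * A * Pᵀ)) *ᵥ y = 0 := by
  have := alt_cong' A Pᵀ c hA y
  rw [Matrix.transpose_transpose] at this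
  exact this

section desc

variable {D : QD F q} {ι : F₀ →+* F} {h : ↥(Cfsg.GU n F q)} {k ki : Matrix (Fin n) (Fin n) F}
  {S : Matrix (Fin n) (Fin n) F₀}

theorem M_symm (hd : Desc D ι 1 h k ki S) (hsym : Sᵀ = S) :
    ((1 : F) • (k * adj D.φ k))ᵀ = (1 : F) • (k * adj D.φ k) := by
  have hS't : (S.map ι)ᵀ = S.map ι := by
    show (Sᵀ).map ι = S.map ι
    rw [hsym]
  have e1 : ((1 : F) • (k * adj D.φ k))ᵀ * S.map ι = 1 := by
    have := congrArg Matrix.transpose hd.dd.hS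
    rw [Matrix.transpose_mul, Matrix.transpose_one, hS't] at this
    exact this
  calc ((1 : F) • (k * adj D.φ k))ᵀ
      = ((1 : F) • (k * adj D.φ k))ᵀ * (S.map ι * ((1 : F) • (k * adj D.φ k))) := by
        rw [hd.dd.hS, Matrix.mul_one]
    _ = (1 : F) • (k * adj D.φ k) := by rw [← Matrix.mul_assoc, e1, Matrix.one_mul]

/-- alternating descended form ⟹ alternating `h` -/
theorem alt_h_of_alt_S [CharP F 2] (hd : Desc D ι 1 h k ki S) (hsym : Sᵀ = S)
    (halt : ∀ x : Fin n → F₀, x ⬝ᵥ S *ᵥ x = 0) (y : Fin n → F) : y ⬝ᵥ gm h *ᵥ y = 0 := by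
  classical
  have hS't : (S.map ι)ᵀ = S.map ι := by
    show (Sᵀ).map ι = S.map ι
    rw [hsym]
  have hS'alt : ∀ y : Fin n → F, y ⬝ᵥ S.map ι *ᵥ y = 0 := by
    apply alt_of_diag _ hS't
    intro i
    have h0 := halt (Pi.single i 1)
    rw [single_dotProduct, Matrix.mulVec_single, one_mul] at h0
    have h1 : S i i = 0 := by simpa using h0
    show ι (S i i) = 0
    rw [h1, map_zero]
  have hMs := M_symm hd hsym
  have hMalt : ∀ y : Fin n → F, y ⬝ᵥ ((1 : F) • (k * adj D.φ k)) *ᵥ y = 0 := by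
    intro y
    have e : (1 : F) • (k * adj D.φ k)
        = (1 : F) • (((1 : F) • (k * adj D.φ k))ᵀ * S.map ι * ((1 : F) • (k * adj D.φ k))) := by
      rw [one_smul (M := F) (b := ((1 : F) • (k * adj D.φ k))ᵀ * S.map ι * _), hMs,
        Matrix.mul_assoc, hd.dd.hS, Matrix.mul_one]
    rw [e]
    exact alt_cong' _ _ _ hS'alt y
  obtain ⟨κ, hκ, hH⟩ := hd.hh
  have e := hd.dd.hHe (gm h) κ hH
  rw [e]
  exact alt_cong'' _ _ _ hMalt y

/-- alternating `h` ⟹ alternating descended form -/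
theorem alt_S_of_alt_h (hd : Desc D ι 1 h k ki S) (hsym : Sᵀ = S)
    (halt : ∀ y : Fin n → F, y ⬝ᵥ gm h *ᵥ y = 0) (x : Fin n → F₀) : x ⬝ᵥ S *ᵥ x = 0 := by
  classical
  have hS't : (S.map ι)ᵀ = S.map ι := by
    show (Sᵀ).map ι = S.map ι
    rw [hsym]
  obtain ⟨κ, hκ, hH⟩ := hd.hh
  have hMalt : ∀ y : Fin n → F, y ⬝ᵥ ((1 : F) • (k * adj D.φ k)) *ᵥ y = 0 := by
    intro y
    have e : (1 : F) • (k * adj D.φ k) = κ⁻¹ • (k * gm h * kᵀ) := by
      rw [hH, smul_smul, inv_mul_cancel₀ hκ, one_smul, one_smul]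
    rw [e]
    exact alt_cong'' _ _ _ halt y
  have hS'alt : ∀ y : Fin n → F, y ⬝ᵥ S.map ι *ᵥ y = 0 := by
    intro y
    have e : S.map ι = (1 : F) • ((S.map ι)ᵀ * ((1 : F) • (k * adj D.φ k)) * S.map ι) := by
      rw [one_smul (M := F) (b := (S.map ι)ᵀ * _ * S.map ι), hS't, Matrix.mul_assoc, hd.dd.hS',
        Matrix.mul_one]
    rw [e]
    exact alt_cong' _ _ _ hMalt y
  have h1 := hS'alt (fun i => ι (x i))
  have h2 : (fun i => ι (x i)) ⬝ᵥ S.map ι *ᵥ (fun i => ι (x i)) = ι (x ⬝ᵥ S *ᵥ x) := by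
    simp only [dotProduct, Matrix.mulVec, Matrix.map_apply, map_sum, map_mul]
  rw [h2] at h1
  exact (map_eq_zero ι).1 h1

end desc

end Cfsg.Agent.Lib.Helper45.UAlt
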