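import Mathlib
import Cfsg.Prelude.Def_LieTypeDatum
import Cfsg.Agent.Lib.Helper45.UShape
import Cfsg.Agent.Lib.Helper45.GraphSplit
import Cfsg.Agent.Lib.Helper43.SUFieldCent

set_option autoImplicit false
set_option linter.unusedSectionVars false

/-!
Splitting of the `Inndiag`-classes of involutory graph automorphisms of `PSU_n(q)` into
`Inn`-classes: the count is the index in the norm one group of the group of determinants of the
unitary similitudes of `h`.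
-/

namespace Cfsg.Agent.Lib.Helper45.USplit

open Matrix Cfsg.Agent.Lib.Helper43.SUBase Cfsg.Agent.Lib.Helper43.SUAuts
  Cfsg.Agent.Lib.Helper43.SUInn Cfsg.Agent.Lib.Helper43.SUOut
  Cfsg.Agent.Lib.Helper43.SUDescent Cfsg.Agent.Lib.Helper43.SUFieldCent
  Cfsg.Agent.Lib.Helper45.UGraph Cfsg.Agent.Lib.Helper45.UDescAlg Cfsg.Agent.Lib.Helper45.UDesc
  Cfsg.Agent.Lib.Helper45.UShape
open Cfsg.Agent.Lib.Helper40.HermAdj (adj adj_mul adj_one)
open Cfsg.Agent.Lib.Helper45.GraphSplit (simPairs simPairs_cong simPairs_reindex symp_pair symp_det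
  sym_pairs)
open Cfsg.Agent.Lib.Helper45.SymCong (skew_cong)

variable {F : Type*} [Field F] {q n : ℕ} {F₀ : Type*} [Field F₀]

/-- the multiplier of a unitary similitude has norm one -/
theorem mult_norm (D : QD F q) (hn : 1 ≤ n) (g h : ↥(Cfsg.GU n F q)) (c : F)
    (e : gm g * gm h * (gm g)ᵀ = c • gm h) : c * D.φ c = 1 := by
  have hg : adj D.φ (gm g) * gm g = 1 := gm_mem D g
  have hh : adj D.φ (gm h) * gm h = 1 := gm_mem D h
  have hh' : gm h * adj D.φ (gm h) = 1 := _root_.mul_eq_one_comm.1 hh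
  have hg' : gm g * adj D.φ (gm g) = 1 := _root_.mul_eq_one_comm.1 hg
  have hgt : (gm g)ᵀ * cj D.φ (gm g) = 1 := by
    have := congrArg Matrix.transpose hg
    rw [Matrix.transpose_mul, Matrix.transpose_one, adj_eq, Matrix.transpose_transpose] at this
    exact this
  have e1 : (gm g * gm h * (gm g)ᵀ) * adj D.φ (gm g * gm h * (gm g)ᵀ) = 1 := by
    rw [adj_mul, adj_mul, adj_transpose]
    calc gm g * gm h * (gm g)ᵀ * (cj D.φ (gm g) * (adj D.φ (gm h) * adj D.φ (gm g)))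
        = gm g * (gm h * (((gm g)ᵀ * cj D.φ (gm g)) * adj D.φ (gm h))) * adj D.φ (gm g) := by
          simp only [Matrix.mul_assoc]
      _ = 1 := by rw [hgt, Matrix.one_mul, hh', Matrix.mul_one, hg']
  rw [e, adj_smul, Matrix.smul_mul, Matrix.mul_smul, smul_smul, hh'] at e1
  have h00 := congrFun (congrFun e1 ⟨0, hn⟩) ⟨0, hn⟩
  simp only [Matrix.smul_apply, Matrix.one_apply_eq, smul_eq_mul, mul_one] at h00
  linear_combination h00

/-- `det(g)² = cⁿ` for a similitude -/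
theorem det_sq (g h : ↥(Cfsg.GU n F q)) (c : F)
    (e : gm g * gm h * (gm g)ᵀ = c • gm h) : (gm g).det ^ 2 = c ^ n := by
  have h1 := congrArg Matrix.det e
  rw [Matrix.det_mul, Matrix.det_mul, Matrix.det_transpose, Matrix.det_smul, Fintype.card_fin]
    at h1
  apply mul_right_cancel₀ (gm_det_isUnit h).ne_zero
  linear_combination h1

theorem J_sub_skew {K : Type*} [Field K] {m : ℕ} (e : Fin n ≃ Fin m ⊕ Fin m) :
    ((Matrix.J (Fin m) K).submatrix e e)ᵀ = -((Matrix.J (Fin m) K).submatrix e e) := by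
  rw [Matrix.transpose_submatrix, Matrix.J_transpose]
  rfl

theorem J_sub_det {K : Type*} [Field K] {m : ℕ} (e : Fin n ≃ Fin m ⊕ Fin m) :
    IsUnit ((Matrix.J (Fin m) K).submatrix e e).det := by
  rw [Matrix.det_submatrix_equiv_self]
  exact Matrix.isUnit_det_J (Fin m) K

/-- elements of the norm one group -/
noncomputable def toμ (D : QD F q) (c : F) (hc : c * D.φ c = 1) : ↥(μ F q) :=
  ⟨Units.mk0 c (by rintro rfl; rw [zero_mul] at hc; exact zero_ne_one hc),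
    (mem_μ_iff _).2 (by rw [Units.val_mk0, ← D.hφ]; exact hc)⟩

theorem toμ_coe (D : QD F q) (c : F) (hc : c * D.φ c = 1) :
    (((toμ D c hc : ↥(μ F q)) : Fˣ) : F) = c := rfl

theorem μ_ext {a b : ↥(μ F q)} (h : ((a : Fˣ) : F) = ((b : Fˣ) : F)) : a = b :=
  Subtype.ext (Units.ext h)

theorem μ_pow (a : ↥(μ F q)) (k : ℕ) : (((a ^ k : ↥(μ F q)) : Fˣ) : F) = ((a : Fˣ) : F) ^ k := by
  rw [Subgroup.coe_pow, Units.val_pow_eq_pow_val]

theorem μ_mul (a b : ↥(μ F q)) :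
    (((a * b : ↥(μ F q)) : Fˣ) : F) = ((a : Fˣ) : F) * ((b : Fˣ) : F) := by
  rw [Subgroup.coe_mul, Units.val_mul]

/-- unitary similitudes from real similitudes, with their determinants -/
theorem exists_gu (D : QD F q) (ι : F₀ →+* F) (hι : ∀ x : F, D.φ x = x ↔ x ∈ Set.range ι)
    {θ : F} {h : ↥(Cfsg.GU n F q)} {k ki : Matrix (Fin n) (Fin n) F}
    {S : Matrix (Fin n) (Fin n) F₀} (hd : Desc D ι θ h k ki S)
    (s : F) (hs : s * D.φ s = 1) (P : F₀ → F₀)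
    (hP : ∀ τ : F₀, τ ≠ 0 → (τ, P τ) ∈ simPairs S) :
    ∃ (g : ↥(Cfsg.GU n F q)) (c' c : F) (τ : F₀), c ≠ 0 ∧ D.φ c = c * s ∧ ι τ = c * D.φ c ∧
      gm g * gm h * (gm g)ᵀ = c' • gm h ∧ (gm g).det = (c⁻¹) ^ n * ι (P τ) := by
  classical
  obtain ⟨κ, hκ, hH⟩ := hd.hh
  have d := hd.dd
  obtain ⟨c, hc0, hc⟩ := hex D s hs
  obtain ⟨τ, hτ⟩ := (hι (c * D.φ c)).1 (D.nm_fixed c)
  have hτ0 : τ ≠ 0 := by
    rintro rfl
    rw [map_zero] at hτ
    exact mul_ne_zero hc0 ((map_ne_zero D.φ).2 hc0) hτ.symm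
  obtain ⟨B, hB, h1, h2⟩ := hP τ hτ0
  simp only at h1 h2
  have h1' : (B.map ι)ᵀ * S.map ι * B.map ι = ι τ • S.map ι := by
    rw [← map_mul3, h1, map_smul_ι]
  have hu := d.unitary (B.map ι) (cj_map D ι hι B) (ι τ) c h1' hτ.symm hc0
  have hBi : B.map ι * (B⁻¹).map ι = 1 := by
    rw [← Matrix.map_mul, Matrix.mul_nonsing_inv B hB, map_one_ι]
  refine ⟨ofMat D _ (unfold_adj _ _ hu), c⁻¹ * c⁻¹ * ι τ, c, τ, hc0, hc, hτ, ?_, ?_⟩
  · rw [gm_ofMat]
    exact d.comm (gm h) κ hH (B.map ι) ((B⁻¹).map ι) hBi (ι τ) h1' c⁻¹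
  · rw [gm_ofMat, Matrix.det_smul, Fintype.card_fin, Matrix.det_mul, Matrix.det_mul]
    have e1 : ki.det * k.det = 1 := by rw [← Matrix.det_mul, d.h2, Matrix.det_one]
    have e2 : (B.map ι).det = ι B.det := by
      rw [← RingHom.mapMatrix_apply, ← RingHom.map_det]
    rw [e2, h2]
    linear_combination (c⁻¹ ^ n * ι (P τ)) * e1

section fin

variable [Fintype F] {p f : ℕ} [Fact p.Prime] (hq : q = p ^ f) (hf : 1 ≤ f)
  (hF : Fintype.card F = q ^ 2) (hn : 3 ≤ n)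

include hq hf hF hn

/-- the split count of `gam D h` through the determinants of the unitary similitudes of `h` -/
theorem count_of (D : QD F q) (h : ↥(Cfsg.GU n F q)) (N : Subgroup ↥(μ F q))
    (h1 : ∀ (g : ↥(Cfsg.GU n F q)) (c : F), gm g * gm h * (gm g)ᵀ = c • gm h → detμ hF g ∈ N)
    (h2 : ∀ u ∈ N, ∃ (g : ↥(Cfsg.GU n F q)) (c : F),
      gm g * gm h * (gm g)ᵀ = c • gm h ∧ detμ hF g = u) :
    Cfsg.splitClassCount (Cfsg.inndiagPSU n F q) (Cfsg.Inn (Cfsg.PSU n F q)) (gam D h)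
      = N.index := by
  apply splitCount_eq hq hf hF hn
  · intro c hc
    obtain ⟨t, ht⟩ := (commute_iff hq hf hF hn D c h).1 hc.eq
    exact h1 c t ht
  · intro u hu
    obtain ⟨g, c, h3, h4⟩ := h2 u hu
    exact ⟨g, (commute_iff hq hf hF hn D g h).2 ⟨c, h3⟩, h4⟩

/-- no restriction: the count is `gcd(q + 1, n)` -/
theorem count_general (D : QD F q) (h : ↥(Cfsg.GU n F q))
    (hroot : ∀ d t : ↥(μ F q), d ^ 2 = t ^ n → ∃ s : ↥(μ F q), d = s ^ n) :
    Cfsg.splitClassCount (Cfsg.inndiagPSU n F q) (Cfsg.Inn (Cfsg.PSU n F q)) (gam D h)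
      = Nat.gcd (q + 1) n := by
  rw [← card_μ hF, ← IsCyclic.index_powMonoidHom_range]
  apply count_of hq hf hF hn D h
  · intro g c e
    have hc := mult_norm D (by omega) g h c e
    have h5 := det_sq g h c e
    obtain ⟨s, hs⟩ := hroot (detμ hF g) (toμ D c hc) (μ_ext (by
      rw [μ_pow, μ_pow, toμ_coe, detμ_coe]; exact h5))
    exact ⟨s, hs.symm⟩
  · rintro u ⟨s, rfl⟩
    refine ⟨scalarGU D ((s : Fˣ) : F) (norm_of_mem D s), ((s : Fˣ) : F) * ((s : Fˣ) : F), ?_, ?_⟩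
    · rw [gm_scalarGU, Matrix.transpose_smul, Matrix.transpose_one, Matrix.smul_mul,
        Matrix.one_mul, Matrix.mul_smul, Matrix.mul_one, smul_smul]
    · rw [detμ_scalarGU]
      rfl

/-- symplectic type: the count is `gcd(q + 1, m)` -/
theorem count_skew (h2 : (2 : F) ≠ 0) (h2₀ : (2 : F₀) ≠ 0) {m : ℕ} (hnm : n = 2 * m)
    (D : QD F q) (ι : F₀ →+* F) (hι : ∀ x : F, D.φ x = x ↔ x ∈ Set.range ι)
    {θ : F} {h : ↥(Cfsg.GU n F q)} {k ki : Matrix (Fin n) (Fin n) F}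
    {S : Matrix (Fin n) (Fin n) F₀} (hd : Desc D ι θ h k ki S) (hS : Sᵀ = -S)
    (hs : (gm h)ᵀ = -gm h) :
    Cfsg.splitClassCount (Cfsg.inndiagPSU n F q) (Cfsg.Inn (Cfsg.PSU n F q)) (gam D h)
      = Nat.gcd (q + 1) m := by
  classical
  have hc : Fintype.card (Fin n) = Fintype.card (Fin m ⊕ Fin m) := by
    simp [hnm]; omega
  let e : Fin n ≃ Fin m ⊕ Fin m := Fintype.equivOfCardEq hc
  have hJs₀ := J_sub_skew (K := F₀) e
  have hJsF := J_sub_skew (K := F) e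
  have hJd₀ := J_sub_det (K := F₀) e
  have hJdF := J_sub_det (K := F) e
  -- over `F`
  obtain ⟨k₁, hk₁, ek₁⟩ := skew_cong h2 _ _ hJsF hs hJdF (gm_det_isUnit h)
  have hP : simPairs (gm h) = simPairs (Matrix.J (Fin m) F) := by
    rw [simPairs_cong _ _ k₁ hk₁ ek₁, simPairs_reindex]
  -- over `F₀`
  have hSd : IsUnit S.det := (det_ne_of_desc hd).isUnit
  obtain ⟨k₀, hk₀, ek₀⟩ := skew_cong h2₀ _ _ hJs₀ hS hJd₀ hSd
  have hP₀ : simPairs S = simPairs (Matrix.J (Fin m) F₀) := by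
    rw [simPairs_cong _ _ k₀ hk₀ ek₀, simPairs_reindex]
  rw [← card_μ hF, ← IsCyclic.index_powMonoidHom_range]
  apply count_of hq hf hF hn D h
  · intro g c e'
    have hcn := mult_norm D (by omega) g h c e'
    have hc0 : c ≠ 0 := by
      rintro rfl
      rw [zero_mul] at hcn
      exact zero_ne_one hcn
    have hmem : (c, (gm g).det) ∈ simPairs (gm h) := by
      refine ⟨(gm g)ᵀ, ?_, ?_, Matrix.det_transpose _⟩
      · rw [Matrix.det_transpose]; exact gm_det_isUnit g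
      · show (gm g)ᵀᵀ * gm h * (gm g)ᵀ = c • gm h
        rw [Matrix.transpose_transpose]
        exact e'
    rw [hP] at hmem
    have h3 := symp_det m c _ hc0 hmem
    refine ⟨toμ D c hcn, μ_ext ?_⟩
    rw [powMonoidHom_apply, μ_pow, toμ_coe, detμ_coe, h3]
  · rintro u ⟨s, rfl⟩
    obtain ⟨g, c', c, τ, hc0, hc, hτ, hcomm, hdet⟩ :=
      exists_gu D ι hι hd ((s : Fˣ) : F) (norm_of_mem D s) (fun τ => τ ^ m)
        (fun τ hτ => by rw [hP₀]; exact symp_pair m τ hτ)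
    refine ⟨g, c', hcomm, μ_ext ?_⟩
    rw [powMonoidHom_apply, μ_pow, detμ_coe, hdet, map_pow, hτ, hc, hnm, pow_mul, ← mul_pow]
    congr 1
    field_simp

/-- orthogonal type: the count is `gcd(m, (q + 1)/2)` -/
theorem count_sym [Fintype F₀] (h2 : (2 : F) ≠ 0) (h2₀ : (2 : F₀) ≠ 0) {m M : ℕ}
    (hnm : n = 2 * m) (hM : 2 * M = q + 1)
    (D : QD F q) (ι : F₀ →+* F) (hι : ∀ x : F, D.φ x = x ↔ x ∈ Set.range ι)
    {θ : F} {h : ↥(Cfsg.GU n F q)} {k ki : Matrix (Fin n) (Fin n) F}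
    {S : Matrix (Fin n) (Fin n) F₀} (hd : Desc D ι θ h k ki S) (hS : Sᵀ = S) :
    Cfsg.splitClassCount (Cfsg.inndiagPSU n F q) (Cfsg.Inn (Cfsg.PSU n F q)) (gam D h)
      = Nat.gcd m M := by
  classical
  have hm : 0 < m := by omega
  have hSd : IsUnit S.det := (det_ne_of_desc hd).isUnit
  obtain ⟨ε, hε⟩ : ∃ ε : ↥(μ F q), ((ε : Fˣ) : F) = -1 :=
    ⟨toμ D (-1) (by rw [map_neg, map_one]; ring), rfl⟩
  have hcard : Nat.card (Subgroup.zpowers ε) * M = Nat.card ↥(μ F q) := by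
    rw [Nat.card_zpowers, card_μ hF]
    have : Fact (Nat.Prime 2) := ⟨Nat.prime_two⟩
    have ho : orderOf ε = 2 := by
      apply orderOf_eq_prime
      · apply μ_ext
        rw [μ_pow, hε]
        simp
      · intro h
        have h3 := congrArg (fun t : ↥(μ F q) => ((t : Fˣ) : F)) h
        simp only [hε] at h3
        apply h2
        have h4 : (((1 : ↥(μ F q)) : Fˣ) : F) = 1 := rfl
        rw [h4] at h3
        linear_combination -h3
    rw [ho, hM]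
  rw [← Cfsg.Agent.Lib.Helper43.CycIndex.index_sup_pow m M (Subgroup.zpowers ε) hcard]
  apply count_of hq hf hF hn D h
  · intro g c e'
    have hcn := mult_norm D (by omega) g h c e'
    have h5' := det_sq g h c e'
    have h5 : (gm g).det ^ 2 = (c ^ m) ^ 2 := by rw [h5', hnm, pow_mul']
    rcases sq_eq_sq_iff_eq_or_eq_neg.1 h5 with h6 | h6
    · apply Subgroup.mem_sup_left
      refine ⟨toμ D c hcn, μ_ext ?_⟩
      rw [powMonoidHom_apply, μ_pow, toμ_coe, detμ_coe, h6]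
    · have : detμ hF g = (toμ D c hcn) ^ m * ε := μ_ext (by
        rw [μ_mul, μ_pow, toμ_coe, hε, detμ_coe, h6]; ring)
      rw [this]
      exact Subgroup.mul_mem_sup ⟨_, rfl⟩ (Subgroup.mem_zpowers _)
  · intro u hu
    obtain ⟨y, ⟨x, rfl⟩, z, hz, rfl⟩ := Subgroup.mem_sup.1 hu
    obtain ⟨j, rfl⟩ := Subgroup.mem_zpowers_iff.1 hz
    have hε2 : ε ^ 2 = 1 := μ_ext (by rw [μ_pow, hε]; simp)
    rcases Int.even_or_odd j with hj | hj
    · obtain ⟨g, c', c, τ, hc0, hc, hτ, hcomm, hdet⟩ :=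
        exists_gu D ι hι hd ((x : Fˣ) : F) (norm_of_mem D x) (fun τ => τ ^ m)
          (fun τ hτ => (sym_pairs h2₀ hnm hm S hS hSd τ hτ).1)
      refine ⟨g, c', hcomm, μ_ext ?_⟩
      have hz1 : ε ^ j = 1 := by
        obtain ⟨r, rfl⟩ := hj
        rw [← two_mul, _root_.zpow_mul, zpow_ofNat, hε2, _root_.one_zpow]
      rw [hz1, mul_one, powMonoidHom_apply, μ_pow, detμ_coe, hdet, map_pow, hτ, hc, hnm, pow_mul,
        ← mul_pow]
      congr 1
      field_simp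
    · obtain ⟨g, c', c, τ, hc0, hc, hτ, hcomm, hdet⟩ :=
        exists_gu D ι hι hd ((x : Fˣ) : F) (norm_of_mem D x) (fun τ => -τ ^ m)
          (fun τ hτ => (sym_pairs h2₀ hnm hm S hS hSd τ hτ).2)
      refine ⟨g, c', hcomm, μ_ext ?_⟩
      have hz1 : ε ^ j = ε := by
        obtain ⟨r, rfl⟩ := hj
        rw [_root_.zpow_add, zpow_one, _root_.zpow_mul, zpow_ofNat, hε2, _root_.one_zpow, one_mul]
      rw [hz1, μ_mul, hε, powMonoidHom_apply, μ_pow, detμ_coe, hdet, map_neg, map_pow, hτ, hc, hnm,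
        pow_mul, mul_neg, ← mul_pow, mul_neg, mul_one]
      congr 2
      field_simp

/-- roots: `q` even -/
theorem root_even (hqe : Even q) (d t : ↥(μ F q)) (h : d ^ 2 = t ^ n) :
    ∃ s : ↥(μ F q), d = s ^ n := by
  obtain ⟨r, hr⟩ := hqe
  have hcard : ∀ x : ↥(μ F q), x ^ (q + 1) = 1 := fun x => by
    rw [← card_μ hF]
    exact pow_card_eq_one'
  have hsq : ∀ x : ↥(μ F q), (x ^ 2) ^ (r + 1) = x := fun x => by
    rw [← pow_mul, show 2 * (r + 1) = (q + 1) + 1 by omega, pow_succ, hcard, one_mul]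
  refine ⟨t ^ (r + 1), ?_⟩
  calc d = (d ^ 2) ^ (r + 1) := (hsq d).symm
    _ = (t ^ (r + 1)) ^ n := by rw [h, ← pow_mul, ← pow_mul, mul_comm]

/-- roots: `n` odd -/
theorem root_odd (D : QD F q) (hodd : Odd n) (d t : ↥(μ F q)) (h : d ^ 2 = t ^ n) :
    ∃ s : ↥(μ F q), d = s ^ n := by
  obtain ⟨ε, hε⟩ : ∃ ε : ↥(μ F q), ((ε : Fˣ) : F) = -1 :=
    ⟨toμ D (-1) (by rw [map_neg, map_one]; ring), rfl⟩
  obtain ⟨k, hk⟩ := hodd
  obtain ⟨s₀, hs₀⟩ : ∃ s₀ : ↥(μ F q), s₀ = d / t ^ k := ⟨_, rfl⟩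
  have h1 : s₀ ^ 2 = t := by
    rw [hs₀, div_pow, h, hk, ← pow_mul, pow_succ, mul_comm k 2]
    exact mul_div_cancel_left _ _
  have h2' : d ^ 2 = (s₀ ^ n) ^ 2 := by rw [← pow_mul, mul_comm, pow_mul, h1, h]
  have h2 : (((d : ↥(μ F q)) : Fˣ) : F) ^ 2 = ((((s₀ : ↥(μ F q)) : Fˣ) : F) ^ n) ^ 2 := by
    rw [← μ_pow, h2', μ_pow, μ_pow]
  rcases sq_eq_sq_iff_eq_or_eq_neg.1 h2 with h3 | h3
  · exact ⟨s₀, μ_ext (by rw [h3, μ_pow])⟩
  · refine ⟨ε * s₀, μ_ext ?_⟩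
    rw [h3, μ_pow, μ_mul, hε, mul_pow, Odd.neg_one_pow ⟨k, hk⟩]
    ring

end fin

end Cfsg.Agent.Lib.Helper45.USplit
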